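import Mathlib
import Cfsg.Prelude.Def_GeometricClasses
import Cfsg.Prelude.Def_Classical
import Cfsg.Agent.Helper45.Spinor

set_option autoImplicit false

/-!
Helper library (helper42), piece `OddOmega` of the call for S5996 (helper43):
an isometry of odd order of a non-degenerate quadratic form over a finite field of odd
characteristic lies in `Ω` (the commutator subgroup of the isometry group).
-/

namespace Cfsg.Agent.Helper42

open Module

/-- the square of every isometry lies in the commutator subgroup of the isometry group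
(odd characteristic, non-degenerate polar form): the isometry group is generated by
reflections, which are involutions. -/
theorem sq_mem_commutator_isometryGroup {F : Type*} [Field F] [Fintype F] (h2 : (2 : F) ≠ 0)
    {ι : Type} [Fintype ι] [DecidableEq ι] (Q : QuadraticForm F (ι → F))
    (hQ : (QuadraticMap.polarBilin Q).Nondegenerate) (g : ↥(Cfsg.isometryGroup F ⇑Q)) :
    g ^ 2 ∈ commutator ↥(Cfsg.isometryGroup F ⇑Q) := by
  classical
  let f : ↥(Cfsg.isometryGroup F ⇑Q) →* Abelianization ↥(Cfsg.isometryGroup F ⇑Q) :=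
    Abelianization.of
  let S : Subgroup ↥(Cfsg.isometryGroup F ⇑Q) :=
    ((powMonoidHom 2 : Abelianization ↥(Cfsg.isometryGroup F ⇑Q) →*
      Abelianization ↥(Cfsg.isometryGroup F ⇑Q)).ker).comap f
  have hle : Cfsg.Agent.Helper45.reflGroup Q ≤ S := by
    unfold Cfsg.Agent.Helper45.reflGroup
    rw [Subgroup.closure_le]
    rintro r ⟨v, hv, rfl⟩
    show f (Cfsg.Agent.Helper45.reflO Q v hv) ^ 2 = 1
    rw [← map_pow, pow_two, Cfsg.Agent.Helper45.reflO_mul_self, map_one]
  have hg : g ∈ S := hle (by rw [Cfsg.Agent.Helper45.reflGroup_eq_top Q h2 hQ]; trivial)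
  have h1 : f (g ^ 2) = 1 := by
    rw [map_pow]
    exact hg
  rw [← Abelianization.ker_of]
  exact h1

theorem odd_order_mem_omega {F : Type*} [Field F] [Fintype F] (h2 : (2 : F) ≠ 0) {ι : Type}
    [Fintype ι] [DecidableEq ι] (Q : QuadraticForm F (ι → F))
    (hQ : (QuadraticMap.polarBilin Q).Nondegenerate) (x : GL ι F)
    (hx : x ∈ Cfsg.isometryGroup F ⇑Q) (k : ℕ) (hk : Odd k) (hxk : x ^ k = 1) :
    x ∈ Cfsg.Geo.omegaGL ⇑Q := by
  classical
  obtain ⟨m, rfl⟩ := hk
  let x' : ↥(Cfsg.isometryGroup F ⇑Q) := ⟨x, hx⟩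
  have hx'k : x' ^ (2 * m + 1) = 1 := Subtype.ext (by simpa [x'] using hxk)
  have hx' : x' = (x' ^ 2) ^ (m + 1) := by
    rw [← pow_mul]
    have h3 : 2 * (m + 1) = (2 * m + 1) + 1 := by ring
    rw [h3, pow_succ, hx'k, one_mul]
  refine ⟨x', ?_, rfl⟩
  rw [hx']
  exact Subgroup.pow_mem _ (sq_mem_commutator_isometryGroup h2 Q hQ x') _

end Cfsg.Agent.Helper42
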