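import Mathlib
import Cfsg.Prelude.Def_GeometricClasses
import Cfsg.Prelude.Def_Classical
import Cfsg.Agent.Helper43.JordanRank

set_option autoImplicit false

/-!
Helper library (helper42), piece `ParityW` of the call for S5996 (helper43):
for a unipotent isometry `A` of a quadratic form in odd characteristic and an `A`-invariant
subspace `W` on which the polar form is non-degenerate, `dim W + dim (W ∩ ker (A - 1)^l)` is
even for odd `l` (the rank of `(A - 1)^l` on `W` is even).
-/

namespace Cfsg.Agent.Helper42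

open Module

theorem restricted_rank_parity {F : Type*} [Field F] (h2 : (2 : F) ≠ 0) {ι : Type} [Fintype ι]
    [DecidableEq ι] (Q : QuadraticForm F (ι → F)) (A : Matrix ι ι F)
    (hA : ∀ v, Q (A.mulVec v) = Q v) (hnil : IsNilpotent (A - 1))
    (W : Submodule F (ι → F)) (hW : W.map (Matrix.toLin' A) ≤ W)
    (hnd : Cfsg.Geo.IsNondegenerateOn (QuadraticMap.polar ⇑Q) W) (l : ℕ) (hl : Odd l) :
    Even (finrank F ↥W + finrank F ↥(W ⊓ LinearMap.ker ((Matrix.toLin' A - 1) ^ l))) := by
  classical
  have hAW : ∀ x ∈ W, A.mulVec x ∈ W := by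
    intro x hx
    exact hW ⟨x, hx, Matrix.toLin'_apply A x⟩
  let T : Module.End F (ι → F) := Matrix.toLin' A - 1
  have hTapp : ∀ x, T x = A.mulVec x - x := by
    intro x
    show (Matrix.toLin' A - 1) x = _
    rw [LinearMap.sub_apply, Matrix.toLin'_apply, Module.End.one_apply]
  have hT : ∀ x ∈ W, T x ∈ W := by
    intro x hx
    rw [hTapp]
    exact W.sub_mem (hAW x hx) hx
  let g0 : W →ₗ[F] W := T.restrict hT
  have hg0 : ∀ x : W, ((g0 x : W) : ι → F) = T (x : ι → F) := fun x => rfl
  let f : W →ₗ[F] W := g0 + 1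
  have hf : ∀ x : W, ((f x : W) : ι → F) = A.mulVec (x : ι → F) := by
    intro x
    show ((g0 x + x : W) : ι → F) = _
    rw [Submodule.coe_add, hg0, hTapp]
    abel
  let Bf : LinearMap.BilinForm F W := LinearMap.BilinForm.restrict (QuadraticMap.polarBilin Q) W
  have hBf : ∀ x y : W, Bf x y = QuadraticMap.polar ⇑Q (x : ι → F) (y : ι → F) := fun x y => rfl
  have hpol : ∀ u v : ι → F,
      QuadraticMap.polar ⇑Q (A.mulVec u) (A.mulVec v) = QuadraticMap.polar ⇑Q u v := by
    intro u v
    unfold QuadraticMap.polar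
    rw [← Matrix.mulVec_add, hA, hA, hA]
  have hcomp : Bf.comp f f = Bf := by
    apply LinearMap.ext₂
    intro x y
    rw [LinearMap.BilinForm.comp_apply, hBf, hBf, hf, hf, hpol]
  have hBnd : Bf.Nondegenerate := by
    constructor
    · intro x hx
      by_contra hne
      have hne' : (x : ι → F) ≠ 0 := fun h => hne (Subtype.ext h)
      obtain ⟨y, hyW, hy⟩ := (hnd x x.2 hne').2
      exact hy (hx ⟨y, hyW⟩)
    · intro y hy
      by_contra hne
      have hne' : (y : ι → F) ≠ 0 := fun h => hne (Subtype.ext h)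
      obtain ⟨x, hxW, hx⟩ := (hnd y y.2 hne').1
      exact hx (hy ⟨x, hxW⟩)
  let b : Basis (Fin (finrank F W)) F W := Module.finBasis F W
  let G : Matrix (Fin (finrank F W)) (Fin (finrank F W)) F := LinearMap.BilinForm.toMatrix b Bf
  let B : Matrix (Fin (finrank F W)) (Fin (finrank F W)) F := LinearMap.toMatrix b b f
  have hGdet : G.det ≠ 0 := (LinearMap.BilinForm.nondegenerate_iff_det_ne_zero b).mp hBnd
  have hGsym : G.transpose = G := by
    ext i j
    simp only [G, Matrix.transpose_apply, LinearMap.BilinForm.toMatrix_apply, hBf]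
    exact QuadraticMap.polar_comm _ _ _
  have hBG : B.transpose * G * B = G := by
    have h := LinearMap.BilinForm.toMatrix_comp b b Bf f f
    rw [hcomp] at h
    exact h.symm
  have hBdet : B.det ≠ 0 := by
    intro h0
    apply hGdet
    rw [← hBG, Matrix.det_mul, Matrix.det_mul, h0, mul_zero]
  have hB' : B⁻¹ * B = 1 := Matrix.nonsing_inv_mul B (Ne.isUnit hBdet)
  have hB1 : B - 1 = LinearMap.toMatrix b b g0 := by
    show LinearMap.toMatrix b b (g0 + 1) - 1 = _
    rw [map_add, LinearMap.toMatrix_one, add_sub_cancel_right]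
  have hpow : ∀ n : ℕ, (B - 1) ^ n = LinearMap.toMatrix b b (g0 ^ n) := by
    intro n
    rw [hB1]
    induction n with
    | zero => rw [pow_zero, pow_zero, LinearMap.toMatrix_one]
    | succ n ih =>
      rw [pow_succ, pow_succ, ih, Module.End.mul_eq_comp, LinearMap.toMatrix_comp b b b]
  have hg0pow : ∀ n : ℕ, ∀ x : W, (((g0 ^ n) x : W) : ι → F) = (T ^ n) (x : ι → F) := by
    intro n
    induction n with
    | zero => intro x; simp
    | succ n ih =>
      intro x
      rw [pow_succ, pow_succ, Module.End.mul_apply, Module.End.mul_apply, ih, hg0]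
  have hTpow : ∀ n : ℕ, ∀ x : ι → F, (T ^ n) x = ((A - 1) ^ n).mulVec x := by
    intro n
    induction n with
    | zero => intro x; simp
    | succ n ih =>
      intro x
      rw [pow_succ, pow_succ, Module.End.mul_apply, ih, hTapp, ← Matrix.mulVec_mulVec,
        Matrix.sub_mulVec, Matrix.one_mulVec]
  obtain ⟨N, hN⟩ := hnil
  have hg0N : g0 ^ N = 0 := by
    apply LinearMap.ext
    intro x
    apply Subtype.ext
    rw [hg0pow, hTpow, hN, Matrix.zero_mulVec]
    rfl
  have hBnil : IsNilpotent (B - 1) := ⟨N, by rw [hpow, hg0N, map_zero]⟩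
  have heven := Cfsg.Agent.Helper43.JordanRank.even_rank_sym h2 G B B⁻¹
    (isUnit_iff_ne_zero.mpr hGdet) hGsym hBG hB' hBnil l hl
  have hrank : ((B - 1) ^ l).rank = finrank F (LinearMap.range (g0 ^ l)) := by
    rw [hpow, Matrix.rank_eq_finrank_range_toLin _ b b, Matrix.toLin_toMatrix]
  have hrk := LinearMap.finrank_range_add_finrank_ker (g0 ^ l)
  have hker : finrank F (LinearMap.ker (g0 ^ l)) = finrank F ↥(W ⊓ LinearMap.ker (T ^ l)) := by
    have hmap : (LinearMap.ker (g0 ^ l)).map W.subtype = W ⊓ LinearMap.ker (T ^ l) := by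
      ext v
      constructor
      · rintro ⟨x, hx, rfl⟩
        refine ⟨x.2, ?_⟩
        have hx' : (g0 ^ l) x = 0 := hx
        show (T ^ l) (x : ι → F) = 0
        rw [← hg0pow, hx']
        rfl
      · rintro ⟨hvW, hv⟩
        refine ⟨⟨v, hvW⟩, ?_, rfl⟩
        show (g0 ^ l) ⟨v, hvW⟩ = 0
        apply Subtype.ext
        rw [hg0pow]
        exact hv
    rw [← hmap, Submodule.finrank_map_subtype_eq]
  show Even (finrank F ↥W + finrank F ↥(W ⊓ LinearMap.ker (T ^ l)))
  rw [← hker]
  rw [hrank] at heven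
  have h3 : finrank F ↥W + finrank F (LinearMap.ker (g0 ^ l)) =
      finrank F (LinearMap.range (g0 ^ l)) + 2 * finrank F (LinearMap.ker (g0 ^ l)) := by
    omega
  rw [h3]
  exact Even.add heven (even_two_mul _)

end Cfsg.Agent.Helper42
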