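import Mathlib

/-! Helper42: piece SLZ of CALL S4279 (helper18). -/

set_option autoImplicit false

namespace Cfsg.Agent.Helper42.G2C

/-- PIECE SLZ: a central element of `SL₂(F)` is `1` or `-1`. -/
theorem g2c_sl2_center {F : Type*} [Field F] (g : Matrix.SpecialLinearGroup (Fin 2) F)
    (hc : ∀ g' : Matrix.SpecialLinearGroup (Fin 2) F, g * g' = g' * g) : g = 1 ∨ g = -1 := by
  have hU := hc ⟨!![1, 1; 0, 1], by simp [Matrix.det_fin_two]⟩
  have hL := hc ⟨!![1, 0; 1, 1], by simp [Matrix.det_fin_two]⟩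
  have hU' : (g : Matrix (Fin 2) (Fin 2) F) * !![1, 1; 0, 1] =
      !![1, 1; 0, 1] * (g : Matrix (Fin 2) (Fin 2) F) := congrArg Subtype.val hU
  have hL' : (g : Matrix (Fin 2) (Fin 2) F) * !![1, 0; 1, 1] =
      !![1, 0; 1, 1] * (g : Matrix (Fin 2) (Fin 2) F) := congrArg Subtype.val hL
  have u00 := congrFun (congrFun hU' 0) 0
  have u01 := congrFun (congrFun hU' 0) 1
  have l00 := congrFun (congrFun hL' 0) 0
  simp [Matrix.mul_apply, Fin.sum_univ_two] at u00 u01 l00
  have hdet := g.det_coe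
  rw [Matrix.det_fin_two] at hdet
  have hc0 : (g : Matrix (Fin 2) (Fin 2) F) 1 0 = 0 := u00
  have hb0 : (g : Matrix (Fin 2) (Fin 2) F) 0 1 = 0 := l00
  have had : (g : Matrix (Fin 2) (Fin 2) F) 0 0 = (g : Matrix (Fin 2) (Fin 2) F) 1 1 := by
    linear_combination u01
  have hsq : ((g : Matrix (Fin 2) (Fin 2) F) 0 0 - 1) * ((g : Matrix (Fin 2) (Fin 2) F) 0 0 + 1)
      = 0 := by
    rw [hc0, hb0, ← had] at hdet
    linear_combination hdet
  rcases mul_eq_zero.mp hsq with h | h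
  · left
    have ha : (g : Matrix (Fin 2) (Fin 2) F) 0 0 = 1 := by linear_combination h
    ext i j
    fin_cases i <;> fin_cases j <;> simp [hc0, hb0, ha, ← had]
  · right
    have ha : (g : Matrix (Fin 2) (Fin 2) F) 0 0 = -1 := by linear_combination h
    ext i j
    fin_cases i <;> fin_cases j <;> simp [hc0, hb0, ha, ← had]

end Cfsg.Agent.Helper42.G2C
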