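import Mathlib

/-! Helper42: piece ZP of CALL S4279 (helper18). -/

set_option autoImplicit false

namespace Cfsg.Agent.Helper42.G2C

/-- PIECE ZP: the subgroup generated by an involution. -/
theorem g2c_zpowers_invol {G : Type*} [Group G] (t : G) (h2 : t * t = 1) (h1 : t ≠ 1)
    (K : Subgroup G) (ht : t ∈ K) (hK : ∀ x ∈ K, x = 1 ∨ x = t) :
    K = Subgroup.zpowers t ∧ Nat.card K = 2 := by
  have hKz : K = Subgroup.zpowers t := by
    apply le_antisymm
    · intro x hx
      rcases hK x hx with rfl | rfl
      · exact Subgroup.one_mem _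
      · exact Subgroup.mem_zpowers _
    · exact (Subgroup.zpowers_le).mpr ht
  refine ⟨hKz, ?_⟩
  rw [hKz, Nat.card_zpowers]
  exact orderOf_eq_prime (by rw [pow_two, h2]) h1

end Cfsg.Agent.Helper42.G2C
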