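import Mathlib

set_option autoImplicit false

namespace Cfsg.Agent.Helper42

open Subgroup

universe u

variable {Γ : Type u} [Group Γ] [Finite Γ]

/-- PIECE G7a (CALL SL2L, helper2): `p ∣ lam² - 1` gives `p ∣ lam - 1` or `p ∣ lam + 1`. -/
theorem sl2l_reduce {p : ℕ} (hp : p.Prime) {Z : Subgroup Γ} {k d z₁ : Γ} {lam : ℕ}
    (hdp : d ^ p ∈ Z) (hz₁ : z₁ ∈ Z) (hZd : ∀ z ∈ Z, z * d = d * z)
    (hkZ : ∀ z ∈ Z, k * z = z * k) (hkd : k * d * k⁻¹ = d ^ lam * z₁)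
    (hlam : p ∣ lam ^ 2 - 1) (hlam1 : 1 ≤ lam) :
    ∃ z ∈ Z, (k * d * k⁻¹ = d * z ∨ k ^ 2 * d * (k ^ 2)⁻¹ = d * z) := by
  have hfac : lam ^ 2 - 1 = (lam - 1) * (lam + 1) := by
    obtain ⟨n, rfl⟩ : ∃ n, lam = n + 1 := ⟨lam - 1, by omega⟩
    have : (n + 1) ^ 2 = n * (n + 1 + 1) + 1 := by ring
    rw [this]; simp
  rw [hfac] at hlam
  rcases (Nat.Prime.dvd_mul hp).mp hlam with h | h
  · -- lam = 1 + p * m
    obtain ⟨m, hm⟩ := h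
    have hl : lam = 1 + p * m := by omega
    refine ⟨(d ^ p) ^ m * z₁, Z.mul_mem (Z.pow_mem hdp m) hz₁, Or.inl ?_⟩
    rw [hkd, hl, pow_add, pow_one, pow_mul, mul_assoc]
  · -- lam + 1 = p * m
    obtain ⟨m, hm⟩ := h
    have hw : (d ^ p) ^ m ∈ Z := Z.pow_mem hdp m
    have hdl : d ^ lam = (d ^ p) ^ m * d⁻¹ := by
      rw [← pow_mul, ← hm, pow_succ, mul_inv_cancel_right]
    set w := (d ^ p) ^ m with hwdef
    have hz' : w * z₁ ∈ Z := Z.mul_mem hw hz₁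
    have hcd : (w * z₁) * d = d * (w * z₁) := hZd _ hz'
    have hkd' : k * d * k⁻¹ = d⁻¹ * (w * z₁) := by
      rw [hkd, hdl]
      have h1 : w * d = d * w := hZd _ hw
      have h2 : w * d⁻¹ = d⁻¹ * w := by
        have : d⁻¹ * (w * d) * d⁻¹ = d⁻¹ * (d * w) * d⁻¹ := by rw [h1]
        simpa [mul_assoc] using this.symm
      rw [h2, mul_assoc]
    have hkz : k * (w * z₁) * k⁻¹ = w * z₁ := by
      rw [hkZ _ hz', mul_inv_cancel_right]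
    refine ⟨1, Z.one_mem, Or.inr ?_⟩
    have hkdi : k * d⁻¹ * k⁻¹ = (k * d * k⁻¹)⁻¹ := by group
    have e1 : k ^ 2 * d * (k ^ 2)⁻¹ = k * (k * d * k⁻¹) * k⁻¹ := by
      rw [pow_two]; group
    rw [e1, hkd']
    have e2 : k * (d⁻¹ * (w * z₁)) * k⁻¹ = (k * d⁻¹ * k⁻¹) * (k * (w * z₁) * k⁻¹) := by group
    rw [e2, hkdi, hkd', hkz, mul_one, mul_inv_rev, inv_inv, mul_assoc, ← hcd, inv_mul_cancel_left]

end Cfsg.Agent.Helper42
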