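import Mathlib
import Cfsg.Prelude.Def_GeometricClasses
import Cfsg.Agent.Helper42.PGraphLM
import Cfsg.Agent.Helper42.PGraphS
import Cfsg.Agent.Helper5.SympCard
import Cfsg.Agent.Helper5.SLCard

set_option autoImplicit false

/-!
# Derangements of odd prime order of `PSL_n(q)` on the cosets of a symplectic-type subgroup
(helper42)

* `index_dvd` : the index of the determinant-one similarity group of a symplectic form on `F^{2m}`
  divides `q^(m^2-m) ∏_{j<m} (q^(2j+1) - 1)`;
* `conj_not_mem` : reduction of "no conjugate lies in the similarity group of `f`" to "not a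
  similarity of any symplectic form";
* `exists_of_model_sim` : transfer of a linear model to `SL_n`;
* `exists_irr`, `exists_unip`, `exists_diag` : the three families of derangements;
* `main` : the statement.
-/

namespace Cfsg.Agent.Helper42.BGSymp

open Matrix

universe u

variable {F : Type u} [Field F]

/-- `M` is a similarity of the two-argument form `f`. -/
def IsSim {n : ℕ} (f : (Fin n → F) → (Fin n → F) → F) (M : Matrix (Fin n) (Fin n) F) : Prop :=
  ∃ c : Fˣ, ∀ u v, f (M *ᵥ u) (M *ᵥ v) = (c : F) * f u v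

/-- The bilinear form attached to a bilinear two-argument form. -/
noncomputable def toBil {n : ℕ} (f : (Fin n → F) → (Fin n → F) → F)
    (hf : Cfsg.Geo.IsBilinearForm f) : LinearMap.BilinForm F (Fin n → F) :=
  LinearMap.mk₂ F f hf.add_left (fun c x v => by rw [hf.smul_left, smul_eq_mul]) hf.add_right
    (fun c v x => by rw [hf.smul_right, smul_eq_mul])

theorem toBil_apply {n : ℕ} (f : (Fin n → F) → (Fin n → F) → F)
    (hf : Cfsg.Geo.IsBilinearForm f) (u v : Fin n → F) : toBil f hf u v = f u v := rfl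

theorem nondeg_of_symp {n : ℕ} (f : (Fin n → F) → (Fin n → F) → F)
    (hf : Cfsg.Geo.IsSymplecticForm f) (v : Fin n → F) (h : ∀ w, f v w = 0) : v = 0 := by
  by_contra hv
  obtain ⟨-, x, hx⟩ := hf.nondegenerate v hv
  exact hx (h x)

/-! ### Arithmetic -/

theorem prod_even_odd (g : ℕ → ℕ) (m : ℕ) : ∏ k ∈ Finset.range (2 * m), g k =
    (∏ j ∈ Finset.range m, g (2 * j)) * ∏ j ∈ Finset.range m, g (2 * j + 1) := by
  induction m with
  | zero => simp
  | succ m ih =>
    have h1 : 2 * (m + 1) = 2 * m + 1 + 1 := by ring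
    rw [h1, Finset.prod_range_succ, Finset.prod_range_succ, ih, Finset.prod_range_succ,
      Finset.prod_range_succ]
    ring

theorem gl_prod (q n : ℕ) : ∏ i ∈ Finset.range n, (q ^ n - q ^ i) =
    q ^ (∑ i ∈ Finset.range n, i) * ∏ k ∈ Finset.range n, (q ^ (k + 1) - 1) := by
  have h1 : ∀ i ∈ Finset.range n, q ^ n - q ^ i = q ^ i * (q ^ (n - 1 - i + 1) - 1) := by
    intro i hi
    have hi' := Finset.mem_range.mp hi
    have h2 : n - 1 - i + 1 = n - i := by omega
    rw [h2, Nat.mul_sub, mul_one, ← pow_add]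
    congr 2
    omega
  rw [Finset.prod_congr rfl h1, Finset.prod_mul_distrib, Finset.prod_pow_eq_pow_sum,
    Finset.prod_range_reflect (fun j => q ^ (j + 1) - 1) n]

theorem sum_range_two_mul (m : ℕ) : ∑ i ∈ Finset.range (2 * m), i = m ^ 2 + (m ^ 2 - m) := by
  have h1 := Finset.sum_range_id_mul_two (2 * m)
  have h2 : m ≤ m ^ 2 := by
    rcases Nat.eq_zero_or_pos m with h | h
    · rw [h]
      norm_num
    · calc m = m * 1 := (mul_one m).symm
        _ ≤ m * m := Nat.mul_le_mul_left m h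
        _ = m ^ 2 := (sq m).symm
  have h3 : 2 * m * (2 * m - 1) = (m ^ 2 + (m ^ 2 - m)) * 2 := by
    rcases Nat.eq_zero_or_pos m with h | h
    · rw [h]
      norm_num
    · obtain ⟨k, rfl⟩ : ∃ k, m = k + 1 := ⟨m - 1, by omega⟩
      have h4 : 2 * (k + 1) - 1 = 2 * k + 1 := by omega
      have h5 : (k + 1) ^ 2 - (k + 1) = k ^ 2 + k := by
        have : (k + 1) ^ 2 = k ^ 2 + k + (k + 1) := by ring
        omega
      rw [h4, h5]
      ring
  rw [h3] at h1
  exact Nat.eq_of_mul_eq_mul_right (by norm_num) h1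

/-! ### The index -/

section index

variable [Fintype F]

/-- The index of the determinant-one similarity group of a symplectic form on `F^{2m}` divides
`q^(m^2-m) ∏_{j<m} (q^(2j+1) - 1)`. -/
theorem index_dvd (m : ℕ) (hm : 1 ≤ m) (f : (Fin (2 * m) → F) → (Fin (2 * m) → F) → F)
    (hf : Cfsg.Geo.IsSymplecticForm f) :
    ((Cfsg.Geo.similarityGroup f).comap (Matrix.SpecialLinearGroup.toGL :
      Matrix.SpecialLinearGroup (Fin (2 * m)) F →* GL (Fin (2 * m)) F)).index ∣
      Fintype.card F ^ (m ^ 2 - m) *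
        ∏ j ∈ Finset.range m, (Fintype.card F ^ (2 * j + 1) - 1) := by
  classical
  obtain ⟨H, hH⟩ : ∃ H, H = (Cfsg.Geo.similarityGroup f).comap (Matrix.SpecialLinearGroup.toGL :
      Matrix.SpecialLinearGroup (Fin (2 * m)) F →* GL (Fin (2 * m)) F) := ⟨_, rfl⟩
  rw [← hH]
  obtain ⟨q, hq⟩ : ∃ q, q = Fintype.card F := ⟨_, rfl⟩
  rw [← hq]
  have hq2 : 2 ≤ q := by rw [hq]; exact Fintype.one_lt_card
  obtain ⟨Φ, hΦ⟩ := SpForm.exists_equiv_std m (Fin (2 * m) → F) (toBil f hf.bilinear)
    (fun v => hf.alternating v) (fun v hv => nondeg_of_symp f hf v hv)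
    (Module.finrank_fin_fun F)
  -- the embedding of `Sp_{2m}(F)`
  have hdet : ∀ g : Matrix.symplecticGroup (Fin m) F,
      LinearMap.det ((Φ.symm : (Fin m ⊕ Fin m → F) →ₗ[F] (Fin (2 * m) → F)) ∘ₗ SpGroup.toEnd g ∘ₗ
        (Φ : (Fin (2 * m) → F) →ₗ[F] (Fin m ⊕ Fin m → F))) = 1 := by
    intro g
    have h1 := LinearMap.det_conj (SpGroup.toEnd g) Φ.symm
    rw [LinearEquiv.symm_symm] at h1
    rw [h1, SpGroup.toEnd, LinearMap.det_toLin']
    exact SymplecticGroup.det_eq_one g.2
  obtain ⟨ψ, hψ⟩ : ∃ ψ : Matrix.symplecticGroup (Fin m) F → Matrix.SpecialLinearGroup (Fin (2 * m)) F,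
      ∀ g, ProjOrd.toEnd (ψ g) = (Φ.symm : (Fin m ⊕ Fin m → F) →ₗ[F] (Fin (2 * m) → F)) ∘ₗ
        SpGroup.toEnd g ∘ₗ (Φ : (Fin (2 * m) → F) →ₗ[F] (Fin m ⊕ Fin m → F)) :=
    ⟨fun g => ProjOrd.ofEnd _ (hdet g), fun g => ProjOrd.toEnd_ofEnd _ _⟩
  have hψapp : ∀ g v, ProjOrd.toEnd (ψ g) v = Φ.symm (SpGroup.toEnd g (Φ v)) := by
    intro g v
    rw [hψ]
    rfl
  have hψmul : ∀ g h, ψ (g * h) = ψ g * ψ h := by
    intro g h
    apply ProjOrd.toEnd_injective
    apply LinearMap.ext
    intro v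
    rw [ProjOrd.toEnd_mul, Module.End.mul_apply, hψapp, hψapp, hψapp, SpGroup.toEnd_mul,
      Module.End.mul_apply, LinearEquiv.apply_symm_apply]
  obtain ⟨ψh, hψh⟩ : ∃ ψh : Matrix.symplecticGroup (Fin m) F →*
      Matrix.SpecialLinearGroup (Fin (2 * m)) F, ∀ g, ψh g = ψ g := ⟨MonoidHom.mk' ψ hψmul, fun g => rfl⟩
  have hinj : Function.Injective ψh := by
    intro g h hgh
    rw [hψh, hψh] at hgh
    apply SpGroup.toEnd_injective
    apply LinearMap.ext
    intro w
    have h1 := hψapp g (Φ.symm w)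
    have h2 := hψapp h (Φ.symm w)
    rw [hgh, h2, LinearEquiv.apply_symm_apply] at h1
    exact (Φ.symm.injective h1).symm
  have hrange : ψh.range ≤ H := by
    rintro _ ⟨g, rfl⟩
    rw [hH, Subgroup.mem_comap]
    refine ⟨1, fun u v => ?_⟩
    rw [Units.val_one, one_mul, SpecialLinearGroup.coe_GL_coe_matrix]
    have h1 : ∀ w, ((ψh g : Matrix.SpecialLinearGroup (Fin (2 * m)) F) :
        Matrix (Fin (2 * m)) (Fin (2 * m)) F) *ᵥ w = Φ.symm (SpGroup.toEnd g (Φ w)) := by
      intro w
      rw [hψh, ← hψapp, ProjOrd.toEnd, Matrix.toLin'_apply]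
    rw [h1, h1, ← toBil_apply f hf.bilinear, ← hΦ, LinearEquiv.apply_symm_apply,
      LinearEquiv.apply_symm_apply, SpGroup.preserves_toEnd g, hΦ, toBil_apply]
  have hcard1 : Nat.card (Matrix.symplecticGroup (Fin m) F) ∣ Nat.card H := by
    have h1 := Subgroup.card_dvd_of_le hrange
    rwa [← Nat.card_congr (MonoidHom.ofInjective hinj).toEquiv] at h1
  obtain ⟨c, hc⟩ := hcard1
  have hcard2 := Subgroup.card_mul_index H
  haveI : Nonempty (Fin (2 * m)) := ⟨⟨0, by omega⟩⟩
  have hcard3 := Cfsg.Agent.Helper5.card_SL_mul (F := F) (Fin (2 * m))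
  rw [Matrix.card_GL_field, ← hq, Fin.prod_univ_eq_prod_range (fun i => q ^ (2 * m) - q ^ i) (2 * m),
    gl_prod, sum_range_two_mul, prod_even_odd] at hcard3
  have hsp := Cfsg.Agent.Helper5.card_sp (F := F) (m := m)
  rw [← hq] at hsp
  obtain ⟨A, hA⟩ : ∃ A, A = ∏ j ∈ Finset.range m, (q ^ (2 * j + 1) - 1) := ⟨_, rfl⟩
  obtain ⟨B, hB⟩ : ∃ B, B = ∏ j ∈ Finset.range m, (q ^ (2 * (j + 1)) - 1) := ⟨_, rfl⟩
  have hB' : ∏ j ∈ Finset.range m, (q ^ (2 * j + 1 + 1) - 1) = B := by
    rw [hB]
    apply Finset.prod_congr rfl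
    intro j _
    congr 2
  rw [hB', ← hA] at hcard3
  rw [← hB] at hsp
  rw [← hA]
  have hsppos : 0 < Nat.card (Matrix.symplecticGroup (Fin m) F) := Nat.card_pos
  have key : Nat.card (Matrix.symplecticGroup (Fin m) F) * (H.index * (c * (q - 1))) =
      Nat.card (Matrix.symplecticGroup (Fin m) F) * (q ^ (m ^ 2 - m) * A) := by
    calc Nat.card (Matrix.symplecticGroup (Fin m) F) * (H.index * (c * (q - 1)))
        = (Nat.card (Matrix.symplecticGroup (Fin m) F) * c) * H.index * (q - 1) := by ring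
      _ = Nat.card H * H.index * (q - 1) := by rw [← hc]
      _ = Nat.card (Matrix.SpecialLinearGroup (Fin (2 * m)) F) * (q - 1) := by rw [hcard2]
      _ = q ^ (m ^ 2 + (m ^ 2 - m)) * (A * B) := hcard3
      _ = (q ^ (m ^ 2) * B) * (q ^ (m ^ 2 - m) * A) := by rw [pow_add]; ring
      _ = Nat.card (Matrix.symplecticGroup (Fin m) F) * (q ^ (m ^ 2 - m) * A) := by rw [hsp]
  exact Dvd.intro _ (Nat.eq_of_mul_eq_mul_left hsppos key)

end index

/-! ### Reductions -/

/-- If `x` is a similarity of no symplectic form, no conjugate of `x` lies in the similarity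
group of `f`. -/
theorem conj_not_mem {n : ℕ} (f : (Fin n → F) → (Fin n → F) → F)
    (hf : Cfsg.Geo.IsSymplecticForm f) (x : Matrix.SpecialLinearGroup (Fin n) F)
    (hx : ∀ f' : (Fin n → F) → (Fin n → F) → F, Cfsg.Geo.IsSymplecticForm f' → ¬ IsSim f' x.1) :
    ∀ P : Matrix.SpecialLinearGroup (Fin n) F, P⁻¹ * x * P ∉
      (Cfsg.Geo.similarityGroup f).comap (Matrix.SpecialLinearGroup.toGL :
        Matrix.SpecialLinearGroup (Fin n) F →* GL (Fin n) F) := by
  intro P hP
  rw [Subgroup.mem_comap] at hP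
  obtain ⟨c, hc⟩ := hP
  simp only [SpecialLinearGroup.coe_GL_coe_matrix] at hc
  obtain ⟨Q, hQ⟩ : ∃ Q : Matrix (Fin n) (Fin n) F, Q = (P⁻¹ : Matrix.SpecialLinearGroup (Fin n) F).1 :=
    ⟨_, rfl⟩
  have hPQ : P.1 * Q = 1 := by
    rw [hQ, ← Matrix.SpecialLinearGroup.coe_mul, mul_inv_cancel, Matrix.SpecialLinearGroup.coe_one]
  have hQP : Q * P.1 = 1 := by
    rw [hQ, ← Matrix.SpecialLinearGroup.coe_mul, inv_mul_cancel, Matrix.SpecialLinearGroup.coe_one]
  have hconj : ((P⁻¹ * x * P : Matrix.SpecialLinearGroup (Fin n) F) : Matrix (Fin n) (Fin n) F) * Q =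
      Q * (x : Matrix (Fin n) (Fin n) F) := by
    have h := congrArg (fun g : Matrix.SpecialLinearGroup (Fin n) F => (g : Matrix (Fin n) (Fin n) F))
      (mul_inv_cancel_right (P⁻¹ * x) P)
    simp only [Matrix.SpecialLinearGroup.coe_mul] at h
    rw [hQ]
    simp only [Matrix.SpecialLinearGroup.coe_mul]
    exact h
  apply hx (fun u v => f (Q *ᵥ u) (Q *ᵥ v))
  · refine ⟨⟨?_, ?_, ?_, ?_⟩, ?_, ?_, ?_⟩
    · intro a b v
      simp only [Matrix.mulVec_add]
      exact hf.bilinear.add_left _ _ _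
    · intro a b v
      simp only [Matrix.mulVec_smul]
      exact hf.bilinear.smul_left _ _ _
    · intro v a b
      simp only [Matrix.mulVec_add]
      exact hf.bilinear.add_right _ _ _
    · intro a v b
      simp only [Matrix.mulVec_smul]
      exact hf.bilinear.smul_right _ _ _
    · intro v w
      exact hf.skew _ _
    · intro v
      exact hf.alternating _
    · intro v hv
      have hQv : Q *ᵥ v ≠ 0 := by
        intro h
        apply hv
        have h1 := congrArg (fun w => P.1 *ᵥ w) h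
        simp only [Matrix.mulVec_mulVec, hPQ, Matrix.one_mulVec, Matrix.mulVec_zero] at h1
        exact h1
      obtain ⟨⟨y, hy⟩, ⟨y', hy'⟩⟩ := hf.nondegenerate _ hQv
      refine ⟨⟨P.1 *ᵥ y, ?_⟩, ⟨P.1 *ᵥ y', ?_⟩⟩
      · simp only [Matrix.mulVec_mulVec, hQP, Matrix.one_mulVec]
        exact hy
      · simp only [Matrix.mulVec_mulVec, hQP, Matrix.one_mulVec]
        exact hy'
  · refine ⟨c, fun u v => ?_⟩
    have h1 := hc (Q *ᵥ u) (Q *ᵥ v)
    simp only [Matrix.mulVec_mulVec, hconj] at h1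
    simp only [Matrix.mulVec_mulVec]
    exact h1

/-- Transfer of a linear model to `SL_n(F)`. -/
theorem exists_of_model_sim {n : ℕ} (V : Type u) [AddCommGroup V] [Module F V]
    [FiniteDimensional F V] (hdim : Module.finrank F V = n) (T : Module.End F V)
    (hdet : LinearMap.det T = 1) (r : ℕ) (hTr : T ^ r = 1)
    (hTns : ∀ z : F, T ≠ z • (1 : Module.End F V))
    (hno : ∀ B : LinearMap.BilinForm F V, (∀ v, B v v = 0) → (∀ v, (∀ w, B v w = 0) → v = 0) →
      ∀ c : F, ¬ ∀ u v, B (T u) (T v) = c * B u v) :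
    ∃ x : Matrix.SpecialLinearGroup (Fin n) F,
      (∃ z : F, ((x ^ r : Matrix.SpecialLinearGroup (Fin n) F) : Matrix (Fin n) (Fin n) F) =
        z • (1 : Matrix (Fin n) (Fin n) F)) ∧
      (∀ z : F, (x : Matrix (Fin n) (Fin n) F) ≠ z • (1 : Matrix (Fin n) (Fin n) F)) ∧
      ∀ f' : (Fin n → F) → (Fin n → F) → F, Cfsg.Geo.IsSymplecticForm f' → ¬ IsSim f' x.1 := by
  obtain ⟨g, Φ, hΦ⟩ := L3Lemmas.exists_sl_of_model n V hdim T hdet
  have hscal : ∀ (h : Matrix.SpecialLinearGroup (Fin n) F) (z : F),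
      (h : Matrix (Fin n) (Fin n) F) = z • (1 : Matrix (Fin n) (Fin n) F) →
      ProjOrd.toEnd h = z • (1 : Module.End F (Fin n → F)) := by
    intro h z hz
    rw [ProjOrd.toEnd, hz, map_smul, Matrix.toLin'_one]
    rfl
  refine ⟨g, ⟨1, ?_⟩, ?_, ?_⟩
  · have h1 : ProjOrd.toEnd g ^ r = (1 : F) • (1 : Module.End F (Fin n → F)) := by
      rw [UGroup.conj_pow_eq_smul_iff Φ (ProjOrd.toEnd g) T hΦ r 1, one_smul]
      exact hTr
    rw [one_smul] at h1
    rw [one_smul]
    have h2 : g ^ r = 1 := by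
      apply ProjOrd.toEnd_injective
      rw [ProjOrd.toEnd_pow, h1, ProjOrd.toEnd_one]
    rw [h2]
    rfl
  · intro z hz
    have h1 := hscal g z hz
    have h2 := (UGroup.conj_pow_eq_smul_iff Φ (ProjOrd.toEnd g) T hΦ 1 z).mp
      (by rw [pow_one]; exact h1)
    rw [pow_one] at h2
    exact hTns z h2
  · rintro f' hf' ⟨c, hc⟩
    apply hno ((toBil f' hf'.bilinear).compl₁₂ (Φ : V →ₗ[F] (Fin n → F)) (Φ : V →ₗ[F] (Fin n → F)))
      ?_ ?_ (c : F)
    · intro u v
      simp only [LinearMap.compl₁₂_apply, LinearEquiv.coe_coe, toBil_apply]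
      rw [← hΦ, ← hΦ, ProjOrd.toEnd, Matrix.toLin'_apply, Matrix.toLin'_apply]
      exact hc _ _
    · intro v
      simp only [LinearMap.compl₁₂_apply, LinearEquiv.coe_coe, toBil_apply]
      exact hf'.alternating _
    · intro v hv
      have h1 : Φ v = 0 := by
        apply nondeg_of_symp f' hf'
        intro w
        have h2 := hv (Φ.symm w)
        simp only [LinearMap.compl₁₂_apply, LinearEquiv.coe_coe, toBil_apply,
          LinearEquiv.apply_symm_apply] at h2
        exact h2
      exact Φ.map_eq_zero_iff.mp h1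

/-! ### Derangements -/

/-- The irreducible type: `r ∣ q^i - 1` with `i` odd, `r ∤ q - 1`. -/
theorem exists_irr [Fintype F] (p : ℕ) [Fact p.Prime] [CharP F p] (n i : ℕ) (hi : Odd i)
    (hin : i < n) (r : ℕ) (hr : r.Prime) (hri : r ∣ Fintype.card F ^ i - 1)
    (hrq : ¬ r ∣ Fintype.card F - 1) :
    ∃ x : Matrix.SpecialLinearGroup (Fin n) F,
      (∃ z : F, ((x ^ r : Matrix.SpecialLinearGroup (Fin n) F) : Matrix (Fin n) (Fin n) F) =
        z • (1 : Matrix (Fin n) (Fin n) F)) ∧
      (∀ z : F, (x : Matrix (Fin n) (Fin n) F) ≠ z • (1 : Matrix (Fin n) (Fin n) F)) ∧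
      ∀ f' : (Fin n → F) → (Fin n → F) → F, Cfsg.Geo.IsSymplecticForm f' → ¬ IsSim f' x.1 := by
  classical
  haveI : NeZero i := ⟨by rcases hi with ⟨c, hc⟩; omega⟩
  obtain ⟨z, hzr, hznorm, hzord⟩ := PGraphLM.exists_elt_ext p i r hr hri hrq
  obtain ⟨T, hTdef⟩ : ∃ T : Module.End F (FiniteField.Extension F p i × (Fin (n - i) → F)),
      T = (LinearMap.mul F (FiniteField.Extension F p i) z).prodMap 1 := ⟨_, rfl⟩
  have hdk : LinearMap.det (LinearMap.mul F (FiniteField.Extension F p i) z) =
      Algebra.norm F z := by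
    rw [Algebra.norm_apply]
    rfl
  have hTdet : LinearMap.det T = 1 := by
    rw [hTdef, LinearMap.det_prodMap, hdk, hznorm, map_one, mul_one]
  have hdim : Module.finrank F (FiniteField.Extension F p i × (Fin (n - i) → F)) = n := by
    rw [Module.finrank_prod, FiniteField.finrank_extension, Module.finrank_fin_fun]
    omega
  have hTr : T ^ r = 1 := by
    rw [hTdef, SpModels.prodMap_pow', UModels.mul_pow_eq, hzr, one_pow]
    apply LinearMap.ext
    intro v
    simp
  have hzF : ∀ c : F, z ≠ algebraMap F (FiniteField.Extension F p i) c := by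
    intro c hc
    have h1 := hzord 1 c (by rw [pow_one]; exact hc)
    exact hr.one_lt.ne' (Nat.dvd_one.mp h1)
  have hTapp : ∀ (k : FiniteField.Extension F p i) (w : Fin (n - i) → F), T (k, w) = (z * k, w) := by
    intro k w
    rw [hTdef]
    rfl
  apply exists_of_model_sim _ hdim T hTdet r hTr
  · intro c hc
    have h1 := congrArg (fun S : Module.End F (FiniteField.Extension F p i × (Fin (n - i) → F)) =>
      (S (1, 0)).1) hc
    simp only [hTapp, mul_one, LinearMap.smul_apply, Module.End.one_apply, Prod.smul_fst] at h1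
    apply hzF c
    rw [h1, Algebra.smul_def, mul_one]
  · intro B halt hnd c hsim
    have hskew := SpForm.skew_of_alt B halt
    -- `K × 0` is orthogonal to `0 × W`
    have horth : ∀ (k : FiniteField.Extension F p i) (w : Fin (n - i) → F),
        B (k, 0) (0, w) = 0 := by
      intro k w
      have hzc : z - algebraMap F (FiniteField.Extension F p i) c ≠ 0 := sub_ne_zero.mpr (hzF c)
      obtain ⟨k', hk'⟩ : ∃ k', k = (z - algebraMap F (FiniteField.Extension F p i) c) * k' :=
        ⟨(z - algebraMap F (FiniteField.Extension F p i) c)⁻¹ * k, by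
          rw [← mul_assoc, mul_inv_cancel₀ hzc, one_mul]⟩
      have h1 := hsim (k', 0) (0, w)
      rw [hTapp, hTapp, mul_zero] at h1
      have h2 : ((z - algebraMap F (FiniteField.Extension F p i) c) * k', (0 : Fin (n - i) → F)) =
          (z * k', (0 : Fin (n - i) → F)) - c • (k', (0 : Fin (n - i) → F)) := by
        apply Prod.ext
        · show (z - algebraMap F (FiniteField.Extension F p i) c) * k' = z * k' - c • k'
          rw [Algebra.smul_def]
          ring
        · show (0 : Fin (n - i) → F) = 0 - c • (0 : Fin (n - i) → F)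
          simp
      rw [hk', h2, map_sub, map_smul, LinearMap.sub_apply, LinearMap.smul_apply, h1, smul_eq_mul,
        sub_self]
    -- the restriction to `K` is nondegenerate and alternating
    have h3 := PGraphS.even_finrank i (FiniteField.Extension F p i)
      (B.compl₁₂ (LinearMap.inl F (FiniteField.Extension F p i) (Fin (n - i) → F))
        (LinearMap.inl F (FiniteField.Extension F p i) (Fin (n - i) → F)))
      (fun v => by
        simp only [LinearMap.compl₁₂_apply, LinearMap.inl_apply]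
        exact halt _)
      (fun v hv => by
        have h4 : ((v, 0) : FiniteField.Extension F p i × (Fin (n - i) → F)) = 0 := by
          apply hnd
          rintro ⟨k, w⟩
          have h5 : ((k, w) : FiniteField.Extension F p i × (Fin (n - i) → F)) =
              (k, 0) + (0, w) := by simp
          rw [h5, map_add, horth, add_zero]
          have h6 := hv k
          simp only [LinearMap.compl₁₂_apply, LinearMap.inl_apply] at h6
          exact h6
        exact (Prod.ext_iff.mp h4).1)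
      (FiniteField.finrank_extension F p i)
    exact (Nat.not_even_iff_odd.mpr hi) h3

/-- The unipotent type: a Jordan block of size three. -/
theorem exists_unip (p : ℕ) [Fact p.Prime] [CharP F p] (hp2 : p ≠ 2) (k : ℕ) :
    ∃ x : Matrix.SpecialLinearGroup (Fin (3 + k)) F,
      (∃ z : F, ((x ^ p : Matrix.SpecialLinearGroup (Fin (3 + k)) F) :
        Matrix (Fin (3 + k)) (Fin (3 + k)) F) = z • (1 : Matrix (Fin (3 + k)) (Fin (3 + k)) F)) ∧
      (∀ z : F, (x : Matrix (Fin (3 + k)) (Fin (3 + k)) F) ≠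
        z • (1 : Matrix (Fin (3 + k)) (Fin (3 + k)) F)) ∧
      ∀ f' : (Fin (3 + k) → F) → (Fin (3 + k) → F) → F, Cfsg.Geo.IsSymplecticForm f' →
        ¬ IsSim f' x.1 := by
  classical
  have hp : p.Prime := Fact.out
  have hp3 : 3 ≤ p := by
    have := hp.two_le
    omega
  haveI := SpStruct.charP_end' (F := F) (V := Fin (2 + 1) → F) p
  obtain ⟨U, hUdef⟩ : ∃ U : Module.End F (Fin (2 + 1) → F), U = 1 + SpModels.shiftUp F 2 :=
    ⟨_, rfl⟩
  have hUp : U ^ p = 1 := by
    have h1 := add_pow_char_pow_of_commute p 1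
      (Commute.one_left (SpModels.shiftUp F 2))
    rw [pow_one] at h1
    rw [hUdef, h1, one_pow, SpModels.shiftUp_pow_eq_zero F 2 p hp3, add_zero]
  obtain ⟨T, hTdef⟩ : ∃ T : Module.End F ((Fin (2 + 1) → F) × (Fin k → F)),
      T = U.prodMap 1 := ⟨_, rfl⟩
  have hTp : T ^ p = 1 := by
    rw [hTdef, SpModels.prodMap_pow', hUp, one_pow]
    apply LinearMap.ext
    intro v
    simp
  have hTdet : LinearMap.det T = 1 := by
    apply UModels.eq_one_of_pow_char_pow p _ 1
    rw [pow_one, ← map_pow, hTp, map_one]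
  have hdim : Module.finrank F ((Fin (2 + 1) → F) × (Fin k → F)) = 3 + k := by
    rw [Module.finrank_prod, Module.finrank_fin_fun, Module.finrank_fin_fun]
  obtain ⟨e0, he0⟩ : ∃ e0 : Fin (2 + 1) → F, e0 = Pi.single 0 1 := ⟨_, rfl⟩
  obtain ⟨e1, he1⟩ : ∃ e1 : Fin (2 + 1) → F, e1 = Pi.single 1 1 := ⟨_, rfl⟩
  obtain ⟨e2, he2⟩ : ∃ e2 : Fin (2 + 1) → F, e2 = Pi.single 2 1 := ⟨_, rfl⟩
  have hU0 : U e0 = e0 + e1 := by
    rw [hUdef, he0, he1]
    funext j
    fin_cases j <;> simp [SpModels.shiftUp_apply]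
  have hU1 : U e1 = e1 + e2 := by
    rw [hUdef, he1, he2]
    funext j
    fin_cases j <;> simp [SpModels.shiftUp_apply]
  have hU2 : U e2 = e2 := by
    rw [hUdef, he2]
    funext j
    fin_cases j <;> simp [SpModels.shiftUp_apply]
  have hTapp : ∀ (v : Fin (2 + 1) → F) (w : Fin k → F), T (v, w) = (U v, w) := by
    intro v w
    rw [hTdef]
    rfl
  have hdecomp : ∀ v : Fin (2 + 1) → F, v = v 0 • e0 + v 1 • e1 + v 2 • e2 := by
    intro v
    rw [he0, he1, he2]
    funext j
    fin_cases j <;> simp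
  apply exists_of_model_sim _ hdim T hTdet p hTp
  · intro c hc
    have h1 := congrArg (fun S : Module.End F ((Fin (2 + 1) → F) × (Fin k → F)) =>
      (S (e0, 0)).1 1) hc
    simp only [hTapp, hU0, LinearMap.smul_apply, Module.End.one_apply, Prod.smul_fst,
      Pi.add_apply, Pi.smul_apply] at h1
    rw [he0, he1] at h1
    simp at h1
  · intro B halt hnd c hsim
    obtain ⟨a, ha⟩ : ∃ a : (Fin (2 + 1) → F) × (Fin k → F), a = (e2, 0) := ⟨_, rfl⟩
    obtain ⟨b, hb⟩ : ∃ b : (Fin (2 + 1) → F) × (Fin k → F), b = (e1, 0) := ⟨_, rfl⟩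
    obtain ⟨d, hd⟩ : ∃ d : (Fin (2 + 1) → F) × (Fin k → F), d = (e0, 0) := ⟨_, rfl⟩
    have hTa : T a = a := by rw [ha, hTapp, hU2]
    have hTb : T b = b + a := by
      rw [hb, ha, hTapp, hU1]
      simp
    have hTd : T d = d + b := by
      rw [hd, hb, hTapp, hU0]
      simp
    have hTw : ∀ w : Fin k → F, T ((0 : Fin (2 + 1) → F), w) = (0, w) := by
      intro w
      rw [hTapp, map_zero]
    have r1 := hsim a b
    rw [hTa, hTb, map_add, halt, add_zero] at r1
    have r2 := hsim a d
    rw [hTa, hTd, map_add] at r2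
    have r4 : ∀ w : Fin k → F, B a (0, w) = c * B a (0, w) := by
      intro w
      have := hsim a (0, w)
      rwa [hTa, hTw] at this
    have r5 : ∀ w : Fin k → F, B b (0, w) + B a (0, w) = c * B b (0, w) := by
      intro w
      have := hsim b (0, w)
      rwa [hTb, hTw, map_add, LinearMap.add_apply] at this
    have hab : B a b = 0 := by
      by_cases hc1 : c = 1
      · rw [hc1, one_mul] at r2
        have := r2
        linear_combination this
      · have h1 : (1 - c) * B a b = 0 := by linear_combination r1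
        rcases mul_eq_zero.mp h1 with h | h
        · exact absurd (sub_eq_zero.mp h).symm hc1
        · exact h
    have had : B a d = 0 := by
      by_cases hc1 : c = 1
      · have r3 := hsim b d
        rw [hTb, hTd, map_add, map_add, LinearMap.add_apply, LinearMap.add_apply, halt, hab, hc1,
          one_mul] at r3
        linear_combination r3
      · have h1 : (1 - c) * B a d = 0 := by linear_combination r2 - hab
        rcases mul_eq_zero.mp h1 with h | h
        · exact absurd (sub_eq_zero.mp h).symm hc1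
        · exact h
    have haw : ∀ w : Fin k → F, B a (0, w) = 0 := by
      intro w
      by_cases hc1 : c = 1
      · have := r5 w
        rw [hc1, one_mul] at this
        linear_combination this
      · have h1 : (1 - c) * B a (0, w) = 0 := by linear_combination r4 w
        rcases mul_eq_zero.mp h1 with h | h
        · exact absurd (sub_eq_zero.mp h).symm hc1
        · exact h
    have hazero : a = 0 := by
      apply hnd
      rintro ⟨v, w⟩
      have h1 : ((v, w) : (Fin (2 + 1) → F) × (Fin k → F)) =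
          v 0 • d + v 1 • b + v 2 • a + (0, w) := by
        rw [hd, hb, ha]
        apply Prod.ext
        · simp only [Prod.fst_add, Prod.smul_fst, add_zero]
          exact hdecomp v
        · simp
      rw [h1, map_add, map_add, map_add, map_smul, map_smul, map_smul, had, hab, halt, haw]
      simp
    have h2 : e2 = 0 := by
      rw [ha] at hazero
      exact (Prod.ext_iff.mp hazero).1
    have h3 := congrFun h2 2
    rw [he2] at h3
    simp at h3

/-- A similarity `T` with multiplier `c` of a nondegenerate form: the eigenspaces for `a` and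
`c / a` have the same dimension (one inequality). -/
theorem sim_ker_le {V : Type u} [AddCommGroup V] [Module F V] [FiniteDimensional F V]
    (B : LinearMap.BilinForm F V) (hnd : ∀ v, (∀ w, B v w = 0) → v = 0) (T : Module.End F V)
    (c a : F) (ha : a ≠ 0) (hT : ∀ u v, B (T u) (T v) = c * B u v) :
    Module.finrank F (LinearMap.ker (T - a • (1 : Module.End F V))) ≤
      Module.finrank F (LinearMap.ker (T - (c / a) • (1 : Module.End F V))) := by
  obtain ⟨W, hW⟩ : ∃ W : Submodule F V, W = LinearMap.range (T - (c / a) • (1 : Module.End F V)) :=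
    ⟨_, rfl⟩
  have hann : ∀ u : LinearMap.ker (T - a • (1 : Module.End F V)), B u.1 ∈ W.dualAnnihilator := by
    intro u
    rw [Submodule.mem_dualAnnihilator]
    intro w hw
    rw [hW] at hw
    obtain ⟨v, rfl⟩ := hw
    have hu : T u.1 = a • u.1 := by
      have h1 := LinearMap.mem_ker.mp u.2
      rw [LinearMap.sub_apply, LinearMap.smul_apply, Module.End.one_apply] at h1
      exact sub_eq_zero.mp h1
    have h2 := hT u.1 v
    rw [hu, map_smul, LinearMap.smul_apply, smul_eq_mul] at h2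
    rw [LinearMap.sub_apply, LinearMap.smul_apply, Module.End.one_apply, map_sub, map_smul,
      smul_eq_mul]
    field_simp
    linear_combination h2
  obtain ⟨ψ, hψ⟩ : ∃ ψ : LinearMap.ker (T - a • (1 : Module.End F V)) →ₗ[F] W.dualAnnihilator,
      ∀ u, (ψ u : Module.Dual F V) = B u.1 :=
    ⟨LinearMap.codRestrict W.dualAnnihilator
      ((B : V →ₗ[F] Module.Dual F V) ∘ₗ (LinearMap.ker (T - a • (1 : Module.End F V))).subtype)
      hann, fun u => rfl⟩
  have hinj : Function.Injective ψ := by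
    refine (injective_iff_map_eq_zero ψ).mpr ?_
    intro u hu
    apply Subtype.ext
    apply hnd
    intro w
    have h1 := congrArg (fun φ : W.dualAnnihilator => (φ : Module.Dual F V) w) hu
    simp only [hψ] at h1
    exact h1
  have h1 := LinearMap.finrank_le_finrank_of_injective hinj
  have h2 := Subspace.finrank_add_finrank_dualAnnihilator_eq W
  have h3 := LinearMap.finrank_range_add_finrank_ker (T - (c / a) • (1 : Module.End F V))
  rw [← hW] at h3
  omega

/-- Eigenspace dimensions of a diagonal matrix. -/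
theorem finrank_ker_diag {n : ℕ} (d : Fin n → F) (b : F) [DecidableEq F] :
    Module.finrank F (LinearMap.ker (Matrix.toLin' (Matrix.diagonal d) -
      b • (1 : Module.End F (Fin n → F)))) =
      (Finset.univ.filter (fun i => d i = b)).card := by
  have h1 : Matrix.toLin' (Matrix.diagonal d) - b • (1 : Module.End F (Fin n → F)) =
      Matrix.toLin' (Matrix.diagonal (fun i => d i - b)) := by
    have h0 : (1 : Module.End F (Fin n → F)) = Matrix.toLin' 1 := by
      rw [Matrix.toLin'_one]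
      rfl
    rw [h0, ← map_smul, ← map_sub]
    congr 1
    ext i j
    by_cases hij : i = j
    · subst hij
      simp
    · simp [hij]
  rw [h1]
  have h2 := LinearMap.finrank_range_add_finrank_ker
    (Matrix.toLin' (Matrix.diagonal (fun i => d i - b)))
  have h3 : Module.finrank F (LinearMap.range
      (Matrix.toLin' (Matrix.diagonal (fun i => d i - b)))) =
      Fintype.card {i // d i - b ≠ 0} := by
    rw [← Matrix.rank_diagonal]
    rfl
  rw [Module.finrank_fin_fun, h3, Fintype.card_subtype] at h2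
  have h4 := Finset.card_filter_add_card_filter_not (s := (Finset.univ : Finset (Fin n)))
    (fun i => d i = b)
  rw [Finset.card_univ, Fintype.card_fin] at h4
  have h5 : (Finset.univ.filter (fun i => d i - b ≠ 0)).card =
      (Finset.univ.filter (fun i => ¬ d i = b)).card := by
    congr 1
    ext i
    simp [sub_eq_zero]
  omega

/-- The diagonal type: `r ∣ q - 1`. -/
theorem exists_diag [Fintype F] (r : ℕ) (hr : r.Prime) (hr2 : r ≠ 2)
    (hrq : r ∣ Fintype.card F - 1) (k : ℕ) (hk : Odd k) (hgap : ¬ (k = 3 ∧ r = 3)) :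
    ∃ x : Matrix.SpecialLinearGroup (Fin (3 + k)) F,
      (∃ z : F, ((x ^ r : Matrix.SpecialLinearGroup (Fin (3 + k)) F) :
        Matrix (Fin (3 + k)) (Fin (3 + k)) F) = z • (1 : Matrix (Fin (3 + k)) (Fin (3 + k)) F)) ∧
      (∀ z : F, (x : Matrix (Fin (3 + k)) (Fin (3 + k)) F) ≠
        z • (1 : Matrix (Fin (3 + k)) (Fin (3 + k)) F)) ∧
      ∀ f' : (Fin (3 + k) → F) → (Fin (3 + k) → F) → F, Cfsg.Geo.IsSymplecticForm f' →
        ¬ IsSim f' x.1 := by
  classical
  obtain ⟨ζ, hζ0, hζr, hζord⟩ := PGraphLM.exists_elt_F r hrq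
  have hr3 : 3 ≤ r := by
    have := hr.two_le
    omega
  have hζ1 : ζ ≠ 1 := fun h => by
    have h1 := hζord 1 (by rw [pow_one, h])
    exact hr.one_lt.ne' (Nat.dvd_one.mp h1)
  have hζ2 : ζ ^ 2 ≠ 1 := fun h => by
    have := Nat.le_of_dvd (by norm_num) (hζord 2 h)
    omega
  have hζ4 : ζ ^ 4 ≠ 1 := fun h => by
    have h1 := hζord 4 h
    have h2 : r ∣ 2 := hr.dvd_of_dvd_pow (show r ∣ 2 ^ 2 by
      norm_num
      exact h1)
    have := Nat.le_of_dvd (by norm_num) h2
    omega
  have hζ3 : ζ ^ 3 = 1 → r = 3 := fun h =>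
    (Nat.prime_dvd_prime_iff_eq hr Nat.prime_three).mp (hζord 3 h)
  obtain ⟨η, hη⟩ : ∃ η : F, η = (ζ ^ 2)⁻¹ := ⟨_, rfl⟩
  have hηζ : η * ζ ^ 2 = 1 := by
    rw [hη]
    exact inv_mul_cancel₀ (pow_ne_zero 2 hζ0)
  have hη1 : η ≠ 1 := fun h => by
    rw [h, one_mul] at hηζ
    exact hζ2 hηζ
  have hηr : η ^ r = 1 := by
    rw [hη, inv_pow, ← pow_mul, mul_comm, pow_mul, hζr, one_pow, inv_one]
  obtain ⟨d, hd⟩ : ∃ d : Fin (3 + k) → F,
      d = Fin.append ![ζ, ζ, η] (fun _ : Fin k => (1 : F)) := ⟨_, rfl⟩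
  have hdet : (Matrix.diagonal d).det = 1 := by
    rw [Matrix.det_diagonal, Fin.prod_univ_add, Fin.prod_univ_three, hd]
    simp only [Fin.append_left, Fin.append_right]
    simp
    linear_combination hηζ
  have hmult : ∀ a : F, (Finset.univ.filter (fun i => d i = a)).card =
      (if ζ = a then 2 else 0) + (if η = a then 1 else 0) + (if (1 : F) = a then k else 0) := by
    intro a
    rw [Finset.card_filter, Fin.sum_univ_add, Fin.sum_univ_three, hd]
    simp only [Fin.append_left, Fin.append_right]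
    simp
    by_cases h1 : ζ = a <;> by_cases h2 : η = a <;> simp [h1, h2]
  obtain ⟨x, hx⟩ : ∃ x : Matrix.SpecialLinearGroup (Fin (3 + k)) F,
      (x : Matrix (Fin (3 + k)) (Fin (3 + k)) F) = Matrix.diagonal d :=
    ⟨⟨Matrix.diagonal d, hdet⟩, rfl⟩
  refine ⟨x, ⟨1, ?_⟩, ?_, ?_⟩
  · rw [Matrix.SpecialLinearGroup.coe_pow, one_smul, hx]
    rw [Matrix.diagonal_pow, ← Matrix.diagonal_one]
    congr 1
    funext i
    rw [hd]
    refine Fin.addCases (fun i => ?_) (fun j => ?_) i
    · rw [Pi.pow_apply, Fin.append_left]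
      fin_cases i <;> simp [hζr, hηr]
    · rw [Pi.pow_apply, Fin.append_right, one_pow]
  · intro z hz
    obtain ⟨k', rfl⟩ : ∃ k', k = k' + 1 := by
      obtain ⟨t, ht⟩ := hk
      exact ⟨2 * t, ht⟩
    have hz' : Matrix.diagonal d = z • (1 : Matrix (Fin (3 + (k' + 1))) (Fin (3 + (k' + 1))) F) := by
      rw [← hx]
      exact hz
    have h0 := congrFun (congrFun hz' (Fin.castAdd _ 0)) (Fin.castAdd _ 0)
    have h3 := congrFun (congrFun hz' (Fin.natAdd 3 0)) (Fin.natAdd 3 0)
    rw [Matrix.diagonal_apply_eq, Matrix.smul_apply, Matrix.one_apply_eq, smul_eq_mul, mul_one,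
      hd] at h0 h3
    rw [Fin.append_left] at h0
    rw [Fin.append_right] at h3
    apply hζ1
    rw [h3]
    exact h0
  · rintro f' hf' ⟨c, hc⟩
    rw [hx] at hc
    have hle : ∀ a : F, a ≠ 0 → (Finset.univ.filter (fun i => d i = a)).card ≤
        (Finset.univ.filter (fun i => d i = (c : F) / a)).card := by
      intro a ha
      have h1 := sim_ker_le (toBil f' hf'.bilinear) (fun v hv => nondeg_of_symp f' hf' v hv)
        (Matrix.toLin' (Matrix.diagonal d)) c a ha (fun u v => by
          rw [toBil_apply, Matrix.toLin'_apply, Matrix.toLin'_apply]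
          exact hc u v)
      rwa [finrank_ker_diag, finrank_ker_diag] at h1
    have h1 := hle ζ hζ0
    rw [hmult, hmult] at h1
    have h2 := hle 1 one_ne_zero
    rw [hmult, hmult, div_one] at h2
    rw [if_neg hζ1, if_neg hη1, if_pos rfl] at h2
    rw [if_pos rfl, if_neg (Ne.symm hζ1)] at h1
    have hc0 : (c : F) ≠ 0 := c.ne_zero
    by_cases hA : ζ = (c : F) / ζ
    · have hc' : (c : F) = ζ * ζ := by
        field_simp at hA
        linear_combination -hA
      have e1 : ¬ ζ = (c : F) := fun h => by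
        rw [hc'] at h
        apply hζ1
        have h3 : ζ * (ζ - 1) = 0 := by linear_combination -h
        rcases mul_eq_zero.mp h3 with h4 | h4
        · exact absurd h4 hζ0
        · exact sub_eq_zero.mp h4
      have e2 : ¬ η = (c : F) := fun h => by
        rw [hc'] at h
        apply hζ4
        have : ζ ^ 4 = η * ζ ^ 2 := by
          rw [h]
          ring
        rw [this, hηζ]
      have e3 : ¬ (1 : F) = (c : F) := fun h => by
        rw [hc'] at h
        apply hζ2
        rw [h]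
        ring
      rw [if_neg e1, if_neg e2, if_neg e3] at h2
      obtain ⟨t, ht⟩ := hk
      omega
    · rw [if_neg hA] at h1
      by_cases hB : (1 : F) = (c : F) / ζ
      · have hc' : (c : F) = ζ := by
          field_simp at hB
          exact hB.symm
        rw [← hB, if_neg hη1, if_pos (rfl : (1 : F) = 1)] at h1
        rw [hc', if_pos (rfl : ζ = ζ), if_neg (Ne.symm hζ1 : ¬ (1 : F) = ζ)] at h2
        by_cases hC : η = ζ
        · rw [if_pos hC] at h1 h2
          apply hgap
          refine ⟨by omega, hζ3 ?_⟩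
          have : ζ ^ 3 = η * ζ ^ 2 := by
            rw [hC]
            ring
          rw [this, hηζ]
        · rw [if_neg hC] at h1 h2
          obtain ⟨t, ht⟩ := hk
          omega
      · rw [if_neg hB] at h1
        split_ifs at h1 <;> omega

/-- The three types of derangement combined. -/
theorem exists_der [Fintype F] (p : ℕ) [Fact p.Prime] [CharP F p] (n m : ℕ) (hnm : n = 2 * m)
    (hm : 2 ≤ m) (r : ℕ) (hr : r.Prime) (hr2 : r ≠ 2) (hgap : ¬ (n = 6 ∧ r = 3))
    (hdvd : r ∣ Fintype.card F ^ (m ^ 2 - m) *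
      ∏ j ∈ Finset.range m, (Fintype.card F ^ (2 * j + 1) - 1)) :
    ∃ x : Matrix.SpecialLinearGroup (Fin n) F,
      (∃ z : F, ((x ^ r : Matrix.SpecialLinearGroup (Fin n) F) : Matrix (Fin n) (Fin n) F) =
        z • (1 : Matrix (Fin n) (Fin n) F)) ∧
      (∀ z : F, (x : Matrix (Fin n) (Fin n) F) ≠ z • (1 : Matrix (Fin n) (Fin n) F)) ∧
      ∀ f' : (Fin n → F) → (Fin n → F) → F, Cfsg.Geo.IsSymplecticForm f' → ¬ IsSim f' x.1 := by
  have hp : p.Prime := Fact.out
  obtain ⟨k, rfl⟩ : ∃ k, n = 3 + k := ⟨n - 3, by omega⟩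
  rcases (Nat.Prime.dvd_mul hr).mp hdvd with h | h
  · have h1 : r ∣ Fintype.card F := hr.dvd_of_dvd_pow h
    obtain ⟨e, -, he⟩ := FiniteField.card F p
    rw [he] at h1
    have h2 : r = p := (Nat.prime_dvd_prime_iff_eq hr hp).mp (hr.dvd_of_dvd_pow h1)
    subst h2
    exact exists_unip r hr2 k
  · obtain ⟨j, hj, hjd⟩ := (Prime.dvd_finsetProd_iff hr.prime _).mp h
    rw [Finset.mem_range] at hj
    by_cases hrq : r ∣ Fintype.card F - 1
    · refine exists_diag r hr hr2 hrq k ⟨m - 2, by omega⟩ ?_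
      rintro ⟨h1, h2⟩
      exact hgap ⟨by omega, h2⟩
    · exact exists_irr p (3 + k) (2 * j + 1) ⟨j, rfl⟩ (by omega) r hr hjd hrq

/-- The statement. -/
theorem main {F : Type u} [Field F] [Fintype F] {p : ℕ} [Fact p.Prime] [CharP F p]
    (n : ℕ) (hn : 4 ≤ n) (he : Even n) (f : (Fin n → F) → (Fin n → F) → F)
    (hf : Cfsg.Geo.IsSymplecticForm f) (r : ℕ) [Fact r.Prime] (hr2 : r ≠ 2)
    (hgap : ¬ (n = 6 ∧ r = 3))
    (hΩ : r ∣ ((Cfsg.Geo.similarityGroup f).comap (Matrix.SpecialLinearGroup.toGL :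
      Matrix.SpecialLinearGroup (Fin n) F →* GL (Fin n) F)).index) :
    ∃ x : Matrix.SpecialLinearGroup (Fin n) F,
      (∃ z : F, ((x ^ r : Matrix.SpecialLinearGroup (Fin n) F) : Matrix (Fin n) (Fin n) F) =
        z • (1 : Matrix (Fin n) (Fin n) F)) ∧
      (∀ z : F, (x : Matrix (Fin n) (Fin n) F) ≠ z • (1 : Matrix (Fin n) (Fin n) F)) ∧
      ∀ P : Matrix.SpecialLinearGroup (Fin n) F, P⁻¹ * x * P ∉
        ((Cfsg.Geo.similarityGroup f).comap (Matrix.SpecialLinearGroup.toGL :
          Matrix.SpecialLinearGroup (Fin n) F →* GL (Fin n) F)) := by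
  have hr : r.Prime := Fact.out
  obtain ⟨m, rfl⟩ : ∃ m, n = 2 * m := by
    obtain ⟨m, hm⟩ := he
    exact ⟨m, by omega⟩
  have hdvd := Nat.dvd_trans hΩ (index_dvd m (by omega) f hf)
  obtain ⟨x, h1, h2, h3⟩ := exists_der p (2 * m) m rfl (by omega) r hr hr2 hgap hdvd
  exact ⟨x, h1, h2, conj_not_mem f hf x h3⟩

end Cfsg.Agent.Helper42.BGSymp
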