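import Mathlib
import Cfsg.Agent.Helper30.UGDefs

set_option autoImplicit false

/-! Piece A1 of CALL S2708 (helper42). -/

namespace Cfsg.Agent.Helper42.UGA1

open Matrix Cfsg.Agent.Helper44.PSLn Cfsg.Agent.Helper44.PSUn Cfsg.Agent.Helper43.GraphAut
open Cfsg.Agent.Helper30.UG

universe u v

variable {F : Type u} [Field F] [Fintype F] {q n : ℕ}

/-- A1 -/
theorem ug_tau_order (hF : Fintype.card F = q ^ 2) : orderOf (ulang_tau hF) = 2 := by
  apply orderOf_eq_prime
  · apply RingEquiv.ext
    intro a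
    rw [pow_two]
    exact ulang_tau_tau hF a
  · exact ulang_tau_ne_one hF

end Cfsg.Agent.Helper42.UGA1
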