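import Mathlib
import Cfsg.Agent.Helper30.UGDefs

set_option autoImplicit false

/-! Piece A4 of CALL S2708 (helper42). -/

namespace Cfsg.Agent.Helper42.UGA4

open Matrix Cfsg.Agent.Helper44.PSLn Cfsg.Agent.Helper44.PSUn Cfsg.Agent.Helper43.GraphAut
open Cfsg.Agent.Helper30.UG

universe u v

variable {F : Type u} [Field F] [Fintype F] {q n : ℕ}

/-- A4 -/
theorem ug_conj (hF : Fintype.card F = q ^ 2) (h g : ↥(Cfsg.GU n F q)) :
    uD h * ugr hF g * (uD h)⁻¹ = ugr hF (h * g * (mapGU (ulang_tau hF) h)⁻¹) := by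
  unfold ugr
  rw [map_mul, map_mul, ← ulang_mapGU_inv, ← map_inv]
  have key := uF_mul_uD (ulang_tau hF) h⁻¹
  simp only [mul_assoc]
  rw [key]

end Cfsg.Agent.Helper42.UGA4
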