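import Mathlib
import Cfsg.Agent.Helper30.UGDefs

set_option autoImplicit false

/-! Piece A5 of CALL S2708 (helper42). -/

namespace Cfsg.Agent.Helper42.UGA5

open Matrix Cfsg.Agent.Helper44.PSLn Cfsg.Agent.Helper44.PSUn Cfsg.Agent.Helper43.GraphAut
open Cfsg.Agent.Helper30.UG

universe u v

variable {F : Type u} [Field F] [Fintype F] {q n : ℕ}

/-- A5 -/
theorem ug_eq_iff (hF : Fintype.card F = q ^ 2) (p : ℕ) [Fact p.Prime] [CharP F p]
    (hn : 3 ≤ n) (h32 : ¬ (n = 3 ∧ q = 2)) (g g' : ↥(Cfsg.GU n F q)) :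
    ugr hF g = ugr hF g' ↔
      ∃ c : F, ((g' : GL (Fin n) F) : Mn n F) = c • ((g : GL (Fin n) F) : Mn n F) := by
  unfold ugr
  rw [mul_left_inj, ulang_uD_eq_iff hF p hn h32]
  constructor
  · rintro ⟨c, rfl⟩
    exact ⟨((c : Fˣ) : F), ulang_mul_scalarGU_coe g c⟩
  · rintro ⟨c, hc⟩
    have h1 := ug_GU hF g'
    rw [hc, Matrix.transpose_smul, ug_map_smul, Matrix.smul_mul, Matrix.mul_smul, smul_smul,
      ug_GU hF g] at h1
    have h2 : c * ulang_tau hF c = 1 := by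
      apply lang_smul_one_inj (n := n) (by omega)
      rw [h1, one_smul]
    have h3 : c ^ (q + 1) = 1 := by
      rw [pow_succ', ← ulang_tau_apply hF]
      exact h2
    refine ⟨ulang_mkN1 c h3, ?_⟩
    apply Subtype.ext
    apply Units.ext
    rw [ulang_mul_scalarGU_coe, ulang_mkN1_coe]
    exact hc

end Cfsg.Agent.Helper42.UGA5
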