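import Mathlib
import Cfsg.Agent.Helper30.UGDefs
import Cfsg.Agent.Helper42.UGA4
import Cfsg.Agent.Helper42.UGA5

set_option autoImplicit false

/-! Pieces A6 and A7 of CALL S2708 (helper42). -/

namespace Cfsg.Agent.Helper42.UGA6

open Matrix Cfsg.Agent.Helper44.PSLn Cfsg.Agent.Helper44.PSUn Cfsg.Agent.Helper43.GraphAut
open Cfsg.Agent.Helper30.UG
open Cfsg.Agent.Helper42.UGA4 Cfsg.Agent.Helper42.UGA5

universe u v

variable {F : Type u} [Field F] [Fintype F] {q n : ℕ}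

/-- the matrix of `h * g * (mapGU τ h)⁻¹`, multiplied by `τ(h)` on the right -/
theorem ug_conj_coe_mul (hF : Fintype.card F = q ^ 2) (h g : ↥(Cfsg.GU n F q)) :
    (((h * g * (mapGU (ulang_tau hF) h)⁻¹ : ↥(Cfsg.GU n F q)) : GL (Fin n) F) : Mn n F) *
        ((h : GL (Fin n) F) : Mn n F).map (ulang_tau hF)
      = ((h : GL (Fin n) F) : Mn n F) * ((g : GL (Fin n) F) : Mn n F) := by
  have hinv : ((((mapGU (ulang_tau hF) h : ↥(Cfsg.GU n F q)) : GL (Fin n) F)⁻¹ : GL (Fin n) F) :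
      Mn n F) * ((h : GL (Fin n) F) : Mn n F).map (ulang_tau hF) = 1 := by
    rw [← ug_mapGU_coe]
    exact Units.inv_mul _
  show ((h : GL (Fin n) F) : Mn n F) * ((g : GL (Fin n) F) : Mn n F) *
      ((((mapGU (ulang_tau hF) h : ↥(Cfsg.GU n F q)) : GL (Fin n) F)⁻¹ : GL (Fin n) F) : Mn n F) *
        ((h : GL (Fin n) F) : Mn n F).map (ulang_tau hF) = _
  rw [Matrix.mul_assoc, hinv, Matrix.mul_one]

/-- the matrix of `h * g * (mapGU τ h)⁻¹` -/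
theorem ug_conj_coe (hF : Fintype.card F = q ^ 2) (h g : ↥(Cfsg.GU n F q)) (X : Mn n F)
    (hX : X * ((h : GL (Fin n) F) : Mn n F).map (ulang_tau hF)
      = ((h : GL (Fin n) F) : Mn n F) * ((g : GL (Fin n) F) : Mn n F)) :
    (((h * g * (mapGU (ulang_tau hF) h)⁻¹ : ↥(Cfsg.GU n F q)) : GL (Fin n) F) : Mn n F) = X := by
  have hinv : ((h : GL (Fin n) F) : Mn n F).map (ulang_tau hF) *
      ((((mapGU (ulang_tau hF) h : ↥(Cfsg.GU n F q)) : GL (Fin n) F)⁻¹ : GL (Fin n) F) :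
      Mn n F) = 1 := by
    rw [← ug_mapGU_coe]
    exact Units.mul_inv _
  show ((h : GL (Fin n) F) : Mn n F) * ((g : GL (Fin n) F) : Mn n F) *
      ((((mapGU (ulang_tau hF) h : ↥(Cfsg.GU n F q)) : GL (Fin n) F)⁻¹ : GL (Fin n) F) : Mn n F)
      = _
  rw [← hX, Matrix.mul_assoc, hinv, Matrix.mul_one]

/-- A6 -/
theorem ug_isConj (hF : Fintype.card F = q ^ 2) (p : ℕ) [Fact p.Prime] [CharP F p]
    (hn : 3 ≤ n) (h32 : ¬ (n = 3 ∧ q = 2)) (g g' : ↥(Cfsg.GU n F q)) :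
    Cfsg.IsConjUnder (Cfsg.inndiagPSU n F q) (ugr hF g) (ugr hF g') ↔
      ∃ (h : ↥(Cfsg.GU n F q)) (c : F),
        ((g' : GL (Fin n) F) : Mn n F) * ((h : GL (Fin n) F) : Mn n F).map (ulang_tau hF)
          = c • (((h : GL (Fin n) F) : Mn n F) * ((g : GL (Fin n) F) : Mn n F)) := by
  unfold Cfsg.IsConjUnder
  constructor
  · rintro ⟨δ, hδ, he⟩
    obtain ⟨h, rfl⟩ := (ulang_mem_inndiag δ).mp hδ
    rw [ug_conj] at he
    obtain ⟨c, hc⟩ := (ug_eq_iff hF p hn h32 _ _).mp he.symm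
    refine ⟨h, c, ?_⟩
    rw [hc, Matrix.smul_mul, ug_conj_coe_mul]
  · rintro ⟨h, c, hc⟩
    refine ⟨uD h, ulang_uD_mem_inndiag h, ?_⟩
    rw [ug_conj]
    symm
    rw [ug_eq_iff hF p hn h32]
    refine ⟨c, ?_⟩
    have hinv : ((h : GL (Fin n) F) : Mn n F).map (ulang_tau hF) *
        ((((mapGU (ulang_tau hF) h : ↥(Cfsg.GU n F q)) : GL (Fin n) F)⁻¹ : GL (Fin n) F) :
        Mn n F) = 1 := by
      rw [← ug_mapGU_coe]
      exact Units.mul_inv _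
    have hX : (((h * g * (mapGU (ulang_tau hF) h)⁻¹ : ↥(Cfsg.GU n F q)) : GL (Fin n) F) : Mn n F)
        = ((h : GL (Fin n) F) : Mn n F) * ((g : GL (Fin n) F) : Mn n F) *
          ((((mapGU (ulang_tau hF) h : ↥(Cfsg.GU n F q)) : GL (Fin n) F)⁻¹ : GL (Fin n) F) :
            Mn n F) := rfl
    rw [hX, ← Matrix.smul_mul, ← hc, Matrix.mul_assoc, hinv, Matrix.mul_one]

end Cfsg.Agent.Helper42.UGA6
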