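import Mathlib
import Cfsg.Agent.Helper30.UGDefs
import Cfsg.Agent.Helper42.UGA4
import Cfsg.Agent.Helper42.UGA5
import Cfsg.Agent.Helper42.UGA6

set_option autoImplicit false

/-! Piece A7 of CALL S2708 (helper42). -/

namespace Cfsg.Agent.Helper42.UGA7

open Matrix Cfsg.Agent.Helper44.PSLn Cfsg.Agent.Helper44.PSUn Cfsg.Agent.Helper43.GraphAut
open Cfsg.Agent.Helper30.UG
open Cfsg.Agent.Helper42.UGA4 Cfsg.Agent.Helper42.UGA5 Cfsg.Agent.Helper42.UGA6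

universe u v

variable {F : Type u} [Field F] [Fintype F] {q n : ℕ}

/-- A7 -/
theorem ug_mem_cGU (hF : Fintype.card F = q ^ 2) (p : ℕ) [Fact p.Prime] [CharP F p]
    (hn : 3 ≤ n) (h32 : ¬ (n = 3 ∧ q = 2)) (g h : ↥(Cfsg.GU n F q)) :
    h ∈ ulang_cGU (ugr hF g) ↔
      ∃ c : F, ((h : GL (Fin n) F) : Mn n F) * ((g : GL (Fin n) F) : Mn n F)
        = c • (((g : GL (Fin n) F) : Mn n F) * ((h : GL (Fin n) F) : Mn n F).map (ulang_tau hF)) := by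
  rw [ulang_mem_cGU, ← mul_inv_eq_iff_eq_mul, ug_conj, eq_comm, ug_eq_iff hF p hn h32]
  constructor
  · rintro ⟨c, hc⟩
    refine ⟨c, ?_⟩
    rw [← ug_conj_coe_mul hF h g, hc, Matrix.smul_mul]
  · rintro ⟨c, hc⟩
    refine ⟨c, ?_⟩
    apply ug_conj_coe hF h g
    rw [Matrix.smul_mul, hc]

end Cfsg.Agent.Helper42.UGA7
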