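import Mathlib
import Cfsg.Agent.Helper30.UGDefs
import Cfsg.Agent.Helper42.UGA1

set_option autoImplicit false

/-! Piece A2 of CALL S2708 (helper42). -/

namespace Cfsg.Agent.Helper42.UGA2

open Matrix Cfsg.Agent.Helper44.PSLn Cfsg.Agent.Helper44.PSUn Cfsg.Agent.Helper43.GraphAut
open Cfsg.Agent.Helper30.UG

universe u v

variable {F : Type u} [Field F] [Fintype F] {q n : ℕ}

/-- A2 -/
theorem ug_isGraph (hF : Fintype.card F = q ^ 2) (hn : 3 ≤ n) (g : ↥(Cfsg.GU n F q)) :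
    Cfsg.IsGraphAutClassPSU (ugr hF g) := by
  refine ⟨hn, uD g, uF (ulang_tau hF), ulang_tau hF, ?_, uD_innerDiag g, uF_fieldAut _, rfl⟩
  rw [Cfsg.Agent.Helper42.UGA1.ug_tau_order hF]
  exact even_two

end Cfsg.Agent.Helper42.UGA2
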