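import Mathlib
import Cfsg.Agent.Lead.LWDefs

/-! # Piece C8 of CALL S0747 (helper42) -/

set_option autoImplicit false

namespace Cfsg.Agent.Helper42.LWC8

open Cfsg.Agent.Lead.LW

variable {α : Type*} [Fintype α] [DecidableEq α]

-- PIECE C8
theorem good_of_swaps (G : Subgroup (Equiv.Perm α)) (k : ℕ) (Δ : Finset α) (hΔ : Δ.card = k + 1)
    (h : ∀ a ∈ Δ, ∀ b ∈ Δ, a ≠ b →
      ∃ g ∈ G, g a = b ∧ g b = a ∧ ∀ c ∈ Δ, c ≠ a → c ≠ b → g c = c) : Good G k := by
  refine ⟨Δ, hΔ, fun σ _ => ?_⟩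
  have htop : induced G Δ = ⊤ := by
    rw [eq_top_iff, ← Equiv.Perm.closure_isSwap, Subgroup.closure_le]
    rintro τ ⟨x, y, hxy, rfl⟩
    obtain ⟨g, hg, hgx, hgy, hgc⟩ := h x x.2 y y.2 (fun e => hxy (Subtype.ext e))
    refine mem_induced.mpr ⟨g, hg, fun z => ?_⟩
    by_cases hzx : z = x
    · subst hzx; rw [Equiv.swap_apply_left]; exact hgx
    · by_cases hzy : z = y
      · subst hzy; rw [Equiv.swap_apply_right]; exact hgy
      · rw [Equiv.swap_apply_of_ne_of_ne hzx hzy]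
        exact hgc z z.2 (fun e => hzx (Subtype.ext e)) (fun e => hzy (Subtype.ext e))
  have : σ ∈ induced G Δ := by rw [htop]; trivial
  exact mem_induced.mp this

end Cfsg.Agent.Helper42.LWC8
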