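import Mathlib
import Cfsg.Agent.Lead.LWDefs

/-! # Piece A3 of CALL S0747 (helper42) -/

set_option autoImplicit false

namespace Cfsg.Agent.Helper42.LWA3

open Cfsg.Agent.Lead.LW

variable {α : Type*} [Fintype α] [DecidableEq α]

-- PIECE A3
theorem ncard_cls_le (G : Subgroup (Equiv.Perm α)) (Γ : Finset α) (δ : α) :
    (cls G Γ δ).ncard ≤ Fintype.card α - Γ.card := by
  have hsub : cls G Γ δ ⊆ ((Γᶜ : Finset α) : Set α) := by
    intro x hx
    have := (mem_cls.mp hx).1
    simpa using this
  have h1 := Set.ncard_le_ncard hsub (Finset.finite_toSet _)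
  rw [Set.ncard_coe_finset, Finset.card_compl] at h1
  exact h1

end Cfsg.Agent.Helper42.LWA3
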