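import Mathlib
import Cfsg.Agent.Lead.LWDefs

/-! # Piece A7 of CALL S0747 (helper42) -/

set_option autoImplicit false

namespace Cfsg.Agent.Helper42.LWA7

open Cfsg.Agent.Lead.LW

variable {α : Type*} [Fintype α] [DecidableEq α]

-- PIECE A7  (classes are disjoint)
theorem cls_disjoint (G : Subgroup (Equiv.Perm α)) (Γ : Finset α) (δ₀ δ₁ : α) (hδ₁ : δ₁ ∉ Γ)
    (h : δ₁ ∉ cls G Γ δ₀) : Disjoint (cls G Γ δ₀) (cls G Γ δ₁) := by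
  rw [Set.disjoint_left]
  intro δ' h0 h1
  apply h
  obtain ⟨-, g₀, hg₀, hg₀'⟩ := mem_cls.mp h0
  obtain ⟨-, g₁, hg₁, hg₁'⟩ := mem_cls.mp h1
  refine mem_cls.mpr ⟨hδ₁, g₁⁻¹ * g₀, G.mul_mem (G.inv_mem hg₁) hg₀, fun a => ?_⟩
  rw [← hg₀' a, ← hg₁' ((g₁⁻¹ * g₀) a)]
  simp

end Cfsg.Agent.Helper42.LWA7
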