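import Mathlib
import Cfsg.Agent.Lead.LWDefs

/-! # Piece B4 of CALL S0747 (helper42) -/

set_option autoImplicit false

namespace Cfsg.Agent.Helper42.LWB4

open Cfsg.Agent.Lead.LW

variable {α : Type*} [Fintype α] [DecidableEq α]

-- PIECE B4
theorem card_fixF_lt (P : Subgroup (Equiv.Perm α)) (hne : P ≠ ⊥) :
    (fixF P).card < Fintype.card α := by
  obtain ⟨g, hg, hg1⟩ : ∃ g : Equiv.Perm α, g ∈ P ∧ g ≠ 1 := by
    obtain ⟨g, h⟩ := (Subgroup.ne_bot_iff_exists_ne_one).mp hne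
    exact ⟨(g : Equiv.Perm α), g.2, fun h1 => h (Subtype.ext h1)⟩
  obtain ⟨a, ha⟩ : ∃ a, g a ≠ a := by
    by_contra hcon
    simp only [not_exists, not_not] at hcon
    exact hg1 (Equiv.ext hcon)
  apply Finset.card_lt_univ_of_notMem (x := a)
  intro hmem
  exact ha (mem_fixF.mp hmem g hg)

end Cfsg.Agent.Helper42.LWB4
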