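import Mathlib

/-!
# CALL BG17 (helper25), piece TP1: the normalizer of a nilpotent subgroup normalizes each of
its Sylow subgroups.
-/

set_option autoImplicit false

namespace Cfsg.Agent.Helper42

open Subgroup

universe u

variable {G : Type u} [Group G] [Finite G]

/-- conjugation by an element of the normalizer, as an automorphism of the subgroup -/
def tp1ConjAut (T : Subgroup G) (g : G) (hg : g ∈ normalizer (T : Set G)) : ↥T ≃* ↥T where
  toFun t := ⟨g * t * g⁻¹, (mem_normalizer_iff.mp hg t).mp t.2⟩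
  invFun t := ⟨g⁻¹ * t * g, by
    have h1 := (mem_normalizer_iff.mp ((normalizer (T : Set G)).inv_mem hg) t).mp t.2
    rw [inv_inv] at h1
    exact h1⟩
  left_inv t := by
    apply Subtype.ext
    show g⁻¹ * (g * (t : G) * g⁻¹) * g = (t : G)
    group
  right_inv t := by
    apply Subtype.ext
    show g * (g⁻¹ * (t : G) * g) * g⁻¹ = (t : G)
    group
  map_mul' a b := by
    apply Subtype.ext
    show g * ((a : G) * (b : G)) * g⁻¹ = (g * (a : G) * g⁻¹) * (g * (b : G) * g⁻¹)
    group

theorem tp1_conj_mem (T : Subgroup G) (hnil : Group.IsNilpotent ↥T) (r : ℕ)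
    [Fact r.Prime] (P : Sylow r ↥T) (g : G) (hg : g ∈ normalizer (T : Set G)) (x : G)
    (hx : x ∈ ((P : Subgroup ↥T).map T.subtype : Subgroup G)) :
    g * x * g⁻¹ ∈ ((P : Subgroup ↥T).map T.subtype : Subgroup G) := by
  have hall : ∀ (p : ℕ) (_hp : Fact p.Prime) (P : Sylow p ↥T), (↑P : Subgroup ↥T).Normal :=
    ((Group.isNilpotent_of_finite_tfae (G := ↥T)).out 0 3).mp hnil
  have hPn : (P : Subgroup ↥T).Normal := hall r inferInstance P
  have hchar : (P : Subgroup ↥T).Characteristic := Sylow.characteristic_of_normal P hPn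
  obtain ⟨p, hp, rfl⟩ := Subgroup.mem_map.mp hx
  have h1 := hchar.fixed (tp1ConjAut T g hg)
  have h2 : p ∈ (P : Subgroup ↥T).comap (tp1ConjAut T g hg).toMonoidHom := by
    rw [h1]
    exact hp
  exact Subgroup.mem_map.mpr ⟨tp1ConjAut T g hg p, Subgroup.mem_comap.mp h2, rfl⟩

/-- TP1 (pure). The normalizer of a nilpotent subgroup normalizes each of its Sylow
subgroups (they are characteristic). -/
theorem bg17_norm_le_sylow (T : Subgroup G) (hnil : Group.IsNilpotent ↥T) (r : ℕ)
    [Fact r.Prime] (P : Sylow r ↥T) :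
    normalizer (T : Set G) ≤
      normalizer ((((P : Subgroup ↥T).map T.subtype : Subgroup G)) : Set G) := by
  intro g hg
  rw [mem_normalizer_iff]
  intro x
  constructor
  · exact tp1_conj_mem T hnil r P g hg x
  · intro hx
    have h1 := tp1_conj_mem T hnil r P g⁻¹ ((normalizer (T : Set G)).inv_mem hg) _ hx
    have h2 : g⁻¹ * (g * x * g⁻¹) * g⁻¹⁻¹ = x := by group
    rw [h2] at h1
    exact h1

end Cfsg.Agent.Helper42
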