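import Cfsg.Statements.S1383

set_option autoImplicit false

namespace Cfsg.Agent.Helper42

open Cfsg Subgroup

universe u

variable {G : Type u} [Group G] [Finite G]

omit [Finite G] in
/-- `k z k⁻¹ = z ^ a` gives `k ^ j z k ^ (-j) = z ^ (a ^ j)`. -/
theorem bg83cb2_conj_pow_iter {k z : G} {a : ℕ} (h : k * z * k⁻¹ = z ^ a) (j : ℕ) :
    k ^ j * z * (k ^ j)⁻¹ = z ^ (a ^ j) := by
  induction j with
  | zero => simp
  | succ j ih =>
    have e : k ^ (j + 1) * z * (k ^ (j + 1))⁻¹ = k * (k ^ j * z * (k ^ j)⁻¹) * k⁻¹ := by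
      rw [pow_succ']; group
    rw [e, ih, ← conj_pow, h, ← pow_mul, pow_succ']

omit [Finite G] in
/-- If `k z k⁻¹ = z ^ a`, `k ^ m = 1`, `a ^ t ≡ 1` modulo the order of `z` and `gcd(m, t) = 1`, then
`k` centralizes `z`. -/
theorem bg83cb2_comm_of_conj_pow {k z : G} {a N m t : ℕ} (h : k * z * k⁻¹ = z ^ a)
    (hz : orderOf z = N) (hm : k ^ m = 1) (ht : a ^ t ≡ 1 [MOD N])
    (hcop : Nat.Coprime m t) : k * z = z * k := by
  have h1 : z ^ (a ^ m) = z ^ 1 := by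
    rw [← bg83cb2_conj_pow_iter h m, hm]; simp
  have h2 : a ^ m ≡ 1 [MOD N] := by
    rw [← hz]; exact pow_eq_pow_iff_modEq.mp h1
  have hA1 : ((a : ZMod N)) ^ m = 1 := by
    have := (ZMod.natCast_eq_natCast_iff _ _ _).mpr h2
    simpa using this
  have hA2 : ((a : ZMod N)) ^ t = 1 := by
    have := (ZMod.natCast_eq_natCast_iff _ _ _).mpr ht
    simpa using this
  have hord : orderOf (a : ZMod N) ∣ 1 := by
    have := Nat.dvd_gcd (orderOf_dvd_of_pow_eq_one hA1) (orderOf_dvd_of_pow_eq_one hA2)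
    rwa [Nat.Coprime.gcd_eq_one hcop] at this
  have hA : (a : ZMod N) = 1 := orderOf_eq_one_iff.mp (Nat.dvd_one.mp hord)
  have h3 : a ≡ 1 [MOD N] := by
    have : ((a : ℕ) : ZMod N) = ((1 : ℕ) : ZMod N) := by simpa using hA
    exact (ZMod.natCast_eq_natCast_iff _ _ _).mp this
  have h4 : z ^ a = z ^ 1 := by
    rw [pow_eq_pow_iff_modEq, hz]; exact h3
  rw [h4, pow_one] at h
  calc k * z = k * z * k⁻¹ * k := by group
    _ = z * k := by rw [h]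

/-- CASEB2 (CALL BG83, helper25). -/
theorem bg83_case_B_order (p : ℕ) [Fact p.Prime] (hp2 : p ≠ 2) (P K : Subgroup G)
    (hP : IsPGroup p P) (hKP : K ≤ normalizer (P : Set G)) (hcop : (Nat.card K).Coprime p)
    (hd : Nat.card ↥⁅P, P⁆ = p) (hZ : IsCyclic ↥(P ⊓ centralizer (P : Set G)))
    (hcard : Nat.card ↥P = p ^ 2 * Nat.card ↥(P ⊓ centralizer (P : Set G)))
    (hfix : ∀ z ∈ P, (∀ k ∈ K, k * z = z * k) → z ∈ ⁅P, P⁆)
    (hcent : ∀ k ∈ K, ∀ z ∈ ⁅P, P⁆, k * z = z * k) : Nat.card ↥P = p ^ 3 := by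
  have hp : p.Prime := Fact.out
  have hDP : ⁅P, P⁆ ≤ P := by
    rw [Subgroup.commutator_le]
    intro a ha b hb
    exact P.mul_mem (P.mul_mem (P.mul_mem ha hb) (P.inv_mem ha)) (P.inv_mem hb)
  -- orders of elements of P are powers of p
  have hordP : ∀ x ∈ P, ∃ e, orderOf x = p ^ e := by
    intro x hx
    obtain ⟨e, he⟩ := hP ⟨x, hx⟩
    have h1 : x ^ (p ^ e) = 1 := by
      have := congrArg (Subtype.val) he
      simpa using this
    obtain ⟨e', _, he'⟩ := (Nat.dvd_prime_pow hp).mp (orderOf_dvd_of_pow_eq_one h1)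
    exact ⟨e', he'⟩
  -- a non-identity element d₀ of D
  have hDnt : ∃ d₀ ∈ ⁅P, P⁆, d₀ ≠ 1 := by
    have h1 : 1 < Nat.card ↥⁅P, P⁆ := by rw [hd]; exact hp.one_lt
    haveI : Nontrivial ↥⁅P, P⁆ := Finite.one_lt_card_iff_nontrivial.mp h1
    obtain ⟨x, hx⟩ := exists_ne (1 : ↥⁅P, P⁆)
    exact ⟨x.1, x.2, fun h => hx (Subtype.ext h)⟩
  obtain ⟨d₀, hd₀, hd₀1⟩ := hDnt
  have hd₀ord : orderOf d₀ = p := by
    have h1 : orderOf (⟨d₀, hd₀⟩ : ↥⁅P, P⁆) ∣ p := hd ▸ orderOf_dvd_natCard _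
    rw [Subgroup.orderOf_mk] at h1
    rcases (Nat.dvd_prime hp).mp h1 with h | h
    · exact absurd (orderOf_eq_one_iff.mp h) hd₀1
    · exact h
  have hd₀p : d₀ ^ p = 1 := hd₀ord ▸ pow_orderOf_eq_one d₀
  have hDgen : ∀ d ∈ ⁅P, P⁆, ∃ i : ℕ, d = d₀ ^ i := by
    intro d hdD
    have h1 := mem_powers_of_prime_card (G := ↥⁅P, P⁆) hd (g := ⟨d₀, hd₀⟩) (g' := ⟨d, hdD⟩)
      (fun h => hd₀1 (congrArg Subtype.val h))
    obtain ⟨i, hi⟩ := (Submonoid.mem_powers_iff _ _).mp h1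
    exact ⟨i, by have := congrArg Subtype.val hi; simpa using this.symm⟩
  -- D is central in P
  have hDcen : ∀ x ∈ P, x * d₀ = d₀ * x := by
    intro x hx
    have hxd : x * d₀ * x⁻¹ ∈ ⁅P, P⁆ := by
      have h1 : x * d₀ * x⁻¹ * d₀⁻¹ ∈ ⁅P, P⁆ :=
        Subgroup.commutator_mem_commutator hx (hDP hd₀)
      have h2 : x * d₀ * x⁻¹ = (x * d₀ * x⁻¹ * d₀⁻¹) * d₀ := by group
      rw [h2]; exact Subgroup.mul_mem _ h1 hd₀
    obtain ⟨a, ha⟩ := hDgen _ hxd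
    obtain ⟨e, he⟩ := hordP x hx
    have hpa : ¬ p ∣ a := by
      rintro ⟨c, rfl⟩
      rw [pow_mul, hd₀p, one_pow] at ha
      apply hd₀1
      have h3 : d₀ = x⁻¹ * (x * d₀ * x⁻¹) * x := by group
      rw [h3, ha]; group
    have hfer : a ^ (p - 1) ≡ 1 [MOD p] :=
      Nat.ModEq.pow_card_sub_one_eq_one hp ((Nat.Prime.coprime_iff_not_dvd hp).mpr hpa).symm
    have hcop' : Nat.Coprime (p ^ e) (p - 1) := by
      apply Nat.Coprime.pow_left
      rw [Nat.Prime.coprime_iff_not_dvd hp]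
      intro h
      have h5 := Nat.le_of_dvd (by have := hp.two_le; omega) h
      have := hp.two_le; omega
    exact bg83cb2_comm_of_conj_pow ha hd₀ord (he ▸ pow_orderOf_eq_one x) hfer hcop'
  have hDZ : ⁅P, P⁆ ≤ P ⊓ centralizer (P : Set G) := by
    intro d hdD
    refine Subgroup.mem_inf.mpr ⟨hDP hdD, ?_⟩
    rw [Subgroup.mem_centralizer_iff]
    intro x hx
    obtain ⟨i, rfl⟩ := hDgen d hdD
    exact (Commute.pow_right (hDcen x hx) i)
  -- generator of Z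
  obtain ⟨g, hg⟩ := IsCyclic.exists_monoid_generator (α := ↥(P ⊓ centralizer (P : Set G)))
  have hz₀Z : g.1 ∈ P ⊓ centralizer (P : Set G) := g.2
  have hz₀P : g.1 ∈ P := (Subgroup.mem_inf.mp hz₀Z).1
  have hZgen : ∀ z ∈ P ⊓ centralizer (P : Set G), ∃ i : ℕ, z = g.1 ^ i := by
    intro z hz
    obtain ⟨i, hi⟩ := (Submonoid.mem_powers_iff _ _).mp (hg ⟨z, hz⟩)
    exact ⟨i, by have := congrArg Subtype.val hi; simpa using this.symm⟩
  -- K normalizes Z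
  have hKZ : ∀ k ∈ K, ∀ z ∈ P ⊓ centralizer (P : Set G),
      k * z * k⁻¹ ∈ P ⊓ centralizer (P : Set G) := by
    intro k hk z hz
    have hkn := Subgroup.mem_normalizer_iff.mp (hKP hk)
    obtain ⟨hzP, hzC⟩ := Subgroup.mem_inf.mp hz
    refine Subgroup.mem_inf.mpr ⟨(hkn z).mp hzP, ?_⟩
    rw [Subgroup.mem_centralizer_iff]
    intro h hh
    have hh' : k⁻¹ * h * k ∈ P := by
      apply (hkn _).mpr
      have h6 : k * (k⁻¹ * h * k) * k⁻¹ = h := by group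
      rw [h6]; exact hh
    have hc := (Subgroup.mem_centralizer_iff.mp hzC) _ hh'
    calc h * (k * z * k⁻¹) = k * ((k⁻¹ * h * k) * z) * k⁻¹ := by group
      _ = k * (z * (k⁻¹ * h * k)) * k⁻¹ := by rw [hc]
      _ = k * z * k⁻¹ * h := by group
  -- each k ∈ K centralizes the generator
  have hKz₀ : ∀ k ∈ K, k * g.1 = g.1 * k := by
    intro k hk
    obtain ⟨a, ha⟩ := hZgen _ (hKZ k hk g.1 hz₀Z)
    obtain ⟨n, hn⟩ := hordP g.1 hz₀P
    obtain ⟨i, hi⟩ := hZgen d₀ (hDZ hd₀)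
    have hkd : k * d₀ * k⁻¹ = d₀ := by
      rw [hcent k hk d₀ hd₀]; group
    have hda : d₀ ^ a = d₀ ^ 1 := by
      have h7 : k * d₀ * k⁻¹ = d₀ ^ a := by
        rw [hi, ← conj_pow, ha, ← pow_mul, ← pow_mul, mul_comm]
      rw [pow_one, ← h7, hkd]
    have ha1 : a ≡ 1 [MOD p] := by
      have h8 := pow_eq_pow_iff_modEq.mp hda
      rwa [hd₀ord] at h8
    have hpow : a ^ (p ^ n) ≡ 1 [MOD p ^ n] := by
      have h1 : ((p : ℕ) : ℤ) ∣ (a : ℤ) - 1 := by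
        have h9 := (Nat.modEq_iff_dvd.mp ha1.symm)
        simpa using h9
      have h2 := dvd_sub_pow_of_dvd_sub h1 n
      have h3 : ((p ^ n : ℕ) : ℤ) ∣ ((a ^ (p ^ n) : ℕ) : ℤ) - ((1 : ℕ) : ℤ) := by
        push_cast
        rw [one_pow] at h2
        exact dvd_trans (pow_dvd_pow _ (Nat.le_succ n)) h2
      exact (Nat.modEq_iff_dvd.mpr h3).symm
    have hkord : (orderOf k).Coprime (p ^ n) := by
      have h1 : orderOf k ∣ Nat.card K := by
        have h10 := orderOf_dvd_natCard (⟨k, hk⟩ : ↥K)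
        rwa [Subgroup.orderOf_mk] at h10
      exact Nat.Coprime.pow_right n (Nat.Coprime.coprime_dvd_left h1 hcop)
    exact bg83cb2_comm_of_conj_pow ha hn (pow_orderOf_eq_one k) hpow hkord
  -- conclusion
  have hz₀D : g.1 ∈ ⁅P, P⁆ := hfix g.1 hz₀P hKz₀
  have hZD : P ⊓ centralizer (P : Set G) ≤ ⁅P, P⁆ := by
    intro z hz
    obtain ⟨i, rfl⟩ := hZgen z hz
    exact Subgroup.pow_mem _ hz₀D i
  have hZeq : P ⊓ centralizer (P : Set G) = ⁅P, P⁆ := le_antisymm hZD hDZ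
  rw [hcard, hZeq, hd]; ring

end Cfsg.Agent.Helper42
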