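import Mathlib
import Cfsg.Agent.Helper98.C2Defs

/-!
# Piece XI of CALL S5634 (helper42): from a "Case I" transvection to a cross transvection

Also general commutator lemmas for rank-one perturbations `1 + vecMulVec x ψ`
(`move_one`, `move_two`, `comm_val`).
-/

set_option autoImplicit false

namespace Cfsg.Agent.Helper42.C2XI

open Matrix Cfsg.Agent.Helper98.C2
open scoped MatrixGroups

variable {K : Type*} [Field K]

/-- the product of two rank-one matrices -/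
theorem r1_mul {ι : Type*} [Fintype ι] (x ψ y χ : ι → K) :
    vecMulVec x ψ * vecMulVec y χ = (ψ ⬝ᵥ y) • vecMulVec x χ := by
  rw [vecMulVec_mul_vecMulVec, vecMulVec_smul]

/-- Move 1: `h = 1 + x ψᵀ`, `T = 1 + a φᵀ` with `φ·a = 0`, `φ·x = 0`:
`h T h⁻¹ T⁻¹ = 1 + (ψ·a) x φᵀ`, in multiplied-out form. -/
theorem move_one {ι : Type*} [Fintype ι] [DecidableEq ι] (a φ x ψ : ι → K)
    (h1 : φ ⬝ᵥ a = 0) (h2 : φ ⬝ᵥ x = 0) :
    (1 + vecMulVec ((ψ ⬝ᵥ a) • x) φ) * ((1 + vecMulVec a φ) * (1 + vecMulVec x ψ)) =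
      (1 + vecMulVec x ψ) * (1 + vecMulVec a φ) := by
  have hPA : vecMulVec x φ * vecMulVec a φ = 0 := by rw [r1_mul, h1, zero_smul]
  have hPB : vecMulVec x φ * vecMulVec x ψ = 0 := by rw [r1_mul, h2, zero_smul]
  have hAB : vecMulVec a φ * vecMulVec x ψ = 0 := by rw [r1_mul, h2, zero_smul]
  have hBA : vecMulVec x ψ * vecMulVec a φ = (ψ ⬝ᵥ a) • vecMulVec x φ := r1_mul _ _ _ _
  rw [smul_vecMulVec]
  simp only [mul_add, add_mul, mul_one, one_mul, Matrix.smul_mul, hPA, hPB, hAB, hBA, smul_zero,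
    add_zero]
  abel

/-- Move 2: `h = 1 + y χᵀ` with `χ·y = 0`, `T = 1 + a φᵀ` with `χ·a = 0`:
`h T h⁻¹ T⁻¹ = 1 - (φ·y) a χᵀ`, in multiplied-out form. -/
theorem move_two {ι : Type*} [Fintype ι] [DecidableEq ι] (a φ y χ : ι → K)
    (h2 : χ ⬝ᵥ a = 0) (h3 : χ ⬝ᵥ y = 0) :
    (1 + -((φ ⬝ᵥ y) • vecMulVec a χ)) * ((1 + vecMulVec a φ) * (1 + vecMulVec y χ)) =
      (1 + vecMulVec y χ) * (1 + vecMulVec a φ) := by
  have hAB : vecMulVec a φ * vecMulVec y χ = (φ ⬝ᵥ y) • vecMulVec a χ := r1_mul _ _ _ _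
  have hBA : vecMulVec y χ * vecMulVec a φ = 0 := by rw [r1_mul, h2, zero_smul]
  have hXA : vecMulVec a χ * vecMulVec a φ = 0 := by rw [r1_mul, h2, zero_smul]
  have hXB : vecMulVec a χ * vecMulVec y χ = 0 := by rw [r1_mul, h3, zero_smul]
  have hXX : vecMulVec a χ * vecMulVec a χ = 0 := by rw [r1_mul, h2, zero_smul]
  simp only [mul_add, add_mul, mul_one, one_mul, Matrix.smul_mul, Matrix.mul_smul, Matrix.neg_mul,
    hAB, hBA, hXA, hXB, hXX, smul_zero, add_zero, neg_zero]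
  abel

/-- a commutator in `GL`, computed from a multiplied-out identity -/
theorem comm_val {ι : Type*} [Fintype ι] [DecidableEq ι] (A B : GL ι K) (X : Matrix ι ι K)
    (h : X * (A.1 * B.1) = B.1 * A.1) : (B * A * B⁻¹ * A⁻¹ : GL ι K).1 = X := by
  have h1 : (B * A * B⁻¹ * A⁻¹ : GL ι K).1 * (A.1 * B.1) = B.1 * A.1 := by
    rw [← Units.val_mul, ← Units.val_mul, ← Units.val_mul]
    congr 1
    group
  have hu : IsUnit (A.1 * B.1) := by
    rw [← Units.val_mul]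
    exact (A * B).isUnit
  exact hu.mul_left_inj.mp (h1.trans h.symm)

/-- the elementary transvection as a rank-one perturbation -/
theorem transvection_eq {ι : Type*} [Fintype ι] [DecidableEq ι] (i j : ι) (c : K) :
    Matrix.transvection i j c = 1 + c • vecMulVec (Pi.single i (1 : K)) (Pi.single j (1 : K)) := by
  rw [Matrix.transvection, ← single_eq_single_vecMulVec_single]
  congr 1
  ext p q
  simp [Matrix.single_apply]

/-- within-block elementary transvections lie in `M` -/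
theorem tv_mem {n t : ℕ} (blk : Fin n → Fin t) (M : Subgroup (GL (Fin n) K)) (hH : BlkLE blk M)
    (i j : Fin n) (hij : i ≠ j) (hb : blk i = blk j) (c : K) :
    ∃ h ∈ M, h.1 = Matrix.transvection i j c := by
  have hdet : (Matrix.transvection i j c).det = 1 := Matrix.det_transvection_of_ne _ _ hij c
  refine ⟨Matrix.GeneralLinearGroup.mkOfDetNeZero (Matrix.transvection i j c)
    (by rw [hdet]; exact one_ne_zero), ?_, rfl⟩
  apply hH
  · refine ⟨1, ?_⟩
    intro p q hpq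
    have hpq' : p ≠ q := by
      rintro rfl
      exact hpq rfl
    show Matrix.transvection i j c p q = 0
    rw [Matrix.transvection, Matrix.add_apply, Matrix.one_apply_ne hpq', Matrix.single_apply,
      zero_add]
    rw [if_neg]
    rintro ⟨rfl, rfl⟩
    exact hpq hb
  · exact hdet

/-- PIECE XI -/
theorem blk_caseI {n t : ℕ} (blk : Fin n → Fin t) (m : ℕ) (hm : 2 ≤ m)
    (hfib : ∀ b : Fin t, (Finset.univ.filter (fun i => blk i = b)).card = m)
    (M : Subgroup (GL (Fin n) K)) (hH : BlkLE blk M) (hI : CaseI blk M) : HasCrossTv blk M := by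
  obtain ⟨a, φ, c1, hφa, hφ, ⟨i, hi, hai⟩, hφ0, k, hk, hkeq⟩ := hI
  -- another index i' of the block c1
  have hex : ∀ p : Fin n, ∃ p' : Fin n, p' ≠ p ∧ blk p' = blk p := by
    intro p
    have h1 : 1 < (Finset.univ.filter (fun i => blk i = blk p)).card := by
      rw [hfib]; exact hm
    obtain ⟨p', hp', hne⟩ := Finset.exists_mem_ne h1 p
    exact ⟨p', hne, (Finset.mem_filter.mp hp').2⟩
  obtain ⟨i', hi'ne, hi'b⟩ := hex i
  have hi'c : blk i' = c1 := hi'b.trans hi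
  -- j with φ j ≠ 0
  obtain ⟨j, hj⟩ : ∃ j, φ j ≠ 0 := by
    by_contra hcon
    push Not at hcon
    exact hφ (funext hcon)
  have hjc : blk j ≠ c1 := fun h => hj (hφ0 j h)
  obtain ⟨j', hj'ne, hj'b⟩ := hex j
  -- h1 = 1 + E_{i' i}
  obtain ⟨h1, h1M, h1eq⟩ := tv_mem blk M hH i' i hi'ne (hi'c.trans hi.symm) 1
  rw [transvection_eq, one_smul] at h1eq
  -- h2 = 1 + E_{j j'}
  obtain ⟨h2, h2M, h2eq⟩ := tv_mem blk M hH j j' hj'ne.symm hj'b.symm 1
  rw [transvection_eq, one_smul] at h2eq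
  set x : Fin n → K := Pi.single i' 1 with hx
  set ψ : Fin n → K := Pi.single i 1 with hψ
  set y : Fin n → K := Pi.single j 1 with hy
  set χ : Fin n → K := Pi.single j' 1 with hχ
  have hφx : φ ⬝ᵥ x = 0 := by
    rw [hx, dotProduct_single, mul_one]
    exact hφ0 i' hi'c
  have hψa : ψ ⬝ᵥ a = a i := by rw [hψ, single_dotProduct, one_mul]
  have hi'j' : j' ≠ i' := by
    intro h
    apply hjc
    rw [← hj'b, h]
    exact hi'c
  have hχx : χ ⬝ᵥ x = 0 := by
    rw [hχ, hx, single_dotProduct, one_mul, Pi.single_apply, if_neg hi'j']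
  have hχy : χ ⬝ᵥ y = 0 := by
    rw [hχ, hy, single_dotProduct, one_mul, Pi.single_apply, if_neg hj'ne]
  have hφy : φ ⬝ᵥ y = φ j := by rw [hy, dotProduct_single, mul_one]
  -- T1 = [h1, k] = 1 + (a i • x) φᵀ
  have hT1 : (h1 * k * h1⁻¹ * k⁻¹ : GL (Fin n) K).1 = 1 + vecMulVec ((ψ ⬝ᵥ a) • x) φ := by
    apply comm_val
    rw [hkeq, h1eq]
    exact move_one a φ x ψ hφa hφx
  have hT1M : (h1 * k * h1⁻¹ * k⁻¹ : GL (Fin n) K) ∈ M :=
    M.mul_mem (M.mul_mem (M.mul_mem h1M hk) (M.inv_mem h1M)) (M.inv_mem hk)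
  set T1 : GL (Fin n) K := h1 * k * h1⁻¹ * k⁻¹ with hT1def
  set a1 : Fin n → K := (ψ ⬝ᵥ a) • x with ha1
  have hχa1 : χ ⬝ᵥ a1 = 0 := by rw [ha1, dotProduct_smul, hχx, smul_zero]
  -- T2 = [h2, T1] = 1 - (φ j) a1 χᵀ
  have hT2 : (h2 * T1 * h2⁻¹ * T1⁻¹ : GL (Fin n) K).1 = 1 + -((φ ⬝ᵥ y) • vecMulVec a1 χ) := by
    apply comm_val
    rw [hT1, h2eq]
    exact move_two a1 φ y χ hχa1 hχy
  have hT2M : (h2 * T1 * h2⁻¹ * T1⁻¹ : GL (Fin n) K) ∈ M :=
    M.mul_mem (M.mul_mem (M.mul_mem h2M hT1M) (M.inv_mem h2M)) (M.inv_mem hT1M)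
  refine ⟨_, hT2M, i', j', ?_, -(φ j * a i), ?_, ?_⟩
  · rw [hi'c, hj'b]
    exact fun h => hjc h.symm
  · exact neg_ne_zero.mpr (mul_ne_zero hj hai)
  · rw [hT2, transvection_eq, hφy, ha1, hψa, smul_vecMulVec, smul_smul, neg_smul]

end Cfsg.Agent.Helper42.C2XI
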