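import Mathlib
import Cfsg.Prelude.Def_GeometricClasses
import Cfsg.Agent.Helper96.CWDefs

/-!
# CALL S5707 (helper96), piece C4: Clifford relations for `k = 4`
-/

set_option autoImplicit false
set_option linter.unusedSectionVars false
set_option linter.unusedSimpArgs false
set_option linter.unusedVariables false

namespace Cfsg.Agent.Helper42.CWC4

open Matrix Cfsg Cfsg.Geo Cfsg.Agent.Helper96 Cfsg.Agent.Helper96.CW

variable {F : Type*} [Field F] {k t : ℕ}

/-- PIECE C4: Clifford relations for `k = 4`. -/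
theorem c4 (h2 : (2 : F) = 0) (W : Matrix (Fin 4) (Fin 4) F) (hW : W ∈ SD (G4 F)) :
    (∃ l : F, Ca F * W + W * Ca F = l • (1 : Matrix (Fin 4) (Fin 4) F)) ∧
    (∃ l : F, Cb F * W + W * Cb F = l • (1 : Matrix (Fin 4) (Fin 4) F)) := by
  obtain ⟨x, y, hbf, rfl⟩ := hW
  have hbf' : x 0 * y 3 + x 1 * y 2 + x 2 * y 1 + x 3 * y 0 = 0 := by
    have h := hbf
    simp [T5.bf, dotProduct, Matrix.mulVec, G4, Fin.sum_univ_four] at h
    linear_combination h
  have hW : ∀ a b : Fin 4, T5.dm (G4 F) x y a b = x a * y (Fin.rev b) - y a * x (Fin.rev b) := by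
    intro a b
    fin_cases b <;>
      simp [T5.dm, T5.rk, vecMulVec, dotProduct, Matrix.mulVec, G4, Fin.sum_univ_four, Fin.rev]
  constructor
  · refine ⟨x 0 * y 1 - y 0 * x 1, ?_⟩
    ext i j
    rw [Matrix.add_apply, Matrix.mul_apply, Matrix.mul_apply, Fin.sum_univ_four,
      Fin.sum_univ_four, Matrix.smul_apply]
    simp only [hW]
    fin_cases i <;> fin_cases j <;>
      simp [Ca, Fin.rev, Matrix.one_apply] <;>
      first
        | ring1
        | linear_combination (x 1 * y 0 - y 1 * x 0) * h2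
        | linear_combination hbf' - (y 0 * x 3 + y 2 * x 1) * h2
        | linear_combination hbf' - (y 1 * x 2 + y 3 * x 0) * h2
  · refine ⟨x 0 * y 2 - y 0 * x 2, ?_⟩
    ext i j
    rw [Matrix.add_apply, Matrix.mul_apply, Matrix.mul_apply, Fin.sum_univ_four,
      Fin.sum_univ_four, Matrix.smul_apply]
    simp only [hW]
    fin_cases i <;> fin_cases j <;>
      simp [Cb, Fin.rev, Matrix.one_apply] <;>
      first
        | ring1
        | linear_combination (x 2 * y 0 - y 2 * x 0) * h2
        | linear_combination hbf' - (y 0 * x 3 + y 1 * x 2) * h2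
        | linear_combination hbf' - (y 2 * x 1 + y 3 * x 0) * h2

end Cfsg.Agent.Helper42.CWC4
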