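import Mathlib
import Cfsg.Prelude.Def_GeometricClasses
import Cfsg.Agent.Helper96.CWDefs

/-!
# CALL S5707 (helper96), piece CM: the commutator of a Siegel element with a factor matrix
-/

set_option autoImplicit false
set_option linter.unusedSectionVars false
set_option linter.unusedSimpArgs false
set_option linter.unusedVariables false

namespace Cfsg.Agent.Helper42.CWCM

open Matrix Cfsg Cfsg.Geo Cfsg.Agent.Helper96 Cfsg.Agent.Helper96.CW

variable {F : Type*} [Field F] {k t : ℕ}

theorem cm_ptM_mul_facM (Xs : Fin t → Matrix (Fin k) (Fin k) F) (j : Fin t) (hj : Xs j = 1)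
    (M : Matrix (Fin k) (Fin k) F) : ptM Xs * facM j M = ptM (Function.update Xs j M) := by
  classical
  rw [facM_eq_ptM, ptM_mul]
  congr 1
  funext l
  by_cases h : l = j
  · subst h
    rw [Function.update_self, Function.update_self, hj, one_mul]
  · rw [Function.update_of_ne h, Function.update_of_ne h, mul_one]

theorem cm_facM_mul_ptM (Xs : Fin t → Matrix (Fin k) (Fin k) F) (j : Fin t) (hj : Xs j = 1)
    (M : Matrix (Fin k) (Fin k) F) : facM j M * ptM Xs = ptM (Function.update Xs j M) := by
  classical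
  rw [facM_eq_ptM, ptM_mul]
  congr 1
  funext l
  by_cases h : l = j
  · subst h
    rw [Function.update_self, Function.update_self, hj, mul_one]
  · rw [Function.update_of_ne h, Function.update_of_ne h, one_mul]

theorem cm_ptM_zero (a : Fin t → Matrix (Fin k) (Fin k) F) (i : Fin t) (h : a i = 0) :
    ptM a = 0 := by
  ext x y
  rw [ptM_apply, Matrix.zero_apply]
  exact Finset.prod_eq_zero (Finset.mem_univ i) (by rw [h]; rfl)

theorem cm_ring {R : Type*} [Ring R] (p y d e : R) (hpy : p * y = y * p) (hpd : p * d = d * p)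
    (hpe : p * e = e * p) (hpp : p * p = 0) (hde : d * e = 1) :
    (1 + p * y) * d * (1 + p * y) * e = 1 + p * (y + d * y * e) := by
  have h1 : p * y * d * (p * y) = 0 := by
    have : p * y * d * (p * y) = p * p * (y * d * y) := by
      rw [mul_assoc (p * y) d (p * y), ← mul_assoc d p y, ← hpd, mul_assoc p d y,
        ← mul_assoc (p * y) p (d * y), mul_assoc p y p, ← hpy, ← mul_assoc p p y,
        mul_assoc (p * p) y (d * y), ← mul_assoc y d y]
    rw [this, hpp, zero_mul]
  have h2 : d * (p * y) * e = p * (d * y * e) := by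
    rw [← mul_assoc d p y, ← hpd, mul_assoc p d y, mul_assoc p (d * y) e]
  calc (1 + p * y) * d * (1 + p * y) * e
      = d * e + d * (p * y) * e + p * y * (d * e) + p * y * d * (p * y) * e := by noncomm_ring
    _ = 1 + p * (y + d * y * e) := by
        rw [h1, h2, hde, zero_mul, add_zero, mul_one, mul_add]
        abel

/-- PIECE CM: the commutator of a Siegel element with a factor matrix (characteristic 2). -/
theorem cm (h2 : (2 : F) = 0) (Xs : Fin t → Matrix (Fin k) (Fin k) F) (j : Fin t)
    (hj : Xs j = 1) (hsq : ∃ i, i ≠ j ∧ Xs i * Xs i = 0)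
    (Y D Dinv : Matrix (Fin k) (Fin k) F) (hD1 : D * Dinv = 1) (hD2 : Dinv * D = 1) :
    ptM Xs * facM j Y = ptM (Function.update Xs j Y) ∧
    (1 + ptM Xs * facM j Y) * facM j D * (1 + ptM Xs * facM j Y) * facM j Dinv
      = 1 + ptM Xs * facM j (Y + D * Y * Dinv) := by
  refine ⟨cm_ptM_mul_facM Xs j hj Y, ?_⟩
  have hcomm : ∀ M : Matrix (Fin k) (Fin k) F, ptM Xs * facM j M = facM j M * ptM Xs := by
    intro M
    rw [cm_ptM_mul_facM Xs j hj, cm_facM_mul_ptM Xs j hj]
  have hpp : ptM Xs * ptM Xs = 0 := by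
    obtain ⟨i, _, hi⟩ := hsq
    rw [ptM_mul]
    exact cm_ptM_zero _ i hi
  have hde : facM j D * facM j Dinv = (1 : Matrix (Fin t → Fin k) (Fin t → Fin k) F) := by
    rw [facM_mul_facM, hD1, facM_one]
  have e := cm_ring (ptM Xs) (facM j Y) (facM j D) (facM j Dinv) (hcomm Y) (hcomm D)
    (hcomm Dinv) hpp hde
  rw [e, facM_mul_facM, facM_mul_facM]
  congr 2
  exact ((facL k j).map_add Y (D * Y * Dinv)).symm

end Cfsg.Agent.Helper42.CWCM
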