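import Mathlib
import Cfsg.Prelude.Def_GeometricClasses
import Cfsg.Agent.Helper96.CWDefs

/-!
# CALL S5707 (helper96), piece GN: a Siegel element `1 + X_i Y_j` normalises the span of the
Clifford generators
-/

set_option autoImplicit false
set_option linter.unusedSectionVars false
set_option linter.unusedSimpArgs false
set_option linter.unusedVariables false

namespace Cfsg.Agent.Helper42.CWGN

open Matrix Cfsg Cfsg.Geo Cfsg.Agent.Helper96 Cfsg.Agent.Helper96.CW

variable {F : Type*} [Field F] {k t : ℕ}

theorem gn_facM_comm (i j : Fin t) (hij : i ≠ j) (X Y : Matrix (Fin k) (Fin k) F) :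
    facM i X * facM j Y = facM j Y * facM i X := by
  classical
  rw [facM_eq_ptM, facM_eq_ptM, ptM_mul, ptM_mul]
  congr 1
  funext l
  by_cases h : l = i
  · subst h
    rw [Function.update_self, Function.update_of_ne hij, mul_one, one_mul]
  · by_cases h' : l = j
    · subst h'
      rw [Function.update_self, Function.update_of_ne h, mul_one, one_mul]
    · rw [Function.update_of_ne h, Function.update_of_ne h']

theorem gn_facM_zero (i : Fin t) : facM i (0 : Matrix (Fin k) (Fin k) F) = 0 :=
  (facL k i).map_zero

theorem gn_facM_add (i : Fin t) (A B : Matrix (Fin k) (Fin k) F) :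
    facM i (A + B) = facM i A + facM i B :=
  (facL k i).map_add A B

theorem gn_facM_smul_one (i : Fin t) (l : F) :
    facM i (l • (1 : Matrix (Fin k) (Fin k) F)) = l • (1 : Matrix (Fin t → Fin k) (Fin t → Fin k) F) := by
  have h := (facL k i).map_smul l (1 : Matrix (Fin k) (Fin k) F)
  rw [facL_apply, facL_apply, facM_one] at h
  exact h

theorem gn_facM_mem (S : Set (Matrix (Fin k) (Fin k) F)) (i : Fin t)
    (Y : Matrix (Fin k) (Fin k) F) (hY : Y ∈ Submodule.span F S) : facM i Y ∈ US t S := by
  have h : Submodule.span F S ≤ (US t S).comap (facL k i) := by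
    rw [Submodule.span_le]
    intro W hW
    show facL k i W ∈ US t S
    rw [facL_apply]
    exact Submodule.subset_span (Or.inr ⟨i, W, hW, rfl⟩)
  exact h hY

theorem gn_ring {R : Type*} [Ring R] (x y a : R) (hxy : x * y = y * x) (hya : y * a = a * y)
    (hyy : y * y = 0) : (1 + x * y) * a * (1 + x * y) = a + (x * a + a * x) * y := by
  have h1 : x * y * a = x * a * y := by rw [mul_assoc, hya, ← mul_assoc]
  have h2 : x * y * a * (x * y) = 0 := by
    rw [h1, mul_assoc (x * a), ← mul_assoc y, ← hxy, mul_assoc x y y, hyy, mul_zero, mul_zero]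
  calc (1 + x * y) * a * (1 + x * y) = a + x * y * a + a * (x * y) + x * y * a * (x * y) := by
        noncomm_ring
    _ = a + (x * a + a * x) * y := by
        rw [h2, h1, add_zero, add_mul, mul_assoc a x y, add_assoc]

/-- PIECE GN: a Siegel element `1 + X_i Y_j` normalises the span of the Clifford generators. -/
theorem gn (h2 : (2 : F) = 0) (S : Set (Matrix (Fin k) (Fin k) F)) (i j : Fin t) (hij : i ≠ j)
    (X Y : Matrix (Fin k) (Fin k) F) (hX0 : X * X = 0) (hY0 : Y * Y = 0)
    (hX : X ∈ Submodule.span F S) (hY : Y ∈ Submodule.span F S)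
    (hXc : ∀ W ∈ S, ∃ l : F, X * W + W * X = l • (1 : Matrix (Fin k) (Fin k) F))
    (hYc : ∀ W ∈ S, ∃ l : F, Y * W + W * Y = l • (1 : Matrix (Fin k) (Fin k) F)) :
    (1 + facM i X * facM j Y) * (1 + facM i X * facM j Y) = (1 : Matrix (Fin t → Fin k) (Fin t → Fin k) F) ∧
    ∀ Z ∈ US t S, (1 + facM i X * facM j Y) * Z * (1 + facM i X * facM j Y) ∈ US t S := by
  have h11 : ∀ M : Matrix (Fin t → Fin k) (Fin t → Fin k) F, M + M = 0 := by
    intro M
    rw [← two_smul F M, h2, zero_smul]
  have hc : facM i X * facM j Y = facM j Y * facM i X := gn_facM_comm i j hij X Y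
  have hxx : facM i X * facM i X = (0 : Matrix (Fin t → Fin k) (Fin t → Fin k) F) := by
    rw [facM_mul_facM, hX0, gn_facM_zero]
  have hyy : facM j Y * facM j Y = (0 : Matrix (Fin t → Fin k) (Fin t → Fin k) F) := by
    rw [facM_mul_facM, hY0, gn_facM_zero]
  have hNN : (facM i X * facM j Y) * (facM i X * facM j Y) =
      (0 : Matrix (Fin t → Fin k) (Fin t → Fin k) F) := by
    rw [mul_assoc, ← mul_assoc (facM j Y), ← hc, mul_assoc (facM i X) (facM j Y) (facM j Y), hyy,
      mul_zero, mul_zero]
  have hsq : (1 + facM i X * facM j Y) * (1 + facM i X * facM j Y) =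
      (1 : Matrix (Fin t → Fin k) (Fin t → Fin k) F) := by
    rw [add_mul, mul_add, mul_add, one_mul, mul_one, one_mul, hNN, add_zero, add_assoc, h11,
      add_zero]
  refine ⟨hsq, ?_⟩
  intro Z hZ
  change Z ∈ Submodule.span F _ at hZ
  induction hZ using Submodule.span_induction with
  | mem Z hZ =>
    rcases hZ with hZ | ⟨l, W, hW, rfl⟩
    · rw [Set.mem_singleton_iff] at hZ
      subst hZ
      rw [mul_one, hsq]
      exact Submodule.subset_span (Or.inl rfl)
    · have hWmem : facM l W ∈ US t S := Submodule.subset_span (Or.inr ⟨l, W, hW, rfl⟩)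
      by_cases hli : l = i
      · subst hli
        obtain ⟨c, hcW⟩ := hXc W hW
        have e := gn_ring (facM l X) (facM j Y) (facM l W) hc
          (gn_facM_comm j l (Ne.symm hij) Y W) hyy
        rw [e, facM_mul_facM, facM_mul_facM, ← gn_facM_add, hcW, gn_facM_smul_one, smul_mul_assoc,
          one_mul]
        exact Submodule.add_mem _ hWmem (Submodule.smul_mem _ c (gn_facM_mem S j Y hY))
      · by_cases hlj : l = j
        · subst hlj
          obtain ⟨c, hcW⟩ := hYc W hW
          have e := gn_ring (facM l Y) (facM i X) (facM l W) hc.symm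
            (gn_facM_comm i l hij X W) hxx
          rw [hc, e, facM_mul_facM, facM_mul_facM, ← gn_facM_add, hcW, gn_facM_smul_one,
            smul_mul_assoc, one_mul]
          exact Submodule.add_mem _ hWmem (Submodule.smul_mem _ c (gn_facM_mem S i X hX))
        · have hcomm : (1 + facM i X * facM j Y) * facM l W = facM l W * (1 + facM i X * facM j Y) := by
            rw [add_mul, mul_add, one_mul, mul_one, mul_assoc, gn_facM_comm j l (Ne.symm hlj) Y W,
              ← mul_assoc, gn_facM_comm i l (Ne.symm hli) X W, mul_assoc]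
          rw [hcomm, mul_assoc, hsq, mul_one]
          exact hWmem
  | zero =>
    rw [mul_zero, zero_mul]
    exact Submodule.zero_mem _
  | add Z Z' _ _ h h' =>
    rw [mul_add (1 + facM i X * facM j Y) Z Z', add_mul]
    exact Submodule.add_mem _ h h'
  | smul c Z _ h =>
    rw [mul_smul_comm, smul_mul_assoc]
    exact Submodule.smul_mem _ c h

end Cfsg.Agent.Helper42.CWGN
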