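import Mathlib
import Cfsg.Prelude.Def_GeometricClasses
import Cfsg.Agent.Helper96.CWDefs
import Cfsg.Agent.Helper41.T5REDQ

/-!
# CALL S5707 (helper96), piece RQ: the quadratic form transported to `Fin t → Fin k`
(adapted from `Helper41/T5REDQ.lean`)
-/

set_option autoImplicit false
set_option linter.unusedSectionVars false
set_option linter.unusedSimpArgs false
set_option linter.unusedVariables false

namespace Cfsg.Agent.Helper42.CWRQ

open Matrix Cfsg Cfsg.Geo Cfsg.Agent.Helper96 Cfsg.Agent.Helper96.CW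

/-- PIECE RQ: the quadratic form transported to `Fin t → Fin k`
(model: `Helper41/T5REDQ.lean`, `redq`). -/
theorem rq {F : Type*} [Field F] {n : ℕ} (Q : (Fin n → F) → F)
    (hQ : IsNondegenerateQuadraticForm Q) (k t : ℕ) (e : Fin n ≃ (Fin t → Fin k))
    (P : GL (Fin n) F) (f₁ : (Fin k → F) → (Fin k → F) → F) (hf₁ : IsSymplecticForm f₁)
    (hT : IsTensorPowerFormStructure id (QuadraticMap.polar Q) f₁ e P)
    (hpure : ∀ xs : Fin t → (Fin k → F),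
      Q (Matrix.mulVec (P : Matrix (Fin n) (Fin n) F)
        ((fun a : Fin t → Fin k => ∏ i, xs i (a i)) ∘ e)) = 0) :
    ∃ (c : F) (Q' : ((Fin t → Fin k) → F) → F), c ≠ 0 ∧ TPQ (gramMatrix f₁) Q' ∧
      ∀ v : (Fin t → Fin k) → F, Q ((P : Matrix (Fin n) (Fin n) F) *ᵥ (v ∘ e)) = c * Q' v := by
  classical
  obtain ⟨c, hc, hTc⟩ := hT
  -- the linear bijection `L v = P (v ∘ e)`
  have hLadd : ∀ v w : (Fin t → Fin k) → F,
      (P : Matrix (Fin n) (Fin n) F) *ᵥ ((v + w) ∘ e) =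
        (P : Matrix (Fin n) (Fin n) F) *ᵥ (v ∘ e) + (P : Matrix (Fin n) (Fin n) F) *ᵥ (w ∘ e) := by
    intro v w
    rw [← Matrix.mulVec_add]
    rfl
  have hLsmul : ∀ (r : F) (v : (Fin t → Fin k) → F),
      (P : Matrix (Fin n) (Fin n) F) *ᵥ ((r • v) ∘ e) =
        r • ((P : Matrix (Fin n) (Fin n) F) *ᵥ (v ∘ e)) := by
    intro r v
    rw [← Matrix.mulVec_smul]
    rfl
  have hLinj : ∀ v : (Fin t → Fin k) → F,
      (P : Matrix (Fin n) (Fin n) F) *ᵥ (v ∘ e) = 0 → v = 0 := by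
    intro v hv
    have h1 : ((P⁻¹ : GL (Fin n) F) : Matrix (Fin n) (Fin n) F) *ᵥ
        ((P : Matrix (Fin n) (Fin n) F) *ᵥ (v ∘ e)) = 0 := by rw [hv, Matrix.mulVec_zero]
    rw [Matrix.mulVec_mulVec, ← Units.val_mul, inv_mul_cancel, Units.val_one,
      Matrix.one_mulVec] at h1
    funext p
    have := congrFun h1 (e.symm p)
    simpa using this
  have hLsurj : ∀ x : Fin n → F, ∃ v : (Fin t → Fin k) → F,
      x = (P : Matrix (Fin n) (Fin n) F) *ᵥ (v ∘ e) := by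
    intro x
    refine ⟨(((P⁻¹ : GL (Fin n) F) : Matrix (Fin n) (Fin n) F) *ᵥ x) ∘ e.symm, ?_⟩
    have h3 : ((((P⁻¹ : GL (Fin n) F) : Matrix (Fin n) (Fin n) F) *ᵥ x) ∘ e.symm) ∘ e
        = ((P⁻¹ : GL (Fin n) F) : Matrix (Fin n) (Fin n) F) *ᵥ x := by
      funext i
      simp
    rw [h3, Matrix.mulVec_mulVec, ← Units.val_mul, mul_inv_cancel, Units.val_one,
      Matrix.one_mulVec]
  -- the polar form of `Q'`
  have hpol : ∀ v w : (Fin t → Fin k) → F,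
      QuadraticMap.polar (fun v : (Fin t → Fin k) → F =>
          c⁻¹ * Q ((P : Matrix (Fin n) (Fin n) F) *ᵥ (v ∘ e))) v w =
        c⁻¹ * QuadraticMap.polar Q ((P : Matrix (Fin n) (Fin n) F) *ᵥ (v ∘ e))
          ((P : Matrix (Fin n) (Fin n) F) *ᵥ (w ∘ e)) := by
    intro v w
    simp only [QuadraticMap.polar]
    rw [hLadd]
    ring
  have hpol2 : ∀ v w : (Fin t → Fin k) → F,
      QuadraticMap.polar (fun v : (Fin t → Fin k) → F =>
          c⁻¹ * Q ((P : Matrix (Fin n) (Fin n) F) *ᵥ (v ∘ e))) v w =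
        T5.bf (GT t (gramMatrix f₁)) v w := by
    intro v w
    rw [hpol, hTc, inv_mul_cancel_left₀ hc]
    simp only [T5.bf, dotProduct, Matrix.mulVec, GT, ptM_apply, id, Finset.mul_sum, mul_assoc]
  refine ⟨c, fun v => c⁻¹ * Q ((P : Matrix (Fin n) (Fin n) F) *ᵥ (v ∘ e)), hc, ?_, fun v => ?_⟩
  · refine ⟨?_, ?_, ⟨?_, ?_, ?_⟩, hpol2, ?_⟩
    · intro u
      rw [Cfsg.Agent.Helper41.T5REDQ.redq_bf_gram f₁ hf₁.bilinear]
      exact hf₁.alternating u
    · exact Cfsg.Agent.Helper41.T5REDQ.redq_det_ne f₁ hf₁.bilinear hf₁.nondegenerate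
    · intro r v
      show c⁻¹ * Q ((P : Matrix (Fin n) (Fin n) F) *ᵥ ((r • v) ∘ e)) =
        r ^ 2 * (c⁻¹ * Q ((P : Matrix (Fin n) (Fin n) F) *ᵥ (v ∘ e)))
      rw [hLsmul, hQ.smul]
      ring
    · refine ⟨fun x y v => ?_, fun r x v => ?_, fun v x y => ?_, fun r v x => ?_⟩
      · rw [hpol2, hpol2, hpol2, T5.bf_add_left]
      · rw [hpol2, hpol2, T5.bf_smul_left]
      · rw [hpol2, hpol2, hpol2, T5.bf_add_right]
      · rw [hpol2, hpol2, T5.bf_smul_right]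
    · intro v hv
      have hLv : (P : Matrix (Fin n) (Fin n) F) *ᵥ (v ∘ e) ≠ 0 := fun h => hv (hLinj v h)
      obtain ⟨⟨x, hx⟩, ⟨y, hy⟩⟩ := hQ.nondegenerate _ hLv
      obtain ⟨x', rfl⟩ := hLsurj x
      obtain ⟨y', rfl⟩ := hLsurj y
      refine ⟨⟨x', ?_⟩, ⟨y', ?_⟩⟩
      · rw [hpol]
        exact mul_ne_zero (inv_ne_zero hc) hx
      · rw [hpol]
        exact mul_ne_zero (inv_ne_zero hc) hy
    · intro us
      show c⁻¹ * Q ((P : Matrix (Fin n) (Fin n) F) *ᵥ ((fun a : Fin t → Fin k => ∏ i, us i (a i)) ∘ e)) = 0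
      rw [hpure us, mul_zero]
  · show Q ((P : Matrix (Fin n) (Fin n) F) *ᵥ (v ∘ e)) =
      c * (c⁻¹ * Q ((P : Matrix (Fin n) (Fin n) F) *ᵥ (v ∘ e)))
    rw [mul_inv_cancel_left₀ hc]

end Cfsg.Agent.Helper42.CWRQ
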