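import Mathlib
import Cfsg.Prelude.Def_GeometricClasses
import Cfsg.Prelude.Def_LieClassical
import Cfsg.Agent.Helper69.E3Def
import Cfsg.Agent.Helper84.E3BASE
import Cfsg.Agent.Helper91.E3NF
import Cfsg.Agent.Helper97.UForm

/-!
# Piece NFU of CALL S5999 (helper42): unitary normal form of `3^{1+2} ≤ GU_3(p)`
-/

set_option autoImplicit false

namespace Cfsg.Agent.Helper42

open Cfsg Cfsg.Geo Matrix Cfsg.Agent.Helper69 Cfsg.Agent.Helper97

/-- a ring automorphism applied entrywise is multiplicative -/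
theorem e3u_map_mul {F : Type*} [Field F] {n : ℕ} (σ : F ≃+* F)
    (L M : Matrix (Fin n) (Fin n) F) : (L * M).map σ = L.map σ * M.map σ := by
  ext i j
  simp [Matrix.mul_apply, map_sum, map_mul]

/-- a matrix with `gᵀ g^σ = 1` is an isometry of the standard unitary form
(copy of `Helper97.U9.mem_GU_of_matrix`, to avoid its heavy imports) -/
theorem e3u_mem_GU_of_matrix {F : Type*} [Field F] {n : ℕ} {q : ℕ} {σ : F ≃+* F}
    (h : IsSigma q σ) (g : GL (Fin n) F)
    (hg : (g : Matrix (Fin n) (Fin n) F)ᵀ * (g : Matrix (Fin n) (Fin n) F).map σ = 1) :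
    g ∈ GU n F q := by
  intro u v
  show hermForm n F q ((g : Matrix (Fin n) (Fin n) F) *ᵥ u) ((g : Matrix (Fin n) (Fin n) F) *ᵥ v)
    = hermForm n F q u v
  rw [h.isSesq.apply_mulVec, h.gram_herm, Matrix.mul_one, hg, h.isSesq.apply_eq, h.gram_herm]

/-- the Gram matrix of a conjugator is invariant -/
theorem e3u_gram_invariant {F : Type*} [Field F] {n : ℕ} {q : ℕ} {σ : F ≃+* F}
    (h : IsSigma q σ) (P₀ e : GL (Fin n) F) (hmem : P₀ * e * P₀⁻¹ ∈ GU n F q) :
    (e : Matrix (Fin n) (Fin n) F)ᵀ *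
        ((P₀ : Matrix (Fin n) (Fin n) F)ᵀ * (P₀ : Matrix (Fin n) (Fin n) F).map σ) *
        (e : Matrix (Fin n) (Fin n) F).map σ =
      (P₀ : Matrix (Fin n) (Fin n) F)ᵀ * (P₀ : Matrix (Fin n) (Fin n) F).map σ := by
  have h1 := h.GU_matrix _ hmem
  rw [Units.val_mul, Units.val_mul, transpose_mul, transpose_mul, e3u_map_mul, e3u_map_mul] at h1
  set A : Matrix (Fin n) (Fin n) F := (P₀ : Matrix (Fin n) (Fin n) F) with hA
  set E : Matrix (Fin n) (Fin n) F := (e : Matrix (Fin n) (Fin n) F) with hE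
  set B : Matrix (Fin n) (Fin n) F := ((P₀⁻¹ : GL (Fin n) F) : Matrix (Fin n) (Fin n) F) with hB
  have hBA : B * A = 1 := by rw [hB, hA, ← Units.val_mul, inv_mul_cancel, Units.val_one]
  have h2 : Aᵀ * Bᵀ = 1 := by rw [← transpose_mul, hBA, transpose_one]
  have h3 : B.map σ * A.map σ = 1 := by
    rw [← e3u_map_mul, hBA, Matrix.map_one _ (map_zero σ) (map_one σ)]
  calc Eᵀ * (Aᵀ * A.map σ) * E.map σ
      = (Aᵀ * Bᵀ) * (Eᵀ * (Aᵀ * A.map σ) * E.map σ) * (B.map σ * A.map σ) := by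
        rw [h2, h3, one_mul, mul_one]
    _ = Aᵀ * (Bᵀ * (Eᵀ * Aᵀ) * (A.map σ * E.map σ * B.map σ)) * A.map σ := by
        simp only [Matrix.mul_assoc]
    _ = Aᵀ * A.map σ := by rw [h1, mul_one]

/-- Schur's lemma for `E3 ω` in the twisted form needed here -/
theorem e3u_schur_aux {F : Type*} [Field F] (ω : F) (hω1 : ω ≠ 1) (hω3 : ω ^ 3 = 1)
    (M : Matrix (Fin 3) (Fin 3) F) (hX : (e3X F).transpose * M * e3X F = M)
    (hZ : e3Z ω * M * e3Z ω ^ 2 = M) :
    ∃ c : F, M = c • (1 : Matrix (Fin 3) (Fin 3) F) := by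
  have hω2 : ω ^ 2 ≠ 1 := by
    intro h
    apply hω1
    have : ω ^ 3 = ω := by rw [pow_succ, h, one_mul]
    rw [← this, hω3]
  have hne : ω - 1 ≠ 0 := sub_ne_zero.mpr hω1
  have hne2 : ω ^ 2 - 1 ≠ 0 := sub_ne_zero.mpr hω2
  rw [Cfsg.Agent.Helper84.e3Z_pow] at hZ
  have Z := fun i j => congrFun (congrFun hZ i) j
  have X := fun i j => congrFun (congrFun hX i) j
  have z01 := Z 0 1
  have z02 := Z 0 2
  have z10 := Z 1 0
  have z12 := Z 1 2
  have z20 := Z 2 0
  have z21 := Z 2 1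
  have x00 := X 0 0
  have x11 := X 1 1
  simp [e3Z, e3X, Matrix.mul_apply, Fin.sum_univ_three, Matrix.vecMul, dotProduct] at z01 z02 z10 z12 z20 z21 x00 x11
  have m01 : M 0 1 = 0 := by
    have : (ω ^ 2 - 1) * M 0 1 = 0 := by linear_combination z01
    exact (mul_eq_zero.mp this).resolve_left hne2
  have m02 : M 0 2 = 0 := by
    have : (ω - 1) * M 0 2 = 0 := by linear_combination z02 - M 0 2 * ω * hω3
    exact (mul_eq_zero.mp this).resolve_left hne
  have m10 : M 1 0 = 0 := by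
    have : (ω - 1) * M 1 0 = 0 := by linear_combination z10
    exact (mul_eq_zero.mp this).resolve_left hne
  have m12 : M 1 2 = 0 := by
    have : (ω ^ 2 - 1) * M 1 2 = 0 := by linear_combination z12 - M 1 2 * ω ^ 2 * hω3
    exact (mul_eq_zero.mp this).resolve_left hne2
  have m20 : M 2 0 = 0 := by
    have : (ω ^ 2 - 1) * M 2 0 = 0 := by linear_combination z20
    exact (mul_eq_zero.mp this).resolve_left hne2
  have m21 : M 2 1 = 0 := by
    have : (ω - 1) * M 2 1 = 0 := by linear_combination z21 - M 2 1 * ω * hω3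
    exact (mul_eq_zero.mp this).resolve_left hne
  refine ⟨M 0 0, ?_⟩
  ext i j
  fin_cases i <;> fin_cases j <;> simp [m01, m02, m10, m12, m20, m21]
  · exact x00
  · exact x11.trans x00

/-- PIECE NFU -/
theorem e3u_normal_form {F : Type*} [Field F] [Fintype F] {p : ℕ} [Fact p.Prime] [CharP F p]
    (hF : Fintype.card F = p ^ 2) (hp3 : p % 3 = 2)
    (R : Subgroup (GL (Fin 3) F)) (hRU : R ≤ Cfsg.GU 3 F p) (hR : Nat.card R = 27)
    (hRe : Monoid.exponent R = 3) (hRna : ¬ IsMulCommutative R) :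
    ∃ (ω : F) (P : GL (Fin 3) F), ω ≠ 1 ∧ ω ^ 3 = 1 ∧ P ∈ Cfsg.GU 3 F p ∧
      R = (E3 ω).map (MulAut.conj P).toMonoidHom := by
  have hp : p.Prime := Fact.out
  -- 3 ≠ 0 in F
  have h3 : (3 : F) ≠ 0 := by
    intro h
    have h' : ((3 : ℕ) : F) = 0 := by exact_mod_cast h
    rw [CharP.cast_eq_zero_iff F p 3] at h'
    have := (Nat.prime_dvd_prime_iff_eq hp Nat.prime_three).mp h'
    omega
  -- a primitive cube root of unity
  obtain ⟨w, hw1, hw3⟩ : ∃ w : F, w ≠ 1 ∧ w ^ 3 = 1 := by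
    have hcard : Nat.card Fˣ = p ^ 2 - 1 := by
      rw [Nat.card_units, Nat.card_eq_fintype_card, hF]
    have hdvd : 3 ∣ Nat.card Fˣ := by
      rw [hcard]
      have h1 : p ^ 2 % 3 = 1 := by
        rw [pow_two, Nat.mul_mod, hp3]
      have h2 : 1 ≤ p ^ 2 := Nat.one_le_pow _ _ hp.pos
      omega
    haveI : Fact (Nat.Prime 3) := ⟨Nat.prime_three⟩
    obtain ⟨u, hu⟩ := exists_prime_orderOf_dvd_card' (G := Fˣ) 3 hdvd
    refine ⟨(u : F), ?_, ?_⟩
    · intro h
      have : u = 1 := Units.ext h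
      rw [this, orderOf_one] at hu
      omega
    · have := pow_orderOf_eq_one u
      rw [hu] at this
      have h' := congrArg Units.val this
      simpa using h'
  obtain ⟨ω, P₀, hω1, hω3, hRP⟩ := Cfsg.Agent.Helper91.e3_normal_form h3 w hw1 hw3 R hR hRe hRna
  obtain ⟨σ, hσ⟩ := exists_sigma hF
  set A : Matrix (Fin 3) (Fin 3) F := (P₀ : Matrix (Fin 3) (Fin 3) F) with hA
  set B : Matrix (Fin 3) (Fin 3) F := ((P₀⁻¹ : GL (Fin 3) F) : Matrix (Fin 3) (Fin 3) F) with hB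
  have hAB : A * B = 1 := by rw [hA, hB, ← Units.val_mul, mul_inv_cancel, Units.val_one]
  have hBA : B * A = 1 := by rw [hA, hB, ← Units.val_mul, inv_mul_cancel, Units.val_one]
  set M : Matrix (Fin 3) (Fin 3) F := Aᵀ * A.map σ with hM
  have hinv : ∀ e ∈ E3 ω, (e : Matrix (Fin 3) (Fin 3) F)ᵀ * M *
      (e : Matrix (Fin 3) (Fin 3) F).map σ = M := by
    intro e he
    apply e3u_gram_invariant hσ P₀ e
    apply hRU
    rw [hRP]
    exact Subgroup.mem_map_of_mem _ he
  -- σ ω = ω ^ 2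
  have hσω : σ ω = ω ^ 2 := by
    rw [hσ.pow]
    have hp' : p = 3 * (p / 3) + 2 := by omega
    rw [hp', pow_add, pow_mul, hω3, one_pow, one_mul]
  have hX : (e3X F).transpose * M * e3X F = M := by
    have h1 := hinv _ (Cfsg.Agent.Helper84.e3gX_mem ω)
    have h2 : ((Cfsg.Agent.Helper84.e3gX F : GL (Fin 3) F) : Matrix (Fin 3) (Fin 3) F) = e3X F := rfl
    rw [h2] at h1
    have h3' : (e3X F).map σ = e3X F := by
      ext i j
      fin_cases i <;> fin_cases j <;> simp [e3X]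
    rw [h3'] at h1
    exact h1
  have hZ : e3Z ω * M * e3Z ω ^ 2 = M := by
    have h1 := hinv _ (Cfsg.Agent.Helper84.e3gZ_mem ω hω3)
    have h2 : ((Cfsg.Agent.Helper84.e3gZ ω hω3 : GL (Fin 3) F) : Matrix (Fin 3) (Fin 3) F) =
        e3Z ω := rfl
    rw [h2] at h1
    have h3' : (e3Z ω).map σ = e3Z ω ^ 2 := by
      rw [Cfsg.Agent.Helper84.e3Z_pow]
      ext i j
      fin_cases i <;> fin_cases j <;> simp [e3Z, hσω]
    have h4 : (e3Z ω)ᵀ = e3Z ω := by
      ext i j
      fin_cases i <;> fin_cases j <;> simp [e3Z]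
    rw [h3', h4] at h1
    exact h1
  obtain ⟨c, hc⟩ := e3u_schur_aux ω hω1 hω3 M hX hZ
  -- c ≠ 0
  have hc0 : c ≠ 0 := by
    rintro rfl
    rw [zero_smul] at hc
    have h1 : A.map σ = 0 := by
      have : Bᵀ * M = 0 := by rw [hc, mul_zero]
      rw [hM, ← Matrix.mul_assoc, ← transpose_mul, hAB, transpose_one, one_mul] at this
      exact this
    have h2 : B.map σ * A.map σ = 1 := by
      rw [← e3u_map_mul, hBA, Matrix.map_one _ (map_zero σ) (map_one σ)]
    rw [h1, mul_zero] at h2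
    have := congrFun (congrFun h2 0) 0
    simp at this
  -- σ c = c
  have hσc : σ c = c := by
    have h1 : Mᵀ = M.map σ := by
      rw [hM, transpose_mul, transpose_transpose, e3u_map_mul]
      have e1 : (A.map σ)ᵀ = Aᵀ.map σ := by
        ext i j; simp
      have e2 : (A.map σ).map σ = A := by
        ext i j; simp [hσ.inv]
      rw [e1, e2]
    rw [hc] at h1
    have := congrFun (congrFun h1 0) 0
    simp at this
    exact this.symm
  obtain ⟨μ, hμ⟩ := hσ.exists_norm_eq hF c⁻¹ (by rw [map_inv₀, hσc]) (inv_ne_zero hc0)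
  have hμ0 : μ ≠ 0 := by
    rintro rfl
    rw [zero_mul] at hμ
    exact inv_ne_zero hc0 hμ.symm
  let P : GL (Fin 3) F := ⟨μ • A, μ⁻¹ • B,
    by rw [Matrix.smul_mul, Matrix.mul_smul, smul_smul, mul_inv_cancel₀ hμ0, one_smul, hAB],
    by rw [Matrix.smul_mul, Matrix.mul_smul, smul_smul, inv_mul_cancel₀ hμ0, one_smul, hBA]⟩
  have hPval : (P : Matrix (Fin 3) (Fin 3) F) = μ • A := rfl
  have hPinv : ((P⁻¹ : GL (Fin 3) F) : Matrix (Fin 3) (Fin 3) F) = μ⁻¹ • B := rfl
  refine ⟨ω, P, hω1, hω3, ?_, ?_⟩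
  · apply e3u_mem_GU_of_matrix hσ
    rw [hPval]
    have h1 : (μ • A).map σ = σ μ • A.map σ := by
      ext i j
      simp
    rw [h1, transpose_smul, Matrix.smul_mul, Matrix.mul_smul, smul_smul, ← hM, hc, smul_smul, hμ,
      inv_mul_cancel₀ hc0, one_smul]
  · rw [hRP]
    have hconj : MulAut.conj P = MulAut.conj P₀ := by
      ext e : 1
      apply Units.ext
      rw [MulAut.conj_apply, MulAut.conj_apply, Units.val_mul, Units.val_mul, Units.val_mul,
        Units.val_mul, hPval, hPinv, Matrix.smul_mul, Matrix.smul_mul, Matrix.mul_smul, smul_smul,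
        mul_inv_cancel₀ hμ0, one_smul]
    rw [hconj]

end Cfsg.Agent.Helper42
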