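import Cfsg.Agent.Helper45.FldA

set_option autoImplicit false
set_option linter.unusedSectionVars false
set_option linter.unusedSimpArgs false
set_option linter.unusedVariables false
set_option linter.style.haveILetI false

/-! Piece C4 of CALL S2715 (helper42): a class-preserving similarity with `σ`-fixed matrix
commutes with the standard field automorphism. -/

universe u v

namespace Cfsg.Agent.Helper42.FldP

open Matrix Cfsg
open Cfsg.Agent.Helper45.OO (semiAut semiMap glMap)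
open Cfsg.Agent.Helper44.POm
open Cfsg.Agent.Helper45.Fld
open Cfsg.Agent.Helper45.Oct (om one8 cj Tri q_one8_ne)

section Plus

variable {F : Type u} [Field F] [Fintype F] {m : ℕ}

/-- PIECE C4 -/
theorem plus_fixed_comm (hR : Helper45.reflGroup (Helper43.plusQF m F) = ⊤) (σ : RingAut F)
    (g : ↥(pscpGrp hR))
    (hfix : ((g : GL (Fin m ⊕ Fin m) F) : Matrix (Fin m ⊕ Fin m) (Fin m ⊕ Fin m) F).map σ
      = ((g : GL (Fin m ⊕ Fin m) F) : Matrix (Fin m ⊕ Fin m) (Fin m ⊕ Fin m) F)) :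
    pscpD hR g * pF m σ = pF m σ * pscpD hR g := by
  rw [pscpD_apply, pF_apply]
  have heq : ((g : GL (Fin m ⊕ Fin m) F) : Matrix (Fin m ⊕ Fin m) (Fin m ⊕ Fin m) F) *
      ((1 : GL (Fin m ⊕ Fin m) F) : Matrix (Fin m ⊕ Fin m) (Fin m ⊕ Fin m) F)
      = (1 : F) • (((1 : GL (Fin m ⊕ Fin m) F) : Matrix (Fin m ⊕ Fin m) (Fin m ⊕ Fin m) F) *
        ((g : GL (Fin m ⊕ Fin m) F) : Matrix (Fin m ⊕ Fin m) (Fin m ⊕ Fin m) F).map σ) := by
    rw [one_smul, hfix, Units.val_one, Matrix.mul_one, Matrix.one_mul]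
  have hc := semi_conj_eq (Helper43.plusQF m F) σ (g : GL (Fin m ⊕ Fin m) F) 1 1
    (semi_of_mem _ g.1 g.2.1) (Helper45.Oct.plus_field m σ) (Helper45.Oct.plus_field m σ)
    1 one_ne_zero heq
  rw [eq_mul_inv_iff_mul_eq] at hc
  exact hc.symm

end Plus

end Cfsg.Agent.Helper42.FldP
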