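import Cfsg.Agent.Helper45.FldA

set_option autoImplicit false
set_option linter.unusedSectionVars false
set_option linter.unusedSimpArgs false
set_option linter.unusedVariables false
set_option linter.style.haveILetI false

/-! Piece C6 of CALL S2715 (helper42): the kernel of the action is preserved by extension of
scalars. -/

universe u v

namespace Cfsg.Agent.Helper42.FldP

open Matrix Cfsg
open Cfsg.Agent.Helper45.OO (semiAut semiMap glMap)
open Cfsg.Agent.Helper44.POm
open Cfsg.Agent.Helper45.Fld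
open Cfsg.Agent.Helper45.Oct (om one8 cj Tri q_one8_ne)

section Two

variable {F : Type u} [Field F] [Fintype F] {F₀ : Type v} [Field F₀] [Fintype F₀] {m : ℕ}

/-- PIECE C6 -/
theorem pscpTh_ker (hm : 3 ≤ m) (hR₀ : Helper45.reflGroup (Helper43.plusQF m F₀) = ⊤)
    (hR : Helper45.reflGroup (Helper43.plusQF m F) = ⊤) (ι : F₀ →+* F)
    (γ : ↥(pscpGrp hR₀)) :
    γ ∈ (pscpD hR₀).ker ↔ pscpD hR (pscpTh hR₀ hR ι γ) = 1 := by
  rw [MonoidHom.mem_ker, pscpD_eq_one_iff hm hR₀, pscpD_eq_one_iff hm hR, pscpTh_coe]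
  constructor
  · rintro ⟨c₀, hc₀⟩
    refine ⟨ι c₀, ?_⟩
    rw [hc₀]
    ext i j
    by_cases h : i = j
    · simp [Matrix.map_apply, Matrix.smul_apply, Matrix.one_apply, h]
    · simp [Matrix.map_apply, Matrix.smul_apply, Matrix.one_apply, h]
  · rintro ⟨c, hc⟩
    refine ⟨((γ : GL (Fin m ⊕ Fin m) F₀) : Matrix (Fin m ⊕ Fin m) (Fin m ⊕ Fin m) F₀)
      (Sum.inl ⟨0, by omega⟩) (Sum.inl ⟨0, by omega⟩), ?_⟩
    ext i j
    apply ι.injective
    have hij := congrFun (congrFun hc i) j
    have h00 := congrFun (congrFun hc (Sum.inl ⟨0, by omega⟩)) (Sum.inl ⟨0, by omega⟩)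
    simp only [Matrix.map_apply, Matrix.smul_apply, Matrix.one_apply, smul_eq_mul, if_true,
      mul_one] at hij h00
    rw [Matrix.smul_apply, Matrix.one_apply, smul_eq_mul, map_mul, h00, hij]
    by_cases h : i = j
    · simp [h]
    · simp [h]

end Two

end Cfsg.Agent.Helper42.FldP
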