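import Mathlib
import Cfsg.Agent.Helper90.HTDefs
import Cfsg.Agent.Helper42.HTFam
import Cfsg.Agent.Helper44.Unitary

/-!
# CALL S5953 (helper90), core of piece CNTA: the number of totally isotropic frames of the
standard Hermitian space, given the perp-dimension statement (HORTH) and the isotropic vector
count (ISOV) as hypotheses.
-/

set_option autoImplicit false

namespace Cfsg.Agent.Helper42.HT5953

open Module Polynomial Cfsg.Agent.Helper90.HT

section cnta

theorem cnta_symm0 {F : Type*} [Field F] [Fintype F] {q : ℕ} (hq : Fintype.card F = q ^ 2)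
    (n : ℕ) {u v : Fin n → F} (h : Cfsg.hermForm n F q u v = 0) :
    Cfsg.hermForm n F q v u = 0 := by
  obtain ⟨σ, hσ⟩ := Cfsg.Agent.Helper44.exists_conj hq
  exact (isHerm_hermForm hq σ hσ n).eq_zero_symm h

theorem cnta_arith (x : ℤ) (k : ℕ) (hk : 1 ≤ k) :
    x ^ (2 * k - 1) + (-1) ^ k * (x ^ k - x ^ (k - 1)) - 1 =
      (x ^ k - (-1) ^ k) * (x ^ (k - 1) - (-1) ^ (k - 1)) := by
  obtain ⟨k', rfl⟩ : ∃ k', k = k' + 1 := ⟨k - 1, by omega⟩
  have h1 : 2 * (k' + 1) - 1 = 2 * k' + 1 := by omega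
  have h2 : k' + 1 - 1 = k' := by omega
  rw [h1, h2]
  have he : ((-1 : ℤ) ^ k') * ((-1 : ℤ) ^ k') = 1 := by
    rw [← mul_pow]
    norm_num
  have e1 : x ^ (2 * k' + 1) = x ^ k' * x ^ k' * x := by ring
  rw [e1, pow_succ, pow_succ]
  linear_combination he

/-- the number of isotropic vectors of the perp of a totally isotropic `j`-space outside it -/
theorem cnta_perp_count {F : Type*} [Field F] [Fintype F] (q : ℕ) (hq : Fintype.card F = q ^ 2)
    (n : ℕ)
    (horth : ∀ (D W : Submodule F (Fin n → F)), HNondegOn (Cfsg.hermForm n F q) D → W ≤ D →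
      ∃ P : Submodule F (Fin n → F),
        (∀ v, v ∈ P ↔ v ∈ D ∧ ∀ w ∈ W, Cfsg.hermForm n F q v w = 0) ∧
        finrank F P + finrank F W = finrank F D)
    (hiso : ∀ (D : Submodule F (Fin n → F)), HNondegOn (Cfsg.hermForm n F q) D →
      (Nat.card {d : D // Cfsg.hermForm n F q (d : Fin n → F) (d : Fin n → F) = 0} : ℤ) =
        (q : ℤ) ^ (2 * finrank F D - 1) +
          (-1) ^ (finrank F D) * ((q : ℤ) ^ (finrank F D) - (q : ℤ) ^ (finrank F D - 1)))
    (j : ℕ) (hj : 2 * (j + 1) ≤ n)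
    (v : Fin j → (Fin n → F)) (hli : LinearIndependent F v)
    (hti : ∀ a b, Cfsg.hermForm n F q (v a) (v b) = 0) :
    (Nat.card {x : Fin n → F // x ∉ Submodule.span F (Set.range v) ∧
      (∀ a, Cfsg.hermForm n F q x (v a) = 0) ∧ Cfsg.hermForm n F q x x = 0} : ℤ) =
      (q : ℤ) ^ (2 * j) * (((q : ℤ) ^ (n - 2 * j) - (-1) ^ (n - 2 * j)) *
        ((q : ℤ) ^ (n - 2 * j - 1) - (-1) ^ (n - 2 * j - 1))) := by
  classical
  obtain ⟨σ, hσ⟩ := Cfsg.Agent.Helper44.exists_conj hq
  have hh : IsHerm σ (Cfsg.hermForm n F q) := isHerm_hermForm hq σ hσ n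
  obtain ⟨h, hhdef⟩ : ∃ h : (Fin n → F) → (Fin n → F) → F, h = Cfsg.hermForm n F q := ⟨_, rfl⟩
  rw [← hhdef] at hh horth hiso hti ⊢
  obtain ⟨W, hW⟩ : ∃ W : Submodule F (Fin n → F), W = Submodule.span F (Set.range v) := ⟨_, rfl⟩
  rw [← hW]
  have hfW : finrank F W = j := by
    rw [hW, finrank_span_eq_card hli, Fintype.card_fin]
  have hndT : HNondegOn h (⊤ : Submodule F (Fin n → F)) := by
    intro x _ hx
    apply hermForm_nondeg hq n x
    intro w
    rw [← hhdef]
    exact hx w trivial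
  have hfT : finrank F (⊤ : Submodule F (Fin n → F)) = n := by
    rw [finrank_top, Module.finrank_fintype_fun_eq_card, Fintype.card_fin]
  obtain ⟨P, hP, hPdim⟩ := horth ⊤ W hndT le_top
  have hmemP : ∀ x, x ∈ P ↔ ∀ w ∈ W, h x w = 0 := by
    intro x
    rw [hP]
    exact ⟨fun hx => hx.2, fun hx => ⟨trivial, hx⟩⟩
  -- membership in `P` through the generators
  have hgen : ∀ x, (∀ a, h x (v a) = 0) → x ∈ P := by
    intro x hx
    rw [hmemP]
    intro w hw
    rw [hW] at hw
    induction hw using Submodule.span_induction with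
    | mem y hy =>
      obtain ⟨a, rfl⟩ := hy
      exact hx a
    | zero => exact hh.zero_right x
    | add y z _ _ hy hz => rw [hh.add_right, hy, hz, add_zero]
    | smul c y _ hy => rw [hh.smul_right, hy, mul_zero]
  have hvW : ∀ a, v a ∈ W := fun a => by rw [hW]; exact Submodule.subset_span ⟨a, rfl⟩
  have hWP : W ≤ P := by
    intro u hu
    apply hgen
    intro a
    rw [hW] at hu
    induction hu using Submodule.span_induction with
    | mem y hy =>
      obtain ⟨b, rfl⟩ := hy
      exact hti b a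
    | zero => exact hh.zero_left _
    | add y z _ _ hy hz => rw [hh.add_left, hy, hz, add_zero]
    | smul c y _ hy => rw [hh.smul_left, hy, mul_zero]
  have hfP : finrank F P = n - j := by omega
  -- the double perp
  obtain ⟨Q, hQ, hQdim⟩ := horth ⊤ P hndT le_top
  have hmemQ : ∀ x, x ∈ Q ↔ ∀ w ∈ P, h x w = 0 := by
    intro x
    rw [hQ]
    exact ⟨fun hx => hx.2, fun hx => ⟨trivial, hx⟩⟩
  have hfPn : finrank F P ≤ n := by omega
  have hWQ : W ≤ Q := by
    intro w hw
    rw [hmemQ]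
    intro x hx
    exact hh.eq_zero_symm ((hmemP x).mp hx w hw)
  have hQW : W = Q := by
    apply Submodule.eq_of_le_of_finrank_eq hWQ
    omega
  -- a complement of `W` in `P`
  obtain ⟨C, hC⟩ := Submodule.exists_isCompl W
  obtain ⟨D, hD⟩ : ∃ D : Submodule F (Fin n → F), D = C ⊓ P := ⟨_, rfl⟩
  have hDP : D ≤ P := by rw [hD]; exact inf_le_right
  have hWD : W ⊓ D = ⊥ := by
    rw [hD, ← inf_assoc, hC.inf_eq_bot, bot_inf_eq]
  have hWDP : W ⊔ D = P := by
    rw [hD, ← sup_inf_assoc_of_le C hWP, hC.sup_eq_top, top_inf_eq]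
  have hfD : finrank F D = n - 2 * j := by
    have h1 := Submodule.finrank_sup_add_finrank_inf_eq W D
    rw [hWDP, hWD, finrank_bot] at h1
    omega
  have hDnd : HNondegOn h D := by
    intro d hd hdd
    have hdQ : d ∈ Q := by
      rw [hmemQ]
      intro x hx
      rw [← hWDP] at hx
      obtain ⟨w, hw, d', hd', rfl⟩ := Submodule.mem_sup.mp hx
      rw [hh.add_right, (hmemP d).mp (hDP hd) w hw, hdd d' hd', add_zero]
    rw [← hQW] at hdQ
    have : d ∈ W ⊓ D := ⟨hdQ, hd⟩
    rw [hWD] at this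
    exact (Submodule.mem_bot F).mp this
  -- the bijection
  have hcard : Nat.card {x : Fin n → F // x ∉ W ∧ (∀ a, h x (v a) = 0) ∧ h x x = 0} =
      Nat.card W * Nat.card {d : D // (d : Fin n → F) ≠ 0 ∧
        h (d : Fin n → F) (d : Fin n → F) = 0} := by
    rw [← Nat.card_prod]
    symm
    have hmk : ∀ p : W × {d : D // (d : Fin n → F) ≠ 0 ∧ h (d : Fin n → F) (d : Fin n → F) = 0},
        ((p.1 : Fin n → F) + (p.2.1 : Fin n → F)) ∉ W ∧
        (∀ a, h ((p.1 : Fin n → F) + (p.2.1 : Fin n → F)) (v a) = 0) ∧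
        h ((p.1 : Fin n → F) + (p.2.1 : Fin n → F)) ((p.1 : Fin n → F) + (p.2.1 : Fin n → F))
          = 0 := by
      rintro ⟨⟨w, hw⟩, ⟨⟨d, hd⟩, hd0, hdd⟩⟩
      have hdw : ∀ w' ∈ W, h d w' = 0 := (hmemP d).mp (hDP hd)
      refine ⟨?_, ?_, ?_⟩
      · intro hmem
        have hdW : d ∈ W := by
          have := W.sub_mem hmem hw
          simpa using this
        have : d ∈ W ⊓ D := ⟨hdW, hd⟩
        rw [hWD] at this
        exact hd0 ((Submodule.mem_bot F).mp this)
      · intro a
        exact (hmemP _).mp (P.add_mem (hWP hw) (hDP hd)) (v a) (hvW a)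
      · show h (w + d) (w + d) = 0
        rw [hh.add_left, hh.add_right, hh.add_right, (hmemP w).mp (hWP hw) w hw,
          hh.eq_zero_symm (hdw w hw), hdw w hw, hdd]
        simp
    refine Nat.card_congr (Equiv.ofBijective (fun p => ⟨_, hmk p⟩) ⟨?_, ?_⟩)
    · rintro ⟨⟨w, hw⟩, ⟨⟨d, hd⟩, hd0, hdd⟩⟩ ⟨⟨w', hw'⟩, ⟨⟨d', hd'⟩, hd0', hdd'⟩⟩ heq
      have heq' : w + d = w' + d' := congrArg Subtype.val heq
      have h1 : w - w' = d' - d := by
        rw [sub_eq_sub_iff_add_eq_add]
        rw [heq', add_comm]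
      have h2 : w - w' ∈ W ⊓ D := ⟨W.sub_mem hw hw', by rw [h1]; exact D.sub_mem hd' hd⟩
      rw [hWD] at h2
      have h3 : w = w' := sub_eq_zero.mp ((Submodule.mem_bot F).mp h2)
      have h4 : d = d' := by
        rw [h3] at heq'
        exact add_left_cancel heq'
      subst h3
      subst h4
      rfl
    · rintro ⟨x, hxW, hxv, hxx⟩
      have hxP : x ∈ P := hgen x hxv
      rw [← hWDP] at hxP
      obtain ⟨w, hw, d, hd, rfl⟩ := Submodule.mem_sup.mp hxP
      have hdw : ∀ w' ∈ W, h d w' = 0 := (hmemP d).mp (hDP hd)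
      have hd0 : d ≠ 0 := by
        rintro rfl
        apply hxW
        rw [add_zero]
        exact hw
      have hdd : h d d = 0 := by
        have h5 := hxx
        rw [hh.add_left, hh.add_right, hh.add_right, (hmemP w).mp (hWP hw) w hw,
          hh.eq_zero_symm (hdw w hw), hdw w hw] at h5
        simpa using h5
      exact ⟨⟨⟨w, hw⟩, ⟨⟨d, hd⟩, hd0, hdd⟩⟩, rfl⟩
  have hcW : Nat.card W = q ^ (2 * j) := by
    rw [Module.natCard_eq_pow_finrank (K := F), hfW, Nat.card_eq_fintype_card, hq, ← pow_mul]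
  -- remove the zero vector
  have hcD : Nat.card {d : D // h (d : Fin n → F) (d : Fin n → F) = 0} =
      Nat.card {d : D // (d : Fin n → F) ≠ 0 ∧ h (d : Fin n → F) (d : Fin n → F) = 0} + 1 := by
    have hset : {d : D | h (d : Fin n → F) (d : Fin n → F) = 0} =
        insert (0 : D) {d : D | (d : Fin n → F) ≠ 0 ∧ h (d : Fin n → F) (d : Fin n → F) = 0} := by
      ext d
      simp only [Set.mem_ofPred_eq, Set.mem_insert_iff]
      constructor
      · intro hd
        by_cases h0 : d = 0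
        · exact Or.inl h0
        · exact Or.inr ⟨fun hc => h0 (Subtype.ext hc), hd⟩
      · rintro (rfl | ⟨_, hd⟩)
        · exact hh.zero_left _
        · exact hd
    have hnot : (0 : D) ∉ {d : D | (d : Fin n → F) ≠ 0 ∧ h (d : Fin n → F) (d : Fin n → F) = 0} := by
      intro hc
      exact hc.1 rfl
    have e1 : Nat.card {d : D // h (d : Fin n → F) (d : Fin n → F) = 0} =
        Set.ncard {d : D | h (d : Fin n → F) (d : Fin n → F) = 0} := Nat.card_coe_set_eq _
    have e2 : Nat.card {d : D // (d : Fin n → F) ≠ 0 ∧ h (d : Fin n → F) (d : Fin n → F) = 0} =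
        Set.ncard {d : D | (d : Fin n → F) ≠ 0 ∧ h (d : Fin n → F) (d : Fin n → F) = 0} :=
      Nat.card_coe_set_eq _
    rw [e1, e2, hset, Set.ncard_insert_of_notMem hnot (Set.toFinite _)]
  have hZ := hiso D hDnd
  rw [hfD] at hZ
  have hk1 : 1 ≤ n - 2 * j := by omega
  have hZ' : (Nat.card {d : D // (d : Fin n → F) ≠ 0 ∧
      h (d : Fin n → F) (d : Fin n → F) = 0} : ℤ) =
      ((q : ℤ) ^ (n - 2 * j) - (-1) ^ (n - 2 * j)) *
        ((q : ℤ) ^ (n - 2 * j - 1) - (-1) ^ (n - 2 * j - 1)) := by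
    rw [← cnta_arith (q : ℤ) (n - 2 * j) hk1, ← hZ, hcD]
    push_cast
    ring
  rw [hcard, Nat.cast_mul, hZ', hcW]
  push_cast
  ring

/-- Splitting off the last vector of a totally isotropic independent family. -/
noncomputable def cntaEquivH (F : Type*) [Field F] [Fintype F] (q : ℕ)
    (hq : Fintype.card F = q ^ 2) (n m : ℕ) :
    HFam F n q (m + 1) ≃
    Σ s : HFam F n q m, {x : Fin n → F // x ∉ Submodule.span F (Set.range s.1) ∧
      (∀ a, Cfsg.hermForm n F q x (s.1 a) = 0) ∧ Cfsg.hermForm n F q x x = 0} where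
  toFun u :=
    ⟨⟨Fin.init u.1,
        (linearIndependent_finSnoc.mp (by rw [Fin.snoc_init_self]; exact u.2.1)).1,
        fun a b => u.2.2 _ _⟩,
      ⟨u.1 (Fin.last m),
        (linearIndependent_finSnoc.mp (by rw [Fin.snoc_init_self]; exact u.2.1)).2,
        fun a => u.2.2 _ _, u.2.2 _ _⟩⟩
  invFun p :=
    ⟨Fin.snoc p.1.1 p.2.1, linearIndependent_finSnoc.mpr ⟨p.1.2.1, p.2.2.1⟩, by
      intro a b
      induction a using Fin.lastCases with
      | last =>
        induction b using Fin.lastCases with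
        | last =>
          rw [Fin.snoc_last]
          exact p.2.2.2.2
        | cast b =>
          rw [Fin.snoc_last, Fin.snoc_castSucc]
          exact p.2.2.2.1 b
      | cast a =>
        induction b using Fin.lastCases with
        | last =>
          rw [Fin.snoc_last, Fin.snoc_castSucc]
          exact cnta_symm0 hq n (p.2.2.2.1 a)
        | cast b =>
          rw [Fin.snoc_castSucc, Fin.snoc_castSucc]
          exact p.1.2.2 a b⟩
  left_inv u := Subtype.ext (Fin.snoc_init_self _)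
  right_inv p := by
    apply Sigma.subtype_ext
    · apply Subtype.ext
      show Fin.init (Fin.snoc (α := fun _ => Fin n → F) p.1.1 p.2.1) = p.1.1
      exact Fin.init_snoc _ _
    · show Fin.snoc (α := fun _ => Fin n → F) p.1.1 p.2.1 (Fin.last m) = p.2.1
      exact Fin.snoc_last _ _

/-- CNTA, given HORTH and ISOV for the standard space as hypotheses. -/
theorem ht_cnt_a_of (F : Type*) [Field F] [Fintype F] (q : ℕ) (hq : Fintype.card F = q ^ 2)
    (n : ℕ)
    (horth : ∀ (D W : Submodule F (Fin n → F)), HNondegOn (Cfsg.hermForm n F q) D → W ≤ D →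
      ∃ P : Submodule F (Fin n → F),
        (∀ v, v ∈ P ↔ v ∈ D ∧ ∀ w ∈ W, Cfsg.hermForm n F q v w = 0) ∧
        finrank F P + finrank F W = finrank F D)
    (hiso : ∀ (D : Submodule F (Fin n → F)), HNondegOn (Cfsg.hermForm n F q) D →
      (Nat.card {d : D // Cfsg.hermForm n F q (d : Fin n → F) (d : Fin n → F) = 0} : ℤ) =
        (q : ℤ) ^ (2 * finrank F D - 1) +
          (-1) ^ (finrank F D) * ((q : ℤ) ^ (finrank F D) - (q : ℤ) ^ (finrank F D - 1)))
    (m : ℕ) (hmn : 2 * m ≤ n) :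
    (Nat.card (HFam F n q m) : ℤ) = ∏ j ∈ Finset.range m, ((q : ℤ) ^ (2 * j) *
      (((q : ℤ) ^ (n - 2 * j) - (-1) ^ (n - 2 * j)) *
        ((q : ℤ) ^ (n - 2 * j - 1) - (-1) ^ (n - 2 * j - 1)))) := by
  classical
  induction m with
  | zero =>
    rw [Finset.prod_range_zero]
    have : Subsingleton (HFam F n q 0) := ⟨fun a b => Subtype.ext (Subsingleton.elim _ _)⟩
    have : Nonempty (HFam F n q 0) :=
      ⟨⟨fun a => Fin.elim0 a, linearIndependent_empty_type, fun a => Fin.elim0 a⟩⟩
    rw [Nat.card_unique]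
    rfl
  | succ m ih =>
    have : Finite (HFam F n q m) := by
      unfold HFam
      infer_instance
    have : Fintype (HFam F n q m) := Fintype.ofFinite _
    rw [Finset.prod_range_succ, ← ih (by omega), Nat.card_congr (cntaEquivH F q hq n m),
      Nat.card_sigma]
    push_cast
    rw [Finset.sum_congr rfl
        (fun s _ => cnta_perp_count q hq n horth hiso m hmn s.1 s.2.1 s.2.2),
      Finset.sum_const, Finset.card_univ, nsmul_eq_mul, Nat.card_eq_fintype_card]

end cnta

end Cfsg.Agent.Helper42.HT5953
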