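import Mathlib
import Cfsg.Agent.Helper90.HTDefs
import Cfsg.Agent.Helper44.UnitaryCount

/-!
# CALL S5953 (helper90), core of piece ISOV: the number of isotropic vectors of the standard
Hermitian space, and of any space isometric to it.
-/

set_option autoImplicit false

namespace Cfsg.Agent.Helper42.HT5953

open Module Polynomial Cfsg.Agent.Helper90.HT Cfsg.Agent.Helper44

section isov

variable {K : Type*} [Field K] [Fintype K] {q : ℕ}

/-- closed form for the number of isotropic vectors (zero included) in dimension `n` -/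
def isoVal (q : ℕ) : ℕ → ℤ
  | 0 => 1
  | (k + 1) => (q : ℤ) ^ (2 * k + 1) + (-1) ^ (k + 1) * ((q : ℤ) ^ (k + 1) - (q : ℤ) ^ k)

theorem isoVal_succ (q n : ℕ) :
    isoVal q (n + 1) = ((q : ℤ) + 1) * (q : ℤ) ^ (2 * n) - q * isoVal q n := by
  cases n with
  | zero => simp [isoVal]
  | succ k =>
    simp only [isoVal]
    ring

theorem isoVal_eq (q k : ℕ) :
    isoVal q k = (q : ℤ) ^ (2 * k - 1) + (-1) ^ k * ((q : ℤ) ^ k - (q : ℤ) ^ (k - 1)) := by
  cases k with
  | zero => simp [isoVal]
  | succ k =>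
    simp only [isoVal]
    have h1 : 2 * (k + 1) - 1 = 2 * k + 1 := by omega
    have h2 : k + 1 - 1 = k := by omega
    rw [h1, h2]

theorem card_iso_succ (hK : Fintype.card K = q ^ 2) (τ : K →+* K) (hτ : ∀ x, τ x = x ^ q)
    (ι : Type) [Fintype ι] :
    (Nat.card {x : ι ⊕ Unit → K // hfg τ x x = 0} : ℤ) =
      ((q : ℤ) + 1) * (q : ℤ) ^ (2 * Fintype.card ι)
        - q * Nat.card {x : ι → K // hfg τ x x = 0} := by
  classical
  have hτ2 : ∀ x, τ (τ x) = x := fun x => by rw [hτ, hτ, conj_conj hK]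
  let e1 : {x : ι ⊕ Unit → K // hfg τ x x = 0} ≃
      Σ x' : ι → K, {x₀ : K // x₀ * x₀ ^ q = - hfg τ x' x'} :=
    { toFun := fun x => ⟨x.1 ∘ Sum.inl, ⟨x.1 (Sum.inr ()), by
        have h1 := x.2
        rw [hfg_sum_unit, hτ] at h1
        linear_combination h1⟩⟩
      invFun := fun p => ⟨Sum.elim p.1 (fun _ => p.2.1), by
        have h1 := p.2.2
        rw [hfg_sum_unit, hτ]
        show hfg τ p.1 p.1 + p.2.1 * p.2.1 ^ q = 0
        linear_combination h1⟩
      left_inv := fun x => by
        apply Subtype.ext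
        funext a
        cases a with
        | inl a => rfl
        | inr a => rfl
      right_inv := fun p => rfl }
  rw [Nat.card_congr e1, Nat.card_sigma]
  have hfib : ∀ x' : ι → K, Nat.card {x₀ : K // x₀ * x₀ ^ q = - hfg τ x' x'}
      = if hfg τ x' x' = 0 then 1 else q + 1 := by
    intro x'
    split_ifs with h
    · rw [h, neg_zero]
      exact card_norm_eq_zero hK
    · apply card_norm_eq_of_ne hK
      · rw [← hτ, map_neg, hfg_symm τ hτ2]
      · exact neg_ne_zero.mpr h
  simp only [hfib]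
  rw [Finset.sum_ite, Finset.sum_const, Finset.sum_const, smul_eq_mul, smul_eq_mul, mul_one]
  have hA : Nat.card {x : ι → K // hfg τ x x = 0}
      = (Finset.univ.filter (fun x' : ι → K => hfg τ x' x' = 0)).card := by
    rw [Nat.card_eq_fintype_card, Fintype.card_subtype]
  have hB : (Finset.univ.filter (fun x' : ι → K => hfg τ x' x' = 0)).card
      + (Finset.univ.filter (fun x' : ι → K => ¬ hfg τ x' x' = 0)).card
      = q ^ (2 * Fintype.card ι) := by
    rw [Finset.card_filter_add_card_filter_not, Finset.card_univ, Fintype.card_fun, hK, ← pow_mul]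
  rw [hA]
  have hB' : ((Finset.univ.filter (fun x' : ι → K => ¬ hfg τ x' x' = 0)).card : ℤ)
      = (q : ℤ) ^ (2 * Fintype.card ι)
        - (Finset.univ.filter (fun x' : ι → K => hfg τ x' x' = 0)).card := by
    have := congrArg (fun k : ℕ => (k : ℤ)) hB
    push_cast at this
    linear_combination this
  push_cast
  rw [hB']
  ring

/-- **the number of isotropic vectors** in a unitary space of dimension `n` -/
theorem card_iso (hK : Fintype.card K = q ^ 2) (τ : K →+* K) (hτ : ∀ x, τ x = x ^ q) :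
    ∀ (n : ℕ) (ι : Type) [Fintype ι], Fintype.card ι = n →
      (Nat.card {x : ι → K // hfg τ x x = 0} : ℤ) = isoVal q n := by
  intro n
  induction n with
  | zero =>
    intro ι _ hι
    haveI : IsEmpty ι := Fintype.card_eq_zero_iff.mp hι
    haveI : Unique {x : ι → K // hfg τ x x = 0} :=
      ⟨⟨⟨0, by simp [hfg]⟩⟩, fun x => Subtype.ext (Subsingleton.elim _ _)⟩
    rw [Nat.card_unique]
    rfl
  | succ n ih =>
    intro ι _ hι
    have hc : Fintype.card ι = Fintype.card (Fin n ⊕ Unit) := by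
      rw [hι, Fintype.card_sum, Fintype.card_fin, Fintype.card_unit]
    let e : ι ≃ Fin n ⊕ Unit := Fintype.equivOfCardEq hc
    have h1 : Nat.card {x : ι → K // hfg τ x x = 0}
        = Nat.card {x : Fin n ⊕ Unit → K // hfg τ x x = 0} := by
      apply Nat.card_congr
      refine Equiv.subtypeEquiv (Equiv.arrowCongr e (Equiv.refl K)) ?_
      intro x
      have h2 : (Equiv.arrowCongr e (Equiv.refl K)) x = x ∘ e.symm := rfl
      rw [h2, hfg_comp_equiv]
    rw [h1, card_iso_succ hK τ hτ (Fin n), ih (Fin n) (Fintype.card_fin n), isoVal_succ,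
      Fintype.card_fin]

end isov

/-- ISOV for a space with a given isometry to the standard Hermitian space. -/
theorem ht_isocount_of_onb {F : Type*} [Field F] [Fintype F] {V : Type*} [AddCommGroup V]
    [Module F V] (σ : F →+* F) (h : V → V → F) (q : ℕ)
    (hq : Fintype.card F = q ^ 2) (hσ : ∀ a, σ a = a ^ q) (k : ℕ)
    (Φ : V ≃ₗ[F] (Fin k → F)) (hΦ : ∀ u v, Cfsg.hermForm k F q (Φ u) (Φ v) = h u v) :
    (Nat.card {v : V // h v v = 0} : ℤ) =
      (q : ℤ) ^ (2 * k - 1) + (-1) ^ k * ((q : ℤ) ^ k - (q : ℤ) ^ (k - 1)) := by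
  have e : {v : V // h v v = 0} ≃ {x : Fin k → F // hfg σ x x = 0} :=
    Equiv.subtypeEquiv Φ.toEquiv (by
      intro v
      show h v v = 0 ↔ hfg σ (Φ v) (Φ v) = 0
      rw [hfg_eq_hermForm σ hσ, hΦ])
  rw [Nat.card_congr e, card_iso hq σ hσ k (Fin k) (Fintype.card_fin k), isoVal_eq]

end Cfsg.Agent.Helper42.HT5953
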