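import Mathlib
import Cfsg.Agent.Helper90.HTDefs
import Cfsg.Agent.Helper42.HTISOVCore
import Cfsg.Agent.Helper37.HTHONB

/-!
# CALL S5953 (helper90), piece ISOV: the number of isotropic vectors of a nondegenerate Hermitian
`k`-space
-/

set_option autoImplicit false

namespace Cfsg.Agent.Helper42.HT5953

open Module Polynomial Cfsg.Agent.Helper90.HT

/-- ISOV: the number of isotropic vectors of a nondegenerate Hermitian `k`-space. -/
theorem ht_isocount {F : Type*} [Field F] [Fintype F] {V : Type*} [AddCommGroup V] [Module F V]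
    [FiniteDimensional F V] (σ : F →+* F) (h : V → V → F) (q : ℕ)
    (hq : Fintype.card F = q ^ 2) (hσ : ∀ a, σ a = a ^ q) (hh : IsHerm σ h)
    (hnd : ∀ v, (∀ w, h v w = 0) → v = 0) (k : ℕ) (hk : finrank F V = k) :
    (Nat.card {v : V // h v v = 0} : ℤ) =
      (q : ℤ) ^ (2 * k - 1) + (-1) ^ k * ((q : ℤ) ^ k - (q : ℤ) ^ (k - 1)) := by
  obtain ⟨Φ, hΦ⟩ := Cfsg.Agent.Helper37.HT5953.ht_onb σ h q hq hσ hh hnd k hk
  exact ht_isocount_of_onb σ h q hq hσ k Φ hΦ

end Cfsg.Agent.Helper42.HT5953
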