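import Mathlib
import Cfsg.Agent.Helper90.HTDefs
import Cfsg.Agent.Helper90.HTDefs2
import Cfsg.Agent.Helper42.HTCNTACore
import Cfsg.Agent.Helper42.HTISOV
import Cfsg.Agent.Helper47.HTHORTH

/-!
# CALL S5953 (helper90), piece CNTA: the number of totally isotropic frames
-/

set_option autoImplicit false

namespace Cfsg.Agent.Helper42.HT5953

open Module Polynomial Cfsg.Agent.Helper90.HT

/-- CNTA: the number of totally isotropic frames. -/
theorem ht_cnt_a (F : Type*) [Field F] [Fintype F] (q : ℕ) (hq : Fintype.card F = q ^ 2)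
    (n m : ℕ) (hmn : 2 * m ≤ n) :
    (Nat.card (Cfsg.Agent.Helper90.HT.HFam F n q m) : ℤ) = ∏ j ∈ Finset.range m, ((q : ℤ) ^ (2 * j) *
      (((q : ℤ) ^ (n - 2 * j) - (-1) ^ (n - 2 * j)) *
        ((q : ℤ) ^ (n - 2 * j - 1) - (-1) ^ (n - 2 * j - 1)))) := by
  obtain ⟨σ, hσ⟩ := Cfsg.Agent.Helper44.exists_conj hq
  have hh : IsHerm σ (Cfsg.hermForm n F q) := isHerm_hermForm hq σ hσ n
  refine ht_cnt_a_of F q hq n ?_ ?_ m hmn
  · intro D W hD hW
    exact Cfsg.Agent.Helper47.HT5953.ht_orth σ (Cfsg.hermForm n F q) hh D W hD hW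
  · intro D hD
    exact ht_isocount σ (fun u v : D => Cfsg.hermForm n F q (u : Fin n → F) (v : Fin n → F)) q hq hσ
      (hh.restrict D) (fun v hv => Subtype.ext (hD v.1 v.2 (fun w hw => hv ⟨w, hw⟩)))
      (finrank F D) rfl

end Cfsg.Agent.Helper42.HT5953
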