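import Mathlib
import Cfsg.Agent.Lead.LWDefs

/-! # Piece G3 of CALL S0747 (helper42) -/

set_option autoImplicit false

namespace Cfsg.Agent.Helper42.LWG3

open Cfsg.Agent.Lead.LW

variable {α : Type*} [Fintype α] [DecidableEq α]

-- PIECE G3  (pointwise stabilisers of `g`-related sets are conjugate)
theorem pstab_conj (G : Subgroup (Equiv.Perm α)) (S T : Finset α) (g : Equiv.Perm α) (hg : g ∈ G)
    (hST : ∀ a, g a ∈ T ↔ a ∈ S) (h : Equiv.Perm α) :
    h ∈ pstab G S ↔ g * h * g⁻¹ ∈ pstab G T := by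
  rw [mem_pstab, mem_pstab]
  constructor
  · rintro ⟨hh, hfix⟩
    refine ⟨G.mul_mem (G.mul_mem hg hh) (G.inv_mem hg), fun a ha => ?_⟩
    have ha' : g⁻¹ a ∈ S := by
      rw [← hST]; simpa using ha
    simp only [Equiv.Perm.mul_apply]
    rw [hfix _ ha']
    simp
  · rintro ⟨hh, hfix⟩
    refine ⟨?_, fun a ha => ?_⟩
    · have := G.mul_mem (G.mul_mem (G.inv_mem hg) hh) hg
      simpa [mul_assoc] using this
    · have ha' : g a ∈ T := (hST a).mpr ha
      have := hfix _ ha'
      simp only [Equiv.Perm.mul_apply] at this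
      have e : g⁻¹ (g a) = a := by simp
      rw [e] at this
      exact g.injective this

end Cfsg.Agent.Helper42.LWG3
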