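import Mathlib
import Cfsg.Agent.Lead.LWDefs

/-! # Piece G4 of CALL S0747 (helper42) -/

set_option autoImplicit false

namespace Cfsg.Agent.Helper42.LWG4

open Cfsg.Agent.Lead.LW

-- PIECE G4  (a Sylow 2-subgroup, by cardinality)
theorem exists_syl2 {M : Type*} [Group M] [Finite M] (L : Subgroup M) :
    ∃ P : Subgroup M, P ≤ L ∧ Nat.card P = 2 ^ (Nat.card L).factorization 2 := by
  haveI : Fact (Nat.Prime 2) := ⟨Nat.prime_two⟩
  obtain ⟨S⟩ : Nonempty (Sylow 2 L) := inferInstance
  refine ⟨(S : Subgroup L).map L.subtype, ?_, ?_⟩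
  · rintro x ⟨y, -, rfl⟩
    exact y.2
  · rw [Nat.card_congr (Subgroup.equivMapOfInjective (S : Subgroup L) L.subtype
      L.subtype_injective).symm.toEquiv]
    exact S.card_eq_multiplicity

end Cfsg.Agent.Helper42.LWG4
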