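import Mathlib

set_option autoImplicit false

/-! Helper42: piece SIGN of CALL S2720 (helper43): the sign of a permutation all of whose
non-trivial cycles have the same even length. -/

namespace Cfsg.Agent.Helper42.PFSIGN

/-- SIGN: a permutation all of whose non-trivial cycles have the same even length `n` -/
theorem pf_sign {α : Type*} [Fintype α] [DecidableEq α] (σ : Equiv.Perm α) (n k : ℕ)
    (hn : Even n) (hn0 : 0 < n)
    (hper : ∀ x, σ x ≠ x → ∀ j : ℕ, (σ ^ j) x = x → n ∣ j) (hσn : σ ^ n = 1)
    (hk : Fintype.card {x : α // σ x ≠ x} = n * k) : Equiv.Perm.sign σ = (-1) ^ k := by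
  classical
  -- every cycle has length `n`
  have hall : ∀ c ∈ σ.cycleType, c = n := by
    intro c hc
    have h1 : c ∣ n := (Equiv.Perm.dvd_of_mem_cycleType hc).trans (orderOf_dvd_of_pow_eq_one hσn)
    obtain ⟨c₀, τ, hστ, hdisj, hcyc, hcard⟩ := Equiv.Perm.mem_cycleType_iff.mp hc
    obtain ⟨x, hx⟩ := hcyc.nonempty_support
    have hc₀x : c₀ x ≠ x := Equiv.Perm.mem_support.mp hx
    have hτx : τ x = x := (hdisj x).resolve_left hc₀x
    have hσx : σ x ≠ x := by
      rw [hστ, Equiv.Perm.mul_apply, hτx]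
      exact hc₀x
    have hpow : (σ ^ c) x = x := by
      rw [hστ, hdisj.commute.mul_pow, ← hcard, ← hcyc.orderOf, pow_orderOf_eq_one, one_mul]
      exact Equiv.Perm.pow_apply_eq_self_of_apply_eq_self hτx _
    exact Nat.dvd_antisymm h1 (hper x hσx c hpow)
  have hrep : σ.cycleType = Multiset.replicate (Multiset.card σ.cycleType) n :=
    Multiset.eq_replicate.mpr ⟨rfl, hall⟩
  have hsupp : σ.support.card = Fintype.card {x : α // σ x ≠ x} := by
    rw [Fintype.card_subtype]
    congr 1
  have hsum : σ.cycleType.sum = n * k := by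
    rw [Equiv.Perm.sum_cycleType, hsupp, hk]
  have hm : Multiset.card σ.cycleType = k := by
    have h := hsum
    rw [hrep, Multiset.sum_replicate, smul_eq_mul, mul_comm] at h
    exact Nat.eq_of_mul_eq_mul_left hn0 h
  rw [Equiv.Perm.sign_of_cycleType, hsum, hm, pow_add, pow_mul, hn.neg_one_pow, one_pow, one_mul]

end Cfsg.Agent.Helper42.PFSIGN
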