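import Mathlib
import Cfsg.Prelude.Def_Classical

/-!
Quadratic forms over `ZMod 2` polarizing to the standard alternating form on
`Fin m ⊕ Fin m → ZMod 2` (helper library of helper42; used for S2561, S2562).
-/

set_option autoImplicit false

namespace Cfsg.Agent.Helper42

open Cfsg

theorem zmod2_cases (t : ZMod 2) : t = 0 ∨ t = 1 := by
  revert t; decide

theorem zmod2_add_self (t : ZMod 2) : t + t = 0 := by
  revert t; decide

theorem zmod2_mul_self (t : ZMod 2) : t * t = t := by
  revert t; decide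

/-- the polar form of the plus-type quadratic form over `ZMod 2` -/
def pol (m : ℕ) (u v : Fin m ⊕ Fin m → ZMod 2) : ZMod 2 :=
  ∑ i : Fin m, (u (.inl i) * v (.inr i) + v (.inl i) * u (.inr i))

theorem pol_add_left (m : ℕ) (u u' v : Fin m ⊕ Fin m → ZMod 2) :
    pol m (u + u') v = pol m u v + pol m u' v := by
  simp only [pol, Pi.add_apply, ← Finset.sum_add_distrib]
  exact Finset.sum_congr rfl fun i _ => by ring

theorem pol_comm (m : ℕ) (u v : Fin m ⊕ Fin m → ZMod 2) : pol m u v = pol m v u := by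
  simp only [pol]
  exact Finset.sum_congr rfl fun i _ => by ring

theorem pol_add_right (m : ℕ) (u v v' : Fin m ⊕ Fin m → ZMod 2) :
    pol m u (v + v') = pol m u v + pol m u v' := by
  rw [pol_comm, pol_add_left, pol_comm m v, pol_comm m v']

theorem pol_smul_left (m : ℕ) (c : ZMod 2) (u v : Fin m ⊕ Fin m → ZMod 2) :
    pol m (c • u) v = c • pol m u v := by
  simp only [pol, Pi.smul_apply, smul_eq_mul, Finset.mul_sum]
  exact Finset.sum_congr rfl fun i _ => by ring

theorem pol_smul_right (m : ℕ) (c : ZMod 2) (u v : Fin m ⊕ Fin m → ZMod 2) :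
    pol m u (c • v) = c • pol m u v := by
  rw [pol_comm, pol_smul_left, pol_comm]

theorem pol_self (m : ℕ) (u : Fin m ⊕ Fin m → ZMod 2) : pol m u u = 0 := by
  simp only [pol]
  exact Finset.sum_eq_zero fun i _ => zmod2_add_self _

theorem pol_zero_right (m : ℕ) (u : Fin m ⊕ Fin m → ZMod 2) : pol m u 0 = 0 := by
  simp [pol]

theorem pol_zero_left (m : ℕ) (u : Fin m ⊕ Fin m → ZMod 2) : pol m 0 u = 0 := by
  simp [pol]

theorem quadFormPlus_polar (m : ℕ) (u v : Fin m ⊕ Fin m → ZMod 2) :
    quadFormPlus m (ZMod 2) (u + v) - quadFormPlus m (ZMod 2) u - quadFormPlus m (ZMod 2) v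
      = pol m u v := by
  simp only [quadFormPlus, pol, Pi.add_apply, ← Finset.sum_sub_distrib]
  exact Finset.sum_congr rfl fun i _ => by ring

theorem quadFormPlus_add (m : ℕ) (u v : Fin m ⊕ Fin m → ZMod 2) :
    quadFormPlus m (ZMod 2) (u + v) =
      quadFormPlus m (ZMod 2) u + quadFormPlus m (ZMod 2) v + pol m u v := by
  rw [← quadFormPlus_polar]; ring

theorem pol_single_inl (m : ℕ) (i : Fin m) (v : Fin m ⊕ Fin m → ZMod 2) :
    pol m (Pi.single (Sum.inl i) 1) v = v (.inr i) := by
  classical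
  simp only [pol]
  rw [Finset.sum_eq_single i]
  · simp
  · intro j _ hj
    simp [hj]
  · simp

theorem pol_single_inr (m : ℕ) (i : Fin m) (v : Fin m ⊕ Fin m → ZMod 2) :
    pol m (Pi.single (Sum.inr i) 1) v = v (.inl i) := by
  classical
  simp only [pol]
  rw [Finset.sum_eq_single i]
  · simp
  · intro j _ hj
    simp [hj]
  · simp

/-- the polar form as a bilinear form -/
def polB (m : ℕ) : LinearMap.BilinForm (ZMod 2) (Fin m ⊕ Fin m → ZMod 2) :=
  LinearMap.mk₂ (ZMod 2) (pol m) (pol_add_left m) (pol_smul_left m) (pol_add_right m)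
    (pol_smul_right m)

@[simp] theorem polB_apply (m : ℕ) (u v : Fin m ⊕ Fin m → ZMod 2) : polB m u v = pol m u v := rfl

theorem polB_isRefl (m : ℕ) : (polB m).IsRefl := by
  intro u v h
  rw [polB_apply] at h ⊢
  rw [pol_comm]; exact h

theorem eq_zero_of_pol_eq_zero (m : ℕ) (u : Fin m ⊕ Fin m → ZMod 2)
    (h : ∀ v, pol m u v = 0) : u = 0 := by
  funext j
  rcases j with i | i
  · have := h (Pi.single (Sum.inr i) 1)
    rw [pol_comm, pol_single_inr] at this
    exact this
  · have := h (Pi.single (Sum.inl i) 1)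
    rw [pol_comm, pol_single_inl] at this
    exact this

theorem polB_nondegenerate (m : ℕ) : (polB m).Nondegenerate := by
  refine ⟨fun u h => eq_zero_of_pol_eq_zero m u h, fun u h => eq_zero_of_pol_eq_zero m u ?_⟩
  intro v
  rw [pol_comm]
  exact h v

/-! ### The transvection trick -/

/-- `q` polarizes to `pol`. -/
def IsPol (m : ℕ) (q : (Fin m ⊕ Fin m → ZMod 2) → ZMod 2) : Prop :=
  ∀ u v, q (u + v) = q u + q v + pol m u v

theorem isPol_iff (m : ℕ) (q : (Fin m ⊕ Fin m → ZMod 2) → ZMod 2) :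
    (∀ u v : (Fin m ⊕ Fin m → ZMod 2), q (u + v) = q u + q v +
      (quadFormPlus m (ZMod 2) (u + v) - quadFormPlus m (ZMod 2) u - quadFormPlus m (ZMod 2) v))
      ↔ IsPol m q := by
  simp only [quadFormPlus_polar, IsPol]

theorem IsPol.zero {m : ℕ} {q : (Fin m ⊕ Fin m → ZMod 2) → ZMod 2} (hq : IsPol m q) : q 0 = 0 := by
  have h := hq 0 0
  rw [add_zero, pol_zero_left, add_zero] at h
  have h2 := zmod2_add_self (q 0)
  rw [← h] at h2
  exact h2

theorem polar_shift {m : ℕ} {q : (Fin m ⊕ Fin m → ZMod 2) → ZMod 2} (hq : IsPol m q)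
    (c : Fin m ⊕ Fin m → ZMod 2) (hc : q c = 0) (v : Fin m ⊕ Fin m → ZMod 2) :
    q (v + pol m v c • c) = q v + pol m v c := by
  rcases zmod2_cases (pol m v c) with h | h
  · simp [h]
  · rw [h, one_smul, hq, hc, h, add_zero]

/-- the linear map `v ↦ v + B(v,c) c` -/
def shiftMap (m : ℕ) (c : Fin m ⊕ Fin m → ZMod 2) :
    (Fin m ⊕ Fin m → ZMod 2) →ₗ[ZMod 2] (Fin m ⊕ Fin m → ZMod 2) :=
  LinearMap.id + ((polB m).flip c).smulRight c

theorem shiftMap_apply (m : ℕ) (c v : Fin m ⊕ Fin m → ZMod 2) :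
    shiftMap m c v = v + pol m v c • c := by
  simp [shiftMap]

theorem shiftMap_involutive (m : ℕ) (c : Fin m ⊕ Fin m → ZMod 2) :
    Function.Involutive (shiftMap m c) := by
  intro v
  rw [shiftMap_apply, shiftMap_apply, pol_add_left, pol_smul_left, pol_self, smul_zero, add_zero,
    add_assoc, ← add_smul, zmod2_add_self, zero_smul, add_zero]

/-- the linear involution `v ↦ v + B(v,c) c` -/
def shiftEquiv (m : ℕ) (c : Fin m ⊕ Fin m → ZMod 2) :
    (Fin m ⊕ Fin m → ZMod 2) ≃ₗ[ZMod 2] (Fin m ⊕ Fin m → ZMod 2) :=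
  LinearEquiv.ofInvolutive (shiftMap m c) (shiftMap_involutive m c)

theorem shiftEquiv_apply (m : ℕ) (c v : Fin m ⊕ Fin m → ZMod 2) :
    shiftEquiv m c v = v + pol m v c • c := by
  simp [shiftEquiv, shiftMap_apply]

/-- the quadratic form `Q⁺ + B(·, a)` -/
def qa (m : ℕ) (a v : Fin m ⊕ Fin m → ZMod 2) : ZMod 2 :=
  quadFormPlus m (ZMod 2) v + pol m v a

theorem quadFormPlus_isPol (m : ℕ) : IsPol m (quadFormPlus m (ZMod 2)) :=
  fun u v => quadFormPlus_add m u v

theorem qa_isPol (m : ℕ) (a : Fin m ⊕ Fin m → ZMod 2) : IsPol m (qa m a) := by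
  intro u v
  simp only [qa, quadFormPlus_add, pol_add_left]
  ring

theorem qa_zero (m : ℕ) : qa m 0 = quadFormPlus m (ZMod 2) := by
  funext v
  simp [qa, pol_zero_right]

theorem qa_injective (m : ℕ) : Function.Injective (qa m) := by
  intro a a' h
  have h1 : ∀ v, pol m v a = pol m v a' := by
    intro v
    have := congrFun h v
    simp only [qa] at this
    exact add_left_cancel this
  have h2 : a + a' = 0 := by
    apply eq_zero_of_pol_eq_zero
    intro v
    rw [pol_comm, pol_add_right, h1, zmod2_add_self]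
  have h3 : a = -a' := eq_neg_of_add_eq_zero_left h2
  rw [h3]
  funext j
  have := zmod2_add_self (a' j)
  simp only [Pi.neg_apply]
  exact neg_eq_of_add_eq_zero_left this

theorem qa_translate (m : ℕ) (a v : Fin m ⊕ Fin m → ZMod 2) :
    qa m a v = quadFormPlus m (ZMod 2) (v + a) + quadFormPlus m (ZMod 2) a := by
  rw [qa, quadFormPlus_add]
  have := zmod2_add_self (quadFormPlus m (ZMod 2) a)
  linear_combination -this

theorem qa_comp_shift (m : ℕ) (a a' : Fin m ⊕ Fin m → ZMod 2)
    (h : quadFormPlus m (ZMod 2) a = quadFormPlus m (ZMod 2) a') (v : Fin m ⊕ Fin m → ZMod 2) :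
    qa m a v = qa m a' (shiftEquiv m (a + a') v) := by
  have hc : qa m a' (a + a') = 0 := by
    rw [qa, quadFormPlus_add, pol_add_left, pol_self, h, pol_comm m a a']
    have h1 := zmod2_add_self (quadFormPlus m (ZMod 2) a')
    have h2 := zmod2_add_self (pol m a' a)
    linear_combination h1 + h2
  rw [shiftEquiv_apply, polar_shift (qa_isPol m a') _ hc, qa, qa, pol_add_right]
  have h2 := zmod2_add_self (pol m v a')
  linear_combination -h2

theorem exists_of_isPol {m : ℕ} {q : (Fin m ⊕ Fin m → ZMod 2) → ZMod 2} (hq : IsPol m q) :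
    ∃ a, q = qa m a := by
  classical
  -- d = q - Q is additive
  let d : (Fin m ⊕ Fin m → ZMod 2) →+ ZMod 2 :=
    { toFun := fun v => q v - quadFormPlus m (ZMod 2) v
      map_zero' := by rw [hq.zero, (quadFormPlus_isPol m).zero, sub_zero]
      map_add' := by
        intro u v
        rw [hq u v, quadFormPlus_add]
        ring }
  let dl : (Fin m ⊕ Fin m → ZMod 2) →ₗ[ZMod 2] ZMod 2 := d.toZModLinearMap 2
  let a : Fin m ⊕ Fin m → ZMod 2 := fun j => Sum.elim (fun i => dl (Pi.single (Sum.inr i) 1))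
    (fun i => dl (Pi.single (Sum.inl i) 1)) j
  refine ⟨a, ?_⟩
  funext v
  have h1 : dl v = pol m v a := by
    rw [LinearMap.pi_apply_eq_sum_univ dl v, Fintype.sum_sum_type]
    simp only [pol, Finset.sum_add_distrib, smul_eq_mul]
    congr 1
    · refine Finset.sum_congr rfl fun i _ => ?_
      simp only [a, Sum.elim_inr]
      congr 2
      funext j
      simp [Pi.single_apply, eq_comm]
    · refine Finset.sum_congr rfl fun i _ => ?_
      simp only [a, Sum.elim_inl]
      rw [mul_comm]
      congr 2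
      funext j
      simp [Pi.single_apply, eq_comm]
  have h2 : dl v = q v - quadFormPlus m (ZMod 2) v := rfl
  rw [qa, ← h1, h2]
  ring

/-! ### Sign sums -/

/-- the nontrivial character of `ZMod 2` -/
def chi (t : ZMod 2) : ℤ := if t = 0 then 1 else -1

theorem chi_add (s t : ZMod 2) : chi (s + t) = chi s * chi t := by
  revert s t; decide

theorem chi_zero : chi 0 = 1 := by decide

theorem chi_one : chi 1 = -1 := by decide

/-- the sign sum `∑ (-1)^{q v}` -/
def signSum {W : Type*} [Fintype W] (q : W → ZMod 2) : ℤ := ∑ v, chi (q v)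

theorem signSum_comp_equiv {W W' : Type*} [Fintype W] [Fintype W'] (e : W ≃ W')
    (q : W' → ZMod 2) : signSum (fun w => q (e w)) = signSum q :=
  Equiv.sum_comp e (fun v => chi (q v))

theorem signSum_qa (m : ℕ) (a : Fin m ⊕ Fin m → ZMod 2) :
    signSum (qa m a) =
      chi (quadFormPlus m (ZMod 2) a) * signSum (quadFormPlus m (ZMod 2)) := by
  simp only [signSum]
  rw [Finset.mul_sum,
    ← Equiv.sum_comp (Equiv.addRight a)
      (fun v => chi (quadFormPlus m (ZMod 2) a) * chi (quadFormPlus m (ZMod 2) v))]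
  refine Finset.sum_congr rfl fun v _ => ?_
  rw [qa_translate, chi_add, mul_comm]
  rfl

theorem two_mul_card_zeros {W : Type*} [Fintype W] (q : W → ZMod 2) :
    (2 : ℤ) * (Nat.card {v // q v = 0} : ℤ) = (Fintype.card W : ℤ) + signSum q := by
  classical
  rw [Nat.card_eq_fintype_card, Fintype.card_subtype]
  have h1 : (Fintype.card W : ℤ) + signSum q = ∑ v : W, (1 + chi (q v)) := by
    simp [signSum, Finset.sum_add_distrib]
  have h2 : ∑ v : W, (1 + chi (q v)) = ∑ v : W, (if q v = 0 then (2 : ℤ) else 0) := by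
    refine Finset.sum_congr rfl fun v _ => ?_
    rcases zmod2_cases (q v) with h | h
    · rw [h, chi_zero]; simp
    · rw [h, chi_one]; simp
  rw [h1, h2, Finset.sum_ite, Finset.sum_const_zero, add_zero, Finset.sum_const]
  simp [mul_comm]

theorem signSum_of_lagrangian {m : ℕ} {q : (Fin m ⊕ Fin m → ZMod 2) → ZMod 2} (hq : IsPol m q)
    (U : Submodule (ZMod 2) (Fin m ⊕ Fin m → ZMod 2))
    (hU : ∀ u ∈ U, q u = 0) (hperp : ∀ v, (∀ u ∈ U, pol m v u = 0) → v ∈ U) :
    signSum q = (Nat.card U : ℤ) := by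
  classical
  have h3 : ∀ v, ∑ u : U, chi (pol m v u) = if v ∈ U then (Fintype.card U : ℤ) else 0 := by
    intro v
    split_ifs with hv
    · have : ∀ u : U, chi (pol m v u) = 1 := by
        intro u
        have h := hq v u
        rw [hU _ (U.add_mem hv u.2), hU v hv, hU u u.2] at h
        have h' : pol m v u = 0 := by simpa using h.symm
        rw [h', chi_zero]
      simp [this]
    · have : ∃ u₀ ∈ U, pol m v u₀ ≠ 0 := by
        by_contra hcon
        push Not at hcon
        exact hv (hperp v hcon)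
      obtain ⟨u₀, hu₀, hne⟩ := this
      have h1 : pol m v u₀ = 1 := (zmod2_cases _).resolve_left hne
      have h2 : ∑ u : U, chi (pol m v u) = - ∑ u : U, chi (pol m v u) := by
        calc ∑ u : U, chi (pol m v u)
            = ∑ u : U, chi (pol m v ((u + ⟨u₀, hu₀⟩ : U) : Fin m ⊕ Fin m → ZMod 2)) :=
              (Equiv.sum_comp (Equiv.addRight (⟨u₀, hu₀⟩ : U))
                (fun u : U => chi (pol m v u))).symm
          _ = ∑ u : U, -chi (pol m v u) := by
              refine Finset.sum_congr rfl fun u _ => ?_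
              rw [Submodule.coe_add, pol_add_right, chi_add, h1, chi_one]
              simp
          _ = - ∑ u : U, chi (pol m v u) := by simp
      linarith
  have h1 : ∑ v, ∑ u : U, chi (q (v + u)) = (Fintype.card U : ℤ) * signSum q := by
    rw [Finset.sum_comm]
    have : ∀ u : U, ∑ v, chi (q (v + u)) = signSum q := fun u =>
      Equiv.sum_comp (Equiv.addRight (u : Fin m ⊕ Fin m → ZMod 2)) (fun v => chi (q v))
    simp [this]
  have h2 : ∑ v, ∑ u : U, chi (q (v + u)) = (Fintype.card U : ℤ) * (Fintype.card U : ℤ) := by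
    have : ∀ v, ∑ u : U, chi (q (v + u)) =
        (if v ∈ U then (Fintype.card U : ℤ) else 0) := by
      intro v
      rw [← h3 v]
      by_cases hv : v ∈ U
      · refine Finset.sum_congr rfl fun u _ => ?_
        have h := hq v u
        rw [hU _ (U.add_mem hv u.2), hU v hv, hU u u.2] at h
        have h' : pol m v u = 0 := by simpa using h.symm
        rw [h', hU _ (U.add_mem hv u.2)]
      · have h4 : ∑ u : U, chi (q (v + u)) = chi (q v) * ∑ u : U, chi (pol m v u) := by
          rw [Finset.mul_sum]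
          refine Finset.sum_congr rfl fun u _ => ?_
          rw [hq, hU u u.2, add_zero, chi_add]
        rw [h4, h3 v, if_neg hv, mul_zero]
    simp only [this]
    rw [Finset.sum_ite, Finset.sum_const_zero, add_zero, Finset.sum_const, Fintype.card_subtype]
    simp
  have hpos : (0 : ℤ) < (Fintype.card U : ℤ) := by exact_mod_cast Fintype.card_pos
  have h5 := h1.symm.trans h2
  rw [Nat.card_eq_fintype_card]
  exact mul_left_cancel₀ hpos.ne' h5

theorem two_mul_card_ones {W : Type*} [Fintype W] (q : W → ZMod 2) :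
    (2 : ℤ) * (Nat.card {v // q v = 1} : ℤ) = (Fintype.card W : ℤ) - signSum q := by
  classical
  rw [Nat.card_eq_fintype_card, Fintype.card_subtype]
  have h1 : (Fintype.card W : ℤ) - signSum q = ∑ v : W, (1 - chi (q v)) := by
    simp [signSum, Finset.sum_sub_distrib]
  have h2 : ∑ v : W, (1 - chi (q v)) = ∑ v : W, (if q v = 1 then (2 : ℤ) else 0) := by
    refine Finset.sum_congr rfl fun v _ => ?_
    rcases zmod2_cases (q v) with h | h
    · rw [h, chi_zero]; simp
    · rw [h, chi_one]; simp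
  rw [h1, h2, Finset.sum_ite, Finset.sum_const_zero, add_zero, Finset.sum_const]
  simp [mul_comm]

/-! ### The standard maximal totally singular subspace of the plus form -/

/-- `x ↦ (x, 0)` -/
def inlMap (m : ℕ) : (Fin m → ZMod 2) →ₗ[ZMod 2] (Fin m ⊕ Fin m → ZMod 2) where
  toFun x := Sum.elim x 0
  map_add' x y := by funext j; rcases j with i | i <;> simp
  map_smul' c x := by funext j; rcases j with i | i <;> simp

theorem inlMap_inl (m : ℕ) (x : Fin m → ZMod 2) (i : Fin m) : inlMap m x (Sum.inl i) = x i := rfl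

theorem inlMap_inr (m : ℕ) (x : Fin m → ZMod 2) (i : Fin m) : inlMap m x (Sum.inr i) = 0 := rfl

theorem inlMap_injective (m : ℕ) : Function.Injective (inlMap m) := by
  intro x y h
  funext i
  exact congrFun h (Sum.inl i)

theorem quadFormPlus_inlMap (m : ℕ) (x : Fin m → ZMod 2) :
    quadFormPlus m (ZMod 2) (inlMap m x) = 0 := by
  simp [quadFormPlus, inlMap_inr]

theorem pol_inlMap (m : ℕ) (v : Fin m ⊕ Fin m → ZMod 2) (x : Fin m → ZMod 2) :
    pol m v (inlMap m x) = ∑ i, x i * v (Sum.inr i) := by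
  simp [pol, inlMap_inr, inlMap_inl]

theorem mem_range_inlMap_of_perp (m : ℕ) (v : Fin m ⊕ Fin m → ZMod 2)
    (h : ∀ u ∈ LinearMap.range (inlMap m), pol m v u = 0) : v ∈ LinearMap.range (inlMap m) := by
  classical
  refine ⟨fun i => v (Sum.inl i), ?_⟩
  funext j
  rcases j with i | i
  · rfl
  · have h1 := h (inlMap m (Pi.single i 1)) ⟨_, rfl⟩
    rw [pol_inlMap] at h1
    simp [Pi.single_apply] at h1
    rw [inlMap_inr, h1]

theorem finrank_range_inlMap (m : ℕ) :
    Module.finrank (ZMod 2) (LinearMap.range (inlMap m)) = m := by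
  rw [LinearMap.finrank_range_of_inj (inlMap_injective m)]
  simp

theorem card_range_inlMap (m : ℕ) : Nat.card (LinearMap.range (inlMap m)) = 2 ^ m := by
  rw [Nat.card_congr (LinearEquiv.ofInjective (inlMap m) (inlMap_injective m)).toEquiv.symm]
  simp [Nat.card_eq_fintype_card]

theorem signSum_plus (m : ℕ) : signSum (quadFormPlus m (ZMod 2)) = 2 ^ m := by
  rw [signSum_of_lagrangian (quadFormPlus_isPol m) (LinearMap.range (inlMap m))
    (by rintro _ ⟨x, rfl⟩; exact quadFormPlus_inlMap m x) (mem_range_inlMap_of_perp m),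
    card_range_inlMap]
  simp

theorem card_space (m : ℕ) : Fintype.card (Fin m ⊕ Fin m → ZMod 2) = 2 ^ (2 * m) := by
  simp [two_mul]

theorem two_mul_card_plus_zeros (m : ℕ) :
    2 * Nat.card {a : Fin m ⊕ Fin m → ZMod 2 // quadFormPlus m (ZMod 2) a = 0}
      = 2 ^ (2 * m) + 2 ^ m := by
  have h := two_mul_card_zeros (quadFormPlus m (ZMod 2))
  rw [signSum_plus, card_space] at h
  exact_mod_cast h

theorem two_mul_card_plus_ones (m : ℕ) :
    2 * Nat.card {a : Fin m ⊕ Fin m → ZMod 2 // quadFormPlus m (ZMod 2) a = 1} + 2 ^ m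
      = 2 ^ (2 * m) := by
  have h := two_mul_card_ones (quadFormPlus m (ZMod 2))
  rw [signSum_plus, card_space] at h
  have h' : (2 : ℤ) * (Nat.card {a : Fin m ⊕ Fin m → ZMod 2 // quadFormPlus m (ZMod 2) a = 1} : ℤ)
      + 2 ^ m = 2 ^ (2 * m) := by
    rw [h]; push_cast; ring
  exact_mod_cast h'

/-! ### The minus form -/

/-- reindexing `Fin (n+1) ⊕ Fin (n+1)` as `(Fin n ⊕ Fin n) ⊕ Fin 2` -/
def reidx (n : ℕ) :
    (Fin (n + 1) ⊕ Fin (n + 1) → ZMod 2) ≃ₗ[ZMod 2] ((Fin n ⊕ Fin n) ⊕ Fin 2 → ZMod 2) where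
  toFun v := Sum.elim (Sum.elim (fun i => v (Sum.inl i.castSucc)) (fun i => v (Sum.inr i.castSucc)))
    ![v (Sum.inl (Fin.last n)), v (Sum.inr (Fin.last n))]
  invFun w := Sum.elim (Fin.snoc (fun i => w (Sum.inl (Sum.inl i))) (w (Sum.inr 0)))
    (Fin.snoc (fun i => w (Sum.inl (Sum.inr i))) (w (Sum.inr 1)))
  left_inv v := by
    funext j
    rcases j with i | i <;> induction i using Fin.lastCases <;> simp
  right_inv w := by
    funext j
    rcases j with (i | i) | j
    · simp
    · simp
    · fin_cases j <;> simp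
  map_add' v w := by
    funext j
    rcases j with (i | i) | j
    · simp
    · simp
    · fin_cases j <;> simp
  map_smul' c v := by
    funext j
    rcases j with (i | i) | j
    · simp
    · simp
    · fin_cases j <;> simp

/-- the vector `e_last + f_last` -/
def a0 (n : ℕ) : Fin (n + 1) ⊕ Fin (n + 1) → ZMod 2 :=
  Pi.single (Sum.inl (Fin.last n)) 1 + Pi.single (Sum.inr (Fin.last n)) 1

theorem pol_a0 (n : ℕ) (v : Fin (n + 1) ⊕ Fin (n + 1) → ZMod 2) :
    pol (n + 1) v (a0 n) = v (Sum.inr (Fin.last n)) + v (Sum.inl (Fin.last n)) := by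
  rw [a0, pol_add_right, pol_comm _ v, pol_single_inl, pol_comm _ v, pol_single_inr]

theorem quadFormPlus_a0 (n : ℕ) : quadFormPlus (n + 1) (ZMod 2) (a0 n) = 1 := by
  simp only [quadFormPlus, Fin.sum_univ_castSucc, a0]
  simp [Fin.castSucc_ne_last]

theorem quadFormMinus_reidx (n : ℕ) (v : Fin (n + 1) ⊕ Fin (n + 1) → ZMod 2) :
    quadFormMinus n (ZMod 2) 1 1 (reidx n v) = qa (n + 1) (a0 n) v := by
  rw [qa, pol_a0]
  simp only [quadFormMinus, quadFormPlus, Fin.sum_univ_castSucc, reidx, LinearEquiv.coe_mk,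
    LinearMap.coe_mk, AddHom.coe_mk, Sum.elim_inl, Sum.elim_inr]
  simp only [Matrix.cons_val_zero, Matrix.cons_val_one, one_mul, pow_two, zmod2_mul_self]
  ring

theorem signSum_minus (n : ℕ) : signSum (quadFormMinus n (ZMod 2) 1 1) = -2 ^ (n + 1) := by
  rw [← signSum_comp_equiv (reidx n).toEquiv (quadFormMinus n (ZMod 2) 1 1)]
  have : (fun w => quadFormMinus n (ZMod 2) 1 1 ((reidx n).toEquiv w)) = qa (n + 1) (a0 n) := by
    funext v
    exact quadFormMinus_reidx n v
  rw [this, signSum_qa, quadFormPlus_a0, chi_one, signSum_plus]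
  ring

end Cfsg.Agent.Helper42
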