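import Mathlib
import Cfsg.Agent.Helper42.SpForm

/-!
# Helper for CALL S2676 (helper44): every invertible skew-symmetric matrix (2 invertible) on an
index type of cardinality `2 m` is `Hᵀ J H` with `H` an invertible `(Fin m ⊕ Fin m) × κ` matrix.
-/

set_option autoImplicit false

namespace Cfsg.Agent.Helper42.SPCStd

open Matrix

theorem skew_alt {F : Type*} [Field F] (h2 : (2 : F) ≠ 0) {κ : Type*} [Fintype κ]
    (ψ : Matrix κ κ F) (hψ : ψᵀ = -ψ) (x : κ → F) : x ⬝ᵥ ψ *ᵥ x = 0 := by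
  have h : x ⬝ᵥ ψ *ᵥ x = -(x ⬝ᵥ ψ *ᵥ x) := by
    conv_lhs => rw [Matrix.dotProduct_mulVec, ← Matrix.mulVec_transpose, hψ, Matrix.neg_mulVec,
      neg_dotProduct, dotProduct_comm]
  have h' : (2 : F) * (x ⬝ᵥ ψ *ᵥ x) = 0 := by linear_combination h
  rcases mul_eq_zero.mp h' with h0 | h0
  · exact absurd h0 h2
  · exact h0

/-- every invertible skew-symmetric matrix is `Hᵀ J H`, `H` invertible -/
theorem exists_std_factor {F : Type*} [Field F] (h2 : (2 : F) ≠ 0) {κ : Type*} [Fintype κ]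
    [DecidableEq κ] (m : ℕ) (hcard : Fintype.card κ = 2 * m) (ψ : Matrix κ κ F) (hψ : ψᵀ = -ψ)
    (hu : IsUnit ψ.det) :
    ∃ (H : Matrix (Fin m ⊕ Fin m) κ F) (K : Matrix κ (Fin m ⊕ Fin m) F), H * K = 1 ∧ K * H = 1 ∧
      ψ = Hᵀ * Matrix.J (Fin m) F * H := by
  classical
  set B : LinearMap.BilinForm F (κ → F) := Matrix.toBilin' ψ with hB
  have hBapp : ∀ x y, B x y = x ⬝ᵥ ψ *ᵥ y := fun x y => Matrix.toBilin'_apply' ψ x y
  have halt' : ∀ v, B v v = 0 := fun v => by rw [hBapp]; exact skew_alt h2 ψ hψ v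
  have hnd : ∀ v, (∀ w, B v w = 0) → v = 0 := by
    intro v hv
    have h1 : v ᵥ* ψ = 0 := by
      funext i
      have := hv (Pi.single i 1)
      rw [hBapp, Matrix.dotProduct_mulVec, dotProduct_single_one] at this
      exact this
    have h3 := congrArg (fun w => w ᵥ* ψ⁻¹) h1
    simp only [Matrix.vecMul_vecMul, Matrix.mul_nonsing_inv ψ hu, Matrix.vecMul_one,
      Matrix.zero_vecMul] at h3
    exact h3
  have hdim : Module.finrank F (κ → F) = 2 * m := by
    rw [Module.finrank_fintype_fun_eq_card, hcard]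
  obtain ⟨Φ, hΦ⟩ := Cfsg.Agent.Helper42.SpForm.exists_equiv_std m (κ → F) B halt' hnd hdim
  have h1 : LinearMap.toMatrix' Φ.toLinearMap * LinearMap.toMatrix' Φ.symm.toLinearMap = 1 := by
    rw [← LinearMap.toMatrix'_comp, LinearEquiv.comp_symm, LinearMap.toMatrix'_id]
  have h3 : LinearMap.toMatrix' Φ.symm.toLinearMap * LinearMap.toMatrix' Φ.toLinearMap = 1 := by
    rw [← LinearMap.toMatrix'_comp, LinearEquiv.symm_comp, LinearMap.toMatrix'_id]
  refine ⟨LinearMap.toMatrix' Φ.toLinearMap, LinearMap.toMatrix' Φ.symm.toLinearMap, h1, h3, ?_⟩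
  have hcomp : B = (Cfsg.Agent.Helper42.SpForm.stdForm m).comp Φ.toLinearMap Φ.toLinearMap := by
    refine LinearMap.ext₂ (fun x y => ?_)
    rw [LinearMap.BilinForm.comp_apply]
    exact (hΦ x y).symm
  have hΦm : Φ.toLinearMap = Matrix.toLin' (LinearMap.toMatrix' Φ.toLinearMap) :=
    (Matrix.toLin'_toMatrix' _).symm
  have h4 : Matrix.toBilin' ψ =
      Matrix.toBilin' ((LinearMap.toMatrix' Φ.toLinearMap)ᵀ * Matrix.J (Fin m) F *
        LinearMap.toMatrix' Φ.toLinearMap) := by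
    rw [← Matrix.toBilin'_comp, ← hΦm]
    exact hcomp
  exact Matrix.toBilin'.injective h4

end Cfsg.Agent.Helper42.SPCStd
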