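import Mathlib
import Cfsg.Agent.Helper44.SPCDefs
import Cfsg.Agent.Helper42.SPCStd

/-!
# CALL S2676 (helper44), piece ALTCLS: congruence classes of invertible skew-symmetric matrices
-/

set_option autoImplicit false

namespace Cfsg.Agent.Helper42.SPCALTCLS

open Matrix Cfsg.Agent.Helper21.JCent Cfsg.Agent.Helper44.UC Cfsg.Agent.Helper44.SPC

/-- ALTCLS: invertible skew-symmetric matrices in odd characteristic: one congruence class in
even dimension, none in odd dimension. -/
theorem spc_altcls {F : Type*} [Field F] [Fintype F] (h2 : (2 : F) ≠ 0) {κ : Type*} [Fintype κ]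
    [DecidableEq κ] (i : ℕ) (hi : Odd i) :
    Nat.card (Quot (congRel (F := F) (ι := κ) i)) = if Even (Fintype.card κ) then 1 else 0 := by
  classical
  have hneg : ∀ β : Matrix κ κ F, IsSymT i β → βᵀ = -β := by
    intro β hβ
    rw [hβ.2, Odd.neg_one_pow hi, neg_one_smul]
  by_cases hev : Even (Fintype.card κ)
  · rw [if_pos hev]
    obtain ⟨m, hm⟩ := hev
    have hcard : Fintype.card κ = 2 * m := by omega
    rw [Nat.card_eq_one_iff_unique]
    constructor
    · constructor
      intro a b
      induction a using Quot.ind with | _ β =>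
      induction b using Quot.ind with | _ β' =>
      apply Quot.sound
      obtain ⟨H, K, hHK, hKH, hβ⟩ :=
        Cfsg.Agent.Helper42.SPCStd.exists_std_factor h2 m hcard β.1 (hneg _ β.2) β.2.1
      obtain ⟨H', K', hHK', hKH', hβ'⟩ :=
        Cfsg.Agent.Helper42.SPCStd.exists_std_factor h2 m hcard β'.1 (hneg _ β'.2) β'.2.1
      refine ⟨K * H', Matrix.isUnit_det_of_right_inverse (B := K' * H) ?_, ?_⟩
      · rw [Matrix.mul_assoc, ← Matrix.mul_assoc H', hHK', Matrix.one_mul, hKH]
      · have hKt : Kᵀ * Hᵀ = 1 := by rw [← Matrix.transpose_mul, hHK, Matrix.transpose_one]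
        rw [hβ', hβ, Matrix.transpose_mul]
        calc H'ᵀ * Matrix.J (Fin m) F * H'
            = H'ᵀ * (Kᵀ * Hᵀ) * Matrix.J (Fin m) F * (H * K) * H' := by
              rw [hKt, hHK, Matrix.mul_one, Matrix.mul_one]
          _ = H'ᵀ * Kᵀ * (Hᵀ * Matrix.J (Fin m) F * H) * (K * H') := by
              simp only [Matrix.mul_assoc]
    · have e : κ ≃ Fin m ⊕ Fin m :=
        Fintype.equivOfCardEq (by rw [hcard, Fintype.card_sum, Fintype.card_fin]; ring)
      refine ⟨Quot.mk _ ⟨(Matrix.J (Fin m) F).submatrix e e, ?_, ?_⟩⟩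
      · rw [Matrix.det_submatrix_equiv_self]
        exact Matrix.isUnit_det_J (Fin m) F
      · rw [Odd.neg_one_pow hi, neg_one_smul, Matrix.transpose_submatrix, Matrix.J_transpose]
        rfl
  · rw [if_neg hev]
    have hE : IsEmpty {β : Matrix κ κ F // IsSymT i β} := by
      constructor
      rintro ⟨β, hβ⟩
      have h1 := hneg β hβ
      have h3 := congrArg Matrix.det h1
      rw [Matrix.det_transpose, Matrix.det_neg, Odd.neg_one_pow (Nat.not_even_iff_odd.mp hev)] at h3
      have h4 : (2 : F) * β.det = 0 := by linear_combination h3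
      rcases mul_eq_zero.mp h4 with h0 | h0
      · exact h2 h0
      · exact hβ.1.ne_zero h0
    haveI : IsEmpty (Quot (congRel (F := F) (ι := κ) i)) :=
      ⟨fun q => Quot.ind (β := fun _ => False) (fun a => hE.false a) q⟩
    exact Nat.card_of_isEmpty

end Cfsg.Agent.Helper42.SPCALTCLS
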