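import Mathlib
import Cfsg.Agent.Helper44.SPCDefs
import Cfsg.Agent.Helper42.SPCStd

/-!
# CALL S2676 (helper44), piece CLS: the symplectic classes inside a `GL`-class are the orbits of
the centraliser on the invariant forms
-/

set_option autoImplicit false

namespace Cfsg.Agent.Helper42.SPCCLS

open Matrix Cfsg.Agent.Helper21.JCent Cfsg.Agent.Helper44.UC Cfsg.Agent.Helper44.SPC

/-- CLS: the symplectic classes inside a `GL`-class are the orbits of the centraliser on the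
invariant forms (`g = h U h⁻¹ ↦ hᵀ J h`). -/
theorem spc_cls {F : Type*} [Field F] (h2 : (2 : F) ≠ 0) (m : ℕ)
    (U : Matrix (Fin m ⊕ Fin m) (Fin m ⊕ Fin m) F) :
    Nat.card {C : ConjClasses (Matrix.symplecticGroup (Fin m) F) //
        ∃ g : Matrix.symplecticGroup (Fin m) F, ConjClasses.mk g = C ∧
          IsConj U (g : Matrix (Fin m ⊕ Fin m) (Fin m ⊕ Fin m) F)}
      = Nat.card (Quot (invRel U)) := by
  classical
  have hcard : Fintype.card (Fin m ⊕ Fin m) = 2 * m := by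
    rw [Fintype.card_sum, Fintype.card_fin]; ring
  have key : ∀ ψ : {ψ : Matrix (Fin m ⊕ Fin m) (Fin m ⊕ Fin m) F // IsInvF U ψ},
      ∃ (H K : Matrix (Fin m ⊕ Fin m) (Fin m ⊕ Fin m) F), H * K = 1 ∧ K * H = 1 ∧
        ψ.1 = Hᵀ * Matrix.J (Fin m) F * H :=
    fun ψ => Cfsg.Agent.Helper42.SPCStd.exists_std_factor h2 m hcard ψ.1 ψ.2.1 ψ.2.2.1
  choose H K hHK hKH hψ using key
  have hKt : ∀ ψ, (K ψ)ᵀ * (H ψ)ᵀ = 1 := by
    intro ψ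
    rw [← Matrix.transpose_mul, hHK, Matrix.transpose_one]
  have hKJ : ∀ ψ, (K ψ)ᵀ * ψ.1 * K ψ = Matrix.J (Fin m) F := by
    intro ψ
    calc (K ψ)ᵀ * ψ.1 * K ψ = (K ψ)ᵀ * ((H ψ)ᵀ * Matrix.J (Fin m) F * H ψ) * K ψ := by
          rw [← hψ ψ]
      _ = ((K ψ)ᵀ * (H ψ)ᵀ) * Matrix.J (Fin m) F * (H ψ * K ψ) := by
          simp only [Matrix.mul_assoc]
      _ = Matrix.J (Fin m) F := by rw [hKt, hHK, Matrix.one_mul, Matrix.mul_one]
  have hmem : ∀ ψ, H ψ * U * K ψ ∈ Matrix.symplecticGroup (Fin m) F := by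
    intro ψ
    rw [SymplecticGroup.mem_iff']
    calc (H ψ * U * K ψ)ᵀ * Matrix.J (Fin m) F * (H ψ * U * K ψ)
        = (K ψ)ᵀ * (Uᵀ * ((H ψ)ᵀ * Matrix.J (Fin m) F * H ψ) * U) * K ψ := by
          rw [Matrix.transpose_mul, Matrix.transpose_mul]; simp only [Matrix.mul_assoc]
      _ = (K ψ)ᵀ * ψ.1 * K ψ := by rw [← hψ ψ, ψ.2.2.2]
      _ = Matrix.J (Fin m) F := hKJ ψ
  have hconj : ∀ (a b s : Matrix.symplecticGroup (Fin m) F),
      (s : Matrix (Fin m ⊕ Fin m) (Fin m ⊕ Fin m) F) * (a : Matrix (Fin m ⊕ Fin m) (Fin m ⊕ Fin m) F)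
        = (b : Matrix (Fin m ⊕ Fin m) (Fin m ⊕ Fin m) F) * (s : Matrix (Fin m ⊕ Fin m) (Fin m ⊕ Fin m) F) →
      ConjClasses.mk a = ConjClasses.mk b := by
    intro a b s h
    rw [ConjClasses.mk_eq_mk_iff_isConj, isConj_iff]
    refine ⟨s, ?_⟩
    rw [mul_inv_eq_iff_eq_mul]
    exact Subtype.ext h
  have hconj' : ∀ (a b : Matrix.symplecticGroup (Fin m) F), ConjClasses.mk a = ConjClasses.mk b →
      ∃ S S' : Matrix (Fin m ⊕ Fin m) (Fin m ⊕ Fin m) F, S * S' = 1 ∧ S' * S = 1 ∧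
        S'ᵀ * Matrix.J (Fin m) F * S' = Matrix.J (Fin m) F ∧
        S * (a : Matrix (Fin m ⊕ Fin m) (Fin m ⊕ Fin m) F)
          = (b : Matrix (Fin m ⊕ Fin m) (Fin m ⊕ Fin m) F) * S := by
    intro a b h
    rw [ConjClasses.mk_eq_mk_iff_isConj, isConj_iff] at h
    obtain ⟨s, hs⟩ := h
    rw [mul_inv_eq_iff_eq_mul] at hs
    refine ⟨s.1, (s⁻¹).1, ?_, ?_, ?_, ?_⟩
    · exact congrArg Subtype.val (mul_inv_cancel s)
    · exact congrArg Subtype.val (inv_mul_cancel s)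
    · exact SymplecticGroup.mem_iff'.mp (s⁻¹).2
    · exact congrArg Subtype.val hs
  obtain ⟨f, hfdef⟩ : ∃ f : {ψ : Matrix (Fin m ⊕ Fin m) (Fin m ⊕ Fin m) F // IsInvF U ψ} →
      {C : ConjClasses (Matrix.symplecticGroup (Fin m) F) //
        ∃ g : Matrix.symplecticGroup (Fin m) F, ConjClasses.mk g = C ∧
          IsConj U (g : Matrix (Fin m ⊕ Fin m) (Fin m ⊕ Fin m) F)},
      ∀ ψ, (f ψ).1 = ConjClasses.mk ⟨H ψ * U * K ψ, hmem ψ⟩ := by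
    refine ⟨fun ψ => ⟨ConjClasses.mk ⟨H ψ * U * K ψ, hmem ψ⟩, ⟨H ψ * U * K ψ, hmem ψ⟩, rfl,
      ⟨⟨H ψ, K ψ, hHK ψ, hKH ψ⟩, ?_⟩⟩, fun ψ => rfl⟩
    show H ψ * U = H ψ * U * K ψ * H ψ
    rw [Matrix.mul_assoc (H ψ * U), hKH, Matrix.mul_one]
  have hf : ∀ ψ ψ', invRel U ψ ψ' → f ψ = f ψ' := by
    rintro ψ ψ' ⟨c, hc, hcU, hcψ⟩
    apply Subtype.ext
    rw [hfdef, hfdef]
    have hcc : c * c⁻¹ = 1 := Matrix.mul_nonsing_inv c hc
    have hcc' : c⁻¹ * c = 1 := Matrix.nonsing_inv_mul c hc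
    have hc'U : c⁻¹ * U = U * c⁻¹ := by
      calc c⁻¹ * U = c⁻¹ * (U * c) * c⁻¹ := by
            rw [Matrix.mul_assoc, Matrix.mul_assoc, hcc, Matrix.mul_one]
        _ = c⁻¹ * (c * U) * c⁻¹ := by rw [hcU]
        _ = U * c⁻¹ := by rw [← Matrix.mul_assoc c⁻¹ c U, hcc', Matrix.one_mul]
    have hct : (c⁻¹)ᵀ * cᵀ = 1 := by rw [← Matrix.transpose_mul, hcc, Matrix.transpose_one]
    have hsmem : H ψ' * c⁻¹ * K ψ ∈ Matrix.symplecticGroup (Fin m) F := by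
      rw [SymplecticGroup.mem_iff']
      calc (H ψ' * c⁻¹ * K ψ)ᵀ * Matrix.J (Fin m) F * (H ψ' * c⁻¹ * K ψ)
          = (K ψ)ᵀ * (c⁻¹)ᵀ * ((H ψ')ᵀ * Matrix.J (Fin m) F * H ψ') * c⁻¹ * K ψ := by
            rw [Matrix.transpose_mul, Matrix.transpose_mul]; simp only [Matrix.mul_assoc]
        _ = (K ψ)ᵀ * (c⁻¹)ᵀ * (cᵀ * ψ.1 * c) * c⁻¹ * K ψ := by rw [← hψ ψ', hcψ]
        _ = (K ψ)ᵀ * ((c⁻¹)ᵀ * cᵀ) * ψ.1 * (c * c⁻¹) * K ψ := by simp only [Matrix.mul_assoc]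
        _ = (K ψ)ᵀ * ψ.1 * K ψ := by rw [hct, hcc, Matrix.mul_one, Matrix.mul_one]
        _ = Matrix.J (Fin m) F := hKJ ψ
    refine hconj _ _ ⟨_, hsmem⟩ ?_
    show H ψ' * c⁻¹ * K ψ * (H ψ * U * K ψ) = H ψ' * U * K ψ' * (H ψ' * c⁻¹ * K ψ)
    calc H ψ' * c⁻¹ * K ψ * (H ψ * U * K ψ)
        = H ψ' * c⁻¹ * (K ψ * H ψ) * U * K ψ := by simp only [Matrix.mul_assoc]
      _ = H ψ' * (c⁻¹ * U) * K ψ := by rw [hKH, Matrix.mul_one, Matrix.mul_assoc (H ψ')]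
      _ = H ψ' * U * (K ψ' * H ψ') * c⁻¹ * K ψ := by
          rw [hc'U, hKH, Matrix.mul_one, Matrix.mul_assoc (H ψ') U]
      _ = H ψ' * U * K ψ' * (H ψ' * c⁻¹ * K ψ) := by simp only [Matrix.mul_assoc]
  have hinj : ∀ ψ ψ', f ψ = f ψ' → invRel U ψ ψ' := by
    intro ψ ψ' h
    have h1 := congrArg Subtype.val h
    rw [hfdef, hfdef] at h1
    obtain ⟨S, S', hSS', hS'S, hS'J, hSg⟩ := hconj' _ _ h1
    have hSg' : S * (H ψ * U * K ψ) = H ψ' * U * K ψ' * S := hSg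
    refine ⟨K ψ * S' * H ψ', Matrix.isUnit_det_of_right_inverse (B := K ψ' * S * H ψ) ?_, ?_, ?_⟩
    · calc K ψ * S' * H ψ' * (K ψ' * S * H ψ)
          = K ψ * S' * (H ψ' * K ψ') * S * H ψ := by simp only [Matrix.mul_assoc]
        _ = K ψ * (S' * S) * H ψ := by rw [hHK, Matrix.mul_one, Matrix.mul_assoc (K ψ)]
        _ = 1 := by rw [hS'S, Matrix.mul_one, hKH]
    · have e1 : H ψ' * U = S * H ψ * U * (K ψ * S' * H ψ') := by
        calc H ψ' * U = H ψ' * U * (K ψ' * (S * S') * H ψ') := by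
              rw [hSS', Matrix.mul_one, hKH, Matrix.mul_one]
          _ = (H ψ' * U * K ψ' * S) * S' * H ψ' := by simp only [Matrix.mul_assoc]
          _ = (S * (H ψ * U * K ψ)) * S' * H ψ' := by rw [← hSg']
          _ = S * H ψ * U * (K ψ * S' * H ψ') := by simp only [Matrix.mul_assoc]
      calc K ψ * S' * H ψ' * U = K ψ * S' * (H ψ' * U) := by simp only [Matrix.mul_assoc]
        _ = K ψ * S' * (S * H ψ * U * (K ψ * S' * H ψ')) := by rw [e1]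
        _ = K ψ * (S' * S) * H ψ * U * (K ψ * S' * H ψ') := by simp only [Matrix.mul_assoc]
        _ = U * (K ψ * S' * H ψ') := by rw [hS'S, Matrix.mul_one, hKH, Matrix.one_mul]
    · calc ψ'.1 = (H ψ')ᵀ * Matrix.J (Fin m) F * H ψ' := hψ ψ'
        _ = (H ψ')ᵀ * (S'ᵀ * Matrix.J (Fin m) F * S') * H ψ' := by rw [hS'J]
        _ = (H ψ')ᵀ * (S'ᵀ * ((K ψ)ᵀ * ψ.1 * K ψ) * S') * H ψ' := by rw [hKJ ψ]
        _ = (K ψ * S' * H ψ')ᵀ * ψ.1 * (K ψ * S' * H ψ') := by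
            rw [Matrix.transpose_mul, Matrix.transpose_mul]; simp only [Matrix.mul_assoc]
  have hsurj : ∀ x : {C : ConjClasses (Matrix.symplecticGroup (Fin m) F) //
        ∃ g : Matrix.symplecticGroup (Fin m) F, ConjClasses.mk g = C ∧
          IsConj U (g : Matrix (Fin m ⊕ Fin m) (Fin m ⊕ Fin m) F)}, ∃ ψ, f ψ = x := by
    rintro ⟨C, g, rfl, ⟨u, hu⟩⟩
    have hu' : (u : Matrix (Fin m ⊕ Fin m) (Fin m ⊕ Fin m) F) * U
        = (g : Matrix (Fin m ⊕ Fin m) (Fin m ⊕ Fin m) F) * (u : Matrix (Fin m ⊕ Fin m) (Fin m ⊕ Fin m) F) := hu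
    have hudet : IsUnit (u : Matrix (Fin m ⊕ Fin m) (Fin m ⊕ Fin m) F).det :=
      (Matrix.isUnit_iff_isUnit_det _).mp u.isUnit
    have hgJ : (g : Matrix (Fin m ⊕ Fin m) (Fin m ⊕ Fin m) F)ᵀ * Matrix.J (Fin m) F *
        (g : Matrix (Fin m ⊕ Fin m) (Fin m ⊕ Fin m) F) = Matrix.J (Fin m) F :=
      SymplecticGroup.mem_iff'.mp g.2
    have hInv : IsInvF U ((u : Matrix (Fin m ⊕ Fin m) (Fin m ⊕ Fin m) F)ᵀ * Matrix.J (Fin m) F *
        (u : Matrix (Fin m ⊕ Fin m) (Fin m ⊕ Fin m) F)) := by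
      refine ⟨?_, ?_, ?_⟩
      · rw [Matrix.transpose_mul, Matrix.transpose_mul, Matrix.transpose_transpose,
          Matrix.J_transpose, Matrix.neg_mul, Matrix.mul_neg, Matrix.mul_assoc]
      · rw [Matrix.det_mul, Matrix.det_mul, Matrix.det_transpose]
        exact (hudet.mul (Matrix.isUnit_det_J (Fin m) F)).mul hudet
      · calc Uᵀ * ((u : Matrix (Fin m ⊕ Fin m) (Fin m ⊕ Fin m) F)ᵀ * Matrix.J (Fin m) F *
              (u : Matrix (Fin m ⊕ Fin m) (Fin m ⊕ Fin m) F)) * U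
            = ((u : Matrix (Fin m ⊕ Fin m) (Fin m ⊕ Fin m) F) * U)ᵀ * Matrix.J (Fin m) F *
                ((u : Matrix (Fin m ⊕ Fin m) (Fin m ⊕ Fin m) F) * U) := by
              rw [Matrix.transpose_mul]; simp only [Matrix.mul_assoc]
          _ = (u : Matrix (Fin m ⊕ Fin m) (Fin m ⊕ Fin m) F)ᵀ *
                ((g : Matrix (Fin m ⊕ Fin m) (Fin m ⊕ Fin m) F)ᵀ * Matrix.J (Fin m) F *
                  (g : Matrix (Fin m ⊕ Fin m) (Fin m ⊕ Fin m) F)) *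
                (u : Matrix (Fin m ⊕ Fin m) (Fin m ⊕ Fin m) F) := by
              rw [hu', Matrix.transpose_mul]; simp only [Matrix.mul_assoc]
          _ = (u : Matrix (Fin m ⊕ Fin m) (Fin m ⊕ Fin m) F)ᵀ * Matrix.J (Fin m) F *
                (u : Matrix (Fin m ⊕ Fin m) (Fin m ⊕ Fin m) F) := by rw [hgJ]
    obtain ⟨ψ₀, hψ₀⟩ : ∃ ψ₀ : {ψ : Matrix (Fin m ⊕ Fin m) (Fin m ⊕ Fin m) F // IsInvF U ψ},
        ψ₀.1 = (u : Matrix (Fin m ⊕ Fin m) (Fin m ⊕ Fin m) F)ᵀ * Matrix.J (Fin m) F *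
          (u : Matrix (Fin m ⊕ Fin m) (Fin m ⊕ Fin m) F) := ⟨⟨_, hInv⟩, rfl⟩
    have hsmem : (u : Matrix (Fin m ⊕ Fin m) (Fin m ⊕ Fin m) F) * K ψ₀ ∈
        Matrix.symplecticGroup (Fin m) F := by
      rw [SymplecticGroup.mem_iff']
      calc ((u : Matrix (Fin m ⊕ Fin m) (Fin m ⊕ Fin m) F) * K ψ₀)ᵀ * Matrix.J (Fin m) F *
            ((u : Matrix (Fin m ⊕ Fin m) (Fin m ⊕ Fin m) F) * K ψ₀)
          = (K ψ₀)ᵀ * ((u : Matrix (Fin m ⊕ Fin m) (Fin m ⊕ Fin m) F)ᵀ * Matrix.J (Fin m) F *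
              (u : Matrix (Fin m ⊕ Fin m) (Fin m ⊕ Fin m) F)) * K ψ₀ := by
            rw [Matrix.transpose_mul]; simp only [Matrix.mul_assoc]
        _ = (K ψ₀)ᵀ * ψ₀.1 * K ψ₀ := by rw [← hψ₀]
        _ = Matrix.J (Fin m) F := hKJ ψ₀
    refine ⟨ψ₀, Subtype.ext ((hfdef ψ₀).trans ?_)⟩
    refine hconj _ _ ⟨_, hsmem⟩ ?_
    show (u : Matrix (Fin m ⊕ Fin m) (Fin m ⊕ Fin m) F) * K ψ₀ * (H ψ₀ * U * K ψ₀)
      = (g : Matrix (Fin m ⊕ Fin m) (Fin m ⊕ Fin m) F) *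
        ((u : Matrix (Fin m ⊕ Fin m) (Fin m ⊕ Fin m) F) * K ψ₀)
    calc (u : Matrix (Fin m ⊕ Fin m) (Fin m ⊕ Fin m) F) * K ψ₀ * (H ψ₀ * U * K ψ₀)
        = (u : Matrix (Fin m ⊕ Fin m) (Fin m ⊕ Fin m) F) * (K ψ₀ * H ψ₀) * U * K ψ₀ := by
          simp only [Matrix.mul_assoc]
      _ = ((u : Matrix (Fin m ⊕ Fin m) (Fin m ⊕ Fin m) F) * U) * K ψ₀ := by
          rw [hKH, Matrix.mul_one]
      _ = (g : Matrix (Fin m ⊕ Fin m) (Fin m ⊕ Fin m) F) *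
          ((u : Matrix (Fin m ⊕ Fin m) (Fin m ⊕ Fin m) F) * K ψ₀) := by
          rw [hu', Matrix.mul_assoc]
  have hbij : Function.Bijective (Quot.lift f hf) := by
    constructor
    · intro a b
      induction a using Quot.ind with | _ ψ =>
      induction b using Quot.ind with | _ ψ' =>
      intro h
      exact Quot.sound (hinj ψ ψ' h)
    · intro x
      obtain ⟨ψ, hψx⟩ := hsurj x
      exact ⟨Quot.mk _ ψ, hψx⟩
  exact (Nat.card_congr (Equiv.ofBijective _ hbij)).symm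

end Cfsg.Agent.Helper42.SPCCLS
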