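import Mathlib
import Cfsg.Agent.Helper44.SPCDefs

/-!
# CALL S2676 (helper44), piece SQRT: a square root of `1 + z`, `z` nilpotent, as a polynomial in `z`
-/

set_option autoImplicit false

namespace Cfsg.Agent.Helper42.SPCSQRT

open Matrix Cfsg.Agent.Helper21.JCent Cfsg.Agent.Helper44.UC Cfsg.Agent.Helper44.SPC

/-- Newton iteration: a polynomial `f ≡ 1 (mod X)` with `f² ≡ 1 + X (mod X^(n+1))`. -/
theorem spc_sqrt_poly {F : Type*} [Field F] (h2 : (2 : F) ≠ 0) (n : ℕ) :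
    ∃ f : Polynomial F, Polynomial.X ∣ f - 1 ∧
      Polynomial.X ^ (n + 1) ∣ f ^ 2 - (1 + Polynomial.X) := by
  induction n with
  | zero =>
    refine ⟨1, by simp, ⟨-1, ?_⟩⟩
    ring
  | succ n ih =>
    obtain ⟨f, ⟨u, hu⟩, ⟨g, hg⟩⟩ := ih
    have hc : Polynomial.C (2⁻¹ : F) * 2 = 1 := by
      have h22 : (2 : Polynomial F) = Polynomial.C (2 : F) := (Polynomial.C_ofNat 2).symm
      rw [h22, ← Polynomial.C_mul, inv_mul_cancel₀ h2, Polynomial.C_1]
    refine ⟨f - Polynomial.C (2⁻¹ : F) * (f ^ 2 - (1 + Polynomial.X)), ?_, ?_⟩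
    · refine ⟨u - Polynomial.C (2⁻¹ : F) * Polynomial.X ^ n * g, ?_⟩
      rw [hg]
      linear_combination hu
    · refine ⟨-(u * g) + Polynomial.C (2⁻¹ : F) ^ 2 * Polynomial.X ^ n * g ^ 2, ?_⟩
      have e1 : (f - Polynomial.C (2⁻¹ : F) * (f ^ 2 - (1 + Polynomial.X))) ^ 2
            - (1 + Polynomial.X)
          = (f ^ 2 - (1 + Polynomial.X)) * (1 - f)
            + Polynomial.C (2⁻¹ : F) ^ 2 * (f ^ 2 - (1 + Polynomial.X)) ^ 2 := by
        linear_combination (-(f * (f ^ 2 - (1 + Polynomial.X)))) * hc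
      have e2 : 1 - f = -(Polynomial.X * u) := by linear_combination -hu
      rw [e1, hg, e2]
      ring

/-- SQRT: a square root of `1 + z`, `z` nilpotent, as a polynomial in `z`. -/
theorem spc_sqrt {F : Type*} [Field F] (h2 : (2 : F) ≠ 0) {A : Type*} [Ring A] [Algebra F A]
    (z : A) (hz : IsNilpotent z) :
    ∃ f : Polynomial F, (Polynomial.aeval z f) ^ 2 = 1 + z := by
  obtain ⟨n, hn⟩ := hz
  obtain ⟨f, -, g, hg⟩ := spc_sqrt_poly h2 n
  refine ⟨f, ?_⟩
  have h := congrArg (Polynomial.aeval z) hg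
  simp only [map_sub, map_pow, map_add, map_one, Polynomial.aeval_X, map_mul] at h
  have hz1 : z ^ (n + 1) = 0 := by rw [pow_succ, hn, zero_mul]
  rw [hz1, zero_mul] at h
  exact sub_eq_zero.mp h

end Cfsg.Agent.Helper42.SPCSQRT
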