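import Mathlib
import Cfsg.Prelude.Def_GeometricClasses
import Cfsg.Agent.Helper96.T5Defs
import Cfsg.Agent.Helper45.Eich
import Cfsg.Agent.Helper98.OPar

/-!
# Helper42: piece PROP of CALL S5704 (helper96)

`Ω` contains an element (an Eichler transformation) which is not a Kronecker product.
-/

set_option autoImplicit false
set_option linter.unusedVariables false
set_option linter.unusedSimpArgs false

namespace Cfsg.Agent.Helper42.T5PROP

open Matrix Cfsg Cfsg.Geo Cfsg.Agent.Helper71.T4 Cfsg.Agent.Helper96.T5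
open scoped Kronecker

variable {F : Type*} [Field F] {a b : ℕ}

variable {J₁ : Matrix (Fin a) (Fin a) F} {J₂ : Matrix (Fin b) (Fin b) F}
  {Q : (Fin a × Fin b → F) → F}

/-- PIECE PROP: `Ω` contains an element which is not a Kronecker product. -/
theorem prop [Fintype F] (hT : TQ J₁ J₂ Q) (ha : 2 ≤ a) (hb : 3 ≤ b) :
    ∃ g : GL (Fin a × Fin b) F, g ∈ omegaGL Q ∧ ¬ IsKron g.1 := by
  classical
  obtain ⟨u, hu⟩ : ∃ u : Fin a → F, u ≠ 0 := ⟨Pi.single ⟨0, by omega⟩ 1, by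
    intro h
    have := congrFun h ⟨0, by omega⟩
    simp at this⟩
  have hk₀ : 0 < b := by omega
  obtain ⟨x, hxdef⟩ : ∃ x : Fin b → F, x = Pi.single ⟨0, hk₀⟩ 1 := ⟨_, rfl⟩
  have hxk : x ⟨0, hk₀⟩ = 1 := by rw [hxdef]; simp
  have hx : x ≠ 0 := by
    intro h
    rw [h] at hxk
    simp at hxk
  obtain ⟨y, hy0, hyx, hyx'⟩ := exists_perp2 hb (J₂ *ᵥ x) x
  have hyk : y ⟨0, hk₀⟩ = 0 := by
    rw [hxdef, dotProduct_single, mul_one] at hyx'
    exact hyx'
  have hind : ∀ c : F, y ≠ c • x := by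
    intro c hc
    have h1 := congrFun hc ⟨0, hk₀⟩
    rw [hyk, Pi.smul_apply, hxk, smul_eq_mul, mul_one] at h1
    rw [← h1, zero_smul] at hc
    exact hy0 hc
  have hyx0 : bf J₂ y x = 0 := hyx
  have hxy : bf J₂ x y = 0 := by rw [bf_swap J₂ hT.alt₂, hyx0, neg_zero]
  have hU : (Helper98.op_qf Q hT.nq) (pt u x) = 0 := hT.pure u x
  have hUB : QuadraticMap.polar ⇑(Helper98.op_qf Q hT.nq) (pt u x) (pt u y) = 0 := by
    show QuadraticMap.polar Q (pt u x) (pt u y) = 0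
    rw [hT.polar, bf_kron_pt, hT.alt₁, zero_mul]
  have hcard : 5 ≤ Fintype.card (Fin a × Fin b) := by
    simp only [Fintype.card_prod, Fintype.card_fin]
    nlinarith
  have hmem := Helper45.eichO_mem_omega (Helper98.op_qf Q hT.nq) (Helper98.op_qf_nondeg Q hT.nq)
    hcard (pt u x) (pt u y) hU hUB
  refine ⟨(Helper45.eichO (Helper98.op_qf Q hT.nq) (pt u x) (pt u y) hU hUB : GL _ F),
    ⟨_, hmem, rfl⟩, ?_⟩
  rintro ⟨A, C, hAC⟩
  have hmat : ((Helper45.eichO (Helper98.op_qf Q hT.nq) (pt u x) (pt u y) hU hUB :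
      GL (Fin a × Fin b) F) : Matrix (Fin a × Fin b) (Fin a × Fin b) F)
      = Helper45.eichMat (Helper98.op_qf Q hT.nq) (pt u x) (pt u y) := rfl
  have key : ∀ (s : Fin a → F) (w : Fin b → F), pt (A *ᵥ s) (C *ᵥ w) =
      pt s w + (bf J₁ u s * bf J₂ y w) • pt u x - (bf J₁ u s * bf J₂ x w) • pt u y := by
    intro s w
    rw [← kron_mulVec_pt, ← hAC]
    erw [hmat]
    rw [Helper45.eichMat_mulVec, Helper44.eich]
    show pt s w + (QuadraticMap.polar Q (pt u y) (pt s w) -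
      Q (pt u y) * QuadraticMap.polar Q (pt u x) (pt s w)) • pt u x -
      QuadraticMap.polar Q (pt u x) (pt s w) • pt u y = _
    rw [hT.polar, hT.polar, hT.pure, bf_kron_pt, bf_kron_pt, zero_mul, sub_zero]
  have keyc : ∀ (s : Fin a → F) (w : Fin b → F) (i : Fin a) (k : Fin b),
      (A *ᵥ s) i * (C *ᵥ w) k = s i * w k + (bf J₁ u s * bf J₂ y w) * (u i * x k)
        - (bf J₁ u s * bf J₂ x w) * (u i * y k) := by
    intro s w i k
    have h := congrFun (key s w) (i, k)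
    simpa [pt] using h
  obtain ⟨i₀, hi₀⟩ : ∃ i, u i ≠ 0 := by
    by_contra h
    push Not at h
    exact hu (funext h)
  -- the scalars
  have e1 := keyc u x i₀ ⟨0, hk₀⟩
  simp only [hT.alt₁, hxk, zero_mul, mul_zero, add_zero, sub_zero, mul_one] at e1
  have e2 : ∀ (w : Fin b → F) (k : Fin b), (A *ᵥ u) i₀ * (C *ᵥ w) k = u i₀ * w k := by
    intro w k
    have h := keyc u w i₀ k
    simp only [hT.alt₁, zero_mul, mul_zero, add_zero, sub_zero] at h
    exact h
  have e3 : ∀ (s : Fin a → F), (A *ᵥ s) i₀ * (C *ᵥ x) ⟨0, hk₀⟩ = s i₀ := by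
    intro s
    have h := keyc s x i₀ ⟨0, hk₀⟩
    simp only [hyx0, hT.alt₂, hxk, mul_zero, zero_mul, add_zero, sub_zero, mul_one] at h
    exact h
  obtain ⟨s, hs⟩ := exists_bf_eq_one J₁ hT.det₁ u hu
  obtain ⟨w, hw⟩ := exists_bf_eq_one J₂ hT.det₂ x hx
  apply hind (bf J₂ y w)
  funext k
  have h := keyc s w i₀ k
  rw [hs, hw, one_mul, one_mul] at h
  have h2 := e2 w k
  have h3 := e3 s
  have hne : u i₀ * u i₀ ≠ 0 := mul_ne_zero hi₀ hi₀
  have h4 : u i₀ * u i₀ * (bf J₂ y w * x k - y k) = 0 := by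
    linear_combination (-(u i₀)) * h - (A *ᵥ s) i₀ * (C *ᵥ w) k * e1
      + (A *ᵥ u) i₀ * (C *ᵥ w) k * h3 + s i₀ * h2
  have h5 := (mul_eq_zero.mp h4).resolve_left hne
  rw [Pi.smul_apply, smul_eq_mul]
  linear_combination -h5

end Cfsg.Agent.Helper42.T5PROP
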