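import Mathlib
import Cfsg.Agent.Helper96.T5Defs

/-!
# Helper42: piece SCE1 of CALL S5704 (helper96)

Every element of the additive group `𝔖` is alternating (the proof is characteristic free).
-/

set_option autoImplicit false
set_option linter.unusedVariables false
set_option linter.unusedSimpArgs false

namespace Cfsg.Agent.Helper42.T5SCE1

open Matrix Cfsg.Agent.Helper71.T4 Cfsg.Agent.Helper96.T5
open scoped Kronecker

variable {F : Type*} [Field F] {a b : ℕ}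

/-- PIECE SCE1: characteristic two, `a ≥ 3`: every `A ∈ 𝔖` is alternating. -/
theorem sce1 (J₁ : Matrix (Fin a) (Fin a) F) (halt : ∀ x, bf J₁ x x = 0) (hdet : J₁.det ≠ 0)
    (ha : 3 ≤ a) (h2 : (2 : F) = 0) (𝔖 : AddSubgroup (Matrix (Fin a) (Fin a) F))
    (hconj : ∀ (e : Fin a → F) (c : F) (A : Matrix (Fin a) (Fin a) F), A ∈ 𝔖 →
      tv J₁ e c * A * tv J₁ e (-c) ∈ 𝔖)
    (hadj : ∀ A ∈ 𝔖, ∃ κ : F, A + adj J₁ A = κ • (1 : Matrix (Fin a) (Fin a) F))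
    (hpair : ∀ A ∈ 𝔖, ∀ A' ∈ 𝔖, ∃ κ : F,
      adj J₁ A * A' + adj J₁ A' * A = κ • (1 : Matrix (Fin a) (Fin a) F)) :
    ∀ A ∈ 𝔖, ∀ u : Fin a → F, bf J₁ (A *ᵥ u) u = 0 := by
  intro A hA e
  by_contra hq0
  have sw := bf_swap J₁ halt
  obtain ⟨v, hv⟩ : ∃ v, A *ᵥ e = v := ⟨_, rfl⟩
  obtain ⟨q, hq⟩ : ∃ q, bf J₁ v e = q := ⟨_, rfl⟩
  rw [hv, hq] at hq0
  have hev : bf J₁ e v = -q := by rw [sw, hq]
  obtain ⟨κ, hκ⟩ := hadj A hA
  have adjl : ∀ (M : Matrix (Fin a) (Fin a) F) (z y : Fin a → F),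
      bf J₁ (adj J₁ M *ᵥ z) y = bf J₁ z (M *ᵥ y) := by
    intro M z y
    rw [sw, ← bf_adj J₁ hdet, sw (M *ᵥ y) z, neg_neg]
  have S1 : ∀ x y, bf J₁ (A *ᵥ x) y = κ * bf J₁ x y - bf J₁ x (A *ᵥ y) := by
    intro x y
    rw [bf_adj J₁ hdet]
    have h : adj J₁ A = κ • 1 - A := by rw [← hκ]; abel
    rw [h, Matrix.sub_mulVec, Matrix.smul_mulVec, Matrix.one_mulVec, bf_sub_right, bf_smul_right]
  -- the element `E`
  obtain ⟨E, hEdef⟩ : ∃ E, E = tv J₁ e 1 * A * tv J₁ e (-1) - A := ⟨_, rfl⟩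
  have hE𝔖 : E ∈ 𝔖 := by rw [hEdef]; exact 𝔖.sub_mem (hconj e 1 A hA) hA
  have hE : ∀ w, E *ᵥ w = -(bf J₁ w e) • v + ((κ - q) * bf J₁ w e - bf J₁ w v) • e := by
    intro w
    simp only [hEdef, Matrix.sub_mulVec, ← Matrix.mulVec_mulVec, tv_mulVec, Matrix.mulVec_add,
      Matrix.mulVec_smul, bf_add_left, bf_smul_left, S1 w e, hv, hq]
    module
  -- the vector `e₀`
  obtain ⟨e₀, he₀, h1, h2'⟩ := exists_perp2 ha (J₁ *ᵥ e) (J₁ *ᵥ v)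
  have he₀e : bf J₁ e₀ e = 0 := h1
  have he₀v : bf J₁ e₀ v = 0 := h2'
  have hee₀ : bf J₁ e e₀ = 0 := by rw [sw, he₀e, neg_zero]
  have hve₀ : bf J₁ v e₀ = 0 := by rw [sw, he₀v, neg_zero]
  obtain ⟨X, hXdef⟩ : ∃ X, X = tv J₁ (e + e₀) 1 * (tv J₁ e (-1) * (tv J₁ e₀ (-1) * E *
      tv J₁ e₀ (- -1)) * tv J₁ e (- -1)) * tv J₁ (e + e₀) (-1) := ⟨_, rfl⟩
  have hX𝔖 : X ∈ 𝔖 := by rw [hXdef]; exact hconj _ _ _ (hconj _ _ _ (hconj _ _ _ hE𝔖))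
  obtain ⟨R, hRdef⟩ : ∃ R, R = X - E := ⟨_, rfl⟩
  have hR𝔖 : R ∈ 𝔖 := by rw [hRdef]; exact 𝔖.sub_mem hX𝔖 hE𝔖
  have hR : ∀ w, R *ᵥ w = -(q * bf J₁ w e₀) • e - (q * bf J₁ w e) • e₀ := by
    intro w
    simp only [hRdef, hXdef, Matrix.sub_mulVec, ← Matrix.mulVec_mulVec, tv_mulVec, hE,
      Matrix.mulVec_add, Matrix.mulVec_smul, bf_add_left, bf_smul_left, bf_add_right,
      bf_smul_right, bf_neg_left, bf_neg_right, bf_sub_left, bf_sub_right, halt, he₀e, he₀v,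
      hee₀, hve₀, hq, hev, neg_neg]
    module
  obtain ⟨κ', hκ'⟩ := hpair E hE𝔖 R hR𝔖
  have star : ∀ x y, bf J₁ (R *ᵥ x) (E *ᵥ y) + bf J₁ (E *ᵥ x) (R *ᵥ y) = κ' * bf J₁ x y := by
    intro x y
    have h := congrArg (fun M => bf J₁ (M *ᵥ x) y) hκ'
    simp only [Matrix.add_mulVec, ← Matrix.mulVec_mulVec, Matrix.smul_mulVec, Matrix.one_mulVec,
      bf_add_left, bf_smul_left, adjl] at h
    exact h
  obtain ⟨y, hy⟩ := exists_bf_eq_one J₁ hdet e₀ he₀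
  have hye₀ : bf J₁ y e₀ = -1 := by rw [sw, hy]
  have hκ0 : κ' = 0 := by
    have h := star e₀ y
    simp only [hR, hE, bf_add_left, bf_smul_left, bf_add_right,
      bf_smul_right, bf_neg_left, bf_neg_right, bf_sub_left, bf_sub_right, halt, he₀e, he₀v,
      hee₀, hve₀, hq, hev, hy, hye₀] at h
    linear_combination -h
  have h := star v y
  simp only [hR, hE, bf_add_left, bf_smul_left, bf_add_right,
    bf_smul_right, bf_neg_left, bf_neg_right, bf_sub_left, bf_sub_right, halt, he₀e, he₀v,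
    hee₀, hve₀, hq, hev, hy, hye₀, hκ0] at h
  have h3 : q ^ 3 = 0 := by linear_combination -h
  exact hq0 (pow_eq_zero_iff (by norm_num) |>.mp h3)

end Cfsg.Agent.Helper42.T5SCE1
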