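import Mathlib

/-!
# CALL S5981 (helper98), piece PLANES: a matrix `M` with `M² = z` that is a similarity of
factor `z` of a diagonal form of even dimension
-/

set_option autoImplicit false
open Matrix Polynomial

namespace Cfsg.Agent.Helper42.THPLANES

variable {F : Type*} [Field F] [Fintype F]

/-- a binary diagonal form over a finite field of odd order represents everything -/
theorem exists_sq_add (h2 : (2 : F) ≠ 0) (c z : F) (hc : c ≠ 0) :
    ∃ α γ : F, α ^ 2 + c * γ ^ 2 = z := by
  have hF : ringChar F ≠ 2 := by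
    intro h
    apply h2
    have h' := ringChar.Nat.cast_ringChar (R := F)
    rw [h] at h'
    exact_mod_cast h'
  have hcard : Fintype.card F % 2 = 1 := FiniteField.odd_card_of_char_ne_two hF
  have hf : degree (X ^ 2 : F[X]) = 2 := degree_X_pow 2
  have hg : degree (C c * X ^ 2 + C 0 * X + C (-z) : F[X]) = 2 := degree_quadratic hc
  obtain ⟨α, γ, h⟩ := FiniteField.exists_root_sum_quadratic hf hg hcard
  refine ⟨α, γ, ?_⟩
  simp only [eval_pow, eval_X, eval_add, eval_mul, eval_C] at h
  linear_combination h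

omit [Fintype F] in
theorem diag_eq_smul_one {κ : Type*} [Fintype κ] [DecidableEq κ] (u : κ → F) (z : F)
    (h : ∀ i, u i = z) : Matrix.diagonal u = z • (1 : Matrix κ κ F) := by
  rw [Matrix.smul_one_eq_diagonal]
  congr 1
  funext i
  exact h i

omit [Fintype F] in
theorem diag_eq_zero {κ : Type*} [Fintype κ] [DecidableEq κ] (u : κ → F)
    (h : ∀ i, u i = 0) : Matrix.diagonal u = (0 : Matrix κ κ F) := by
  have : u = fun _ => 0 := funext h
  rw [this, Matrix.diagonal_zero]

omit [Fintype F] in
theorem diag_eq_smul_diag {κ : Type*} [Fintype κ] [DecidableEq κ] (u a : κ → F) (z : F)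
    (h : ∀ i, u i = z * a i) : Matrix.diagonal u = z • Matrix.diagonal a := by
  rw [← Matrix.diagonal_smul]
  congr 1
  funext i
  rw [h i]
  rfl

theorem planes_sum (h2 : (2 : F) ≠ 0) {κ : Type*} [Fintype κ] [DecidableEq κ] (a₁ a₂ : κ → F)
    (ha₁ : ∀ j, a₁ j ≠ 0) (ha₂ : ∀ j, a₂ j ≠ 0) (z : F) :
    ∃ M : Matrix (κ ⊕ κ) (κ ⊕ κ) F, M * M = z • (1 : Matrix (κ ⊕ κ) (κ ⊕ κ) F) ∧
      Mᵀ * Matrix.diagonal (Sum.elim a₁ a₂) * M = z • Matrix.diagonal (Sum.elim a₁ a₂) := by
  have key : ∀ j : κ, ∃ α γ : F, α ^ 2 + (a₂ j / a₁ j) * γ ^ 2 = z := fun j =>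
    exists_sq_add h2 _ z (div_ne_zero (ha₂ j) (ha₁ j))
  choose α γ hαγ using key
  refine ⟨Matrix.fromBlocks (Matrix.diagonal α) (Matrix.diagonal (fun j => a₂ j / a₁ j * γ j))
    (Matrix.diagonal γ) (Matrix.diagonal (fun j => -α j)), ?_, ?_⟩
  · rw [Matrix.fromBlocks_multiply]
    simp only [Matrix.diagonal_mul_diagonal, Matrix.diagonal_add]
    rw [← Matrix.fromBlocks_one, Matrix.fromBlocks_smul, smul_zero]
    congr 1
    · apply diag_eq_smul_one
      intro i
      linear_combination hαγ i
    · apply diag_eq_zero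
      intro i
      ring
    · apply diag_eq_zero
      intro i
      ring
    · apply diag_eq_smul_one
      intro i
      linear_combination hαγ i
  · rw [← Matrix.fromBlocks_diagonal, Matrix.fromBlocks_transpose, Matrix.fromBlocks_multiply,
      Matrix.fromBlocks_multiply]
    simp only [Matrix.diagonal_transpose, Matrix.diagonal_mul_diagonal, Matrix.diagonal_add,
      Matrix.mul_zero, add_zero, zero_add]
    rw [Matrix.fromBlocks_smul, smul_zero]
    congr 1
    · apply diag_eq_smul_diag
      intro i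
      have h1 := ha₁ i
      have h := hαγ i
      field_simp at h
      linear_combination h
    · apply diag_eq_zero
      intro i
      have h1 := ha₁ i
      field_simp
      ring
    · apply diag_eq_zero
      intro i
      have h1 := ha₁ i
      field_simp
      ring
    · apply diag_eq_smul_diag
      intro i
      have h1 := ha₁ i
      have h := hαγ i
      field_simp at h
      field_simp
      linear_combination (a₂ i) * h

/-- PLANES -/
theorem nsq_planes (h2 : (2 : F) ≠ 0) {n : ℕ} (hn : Even n) (a : Fin n → F) (ha : ∀ i, a i ≠ 0)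
    (z : F) (hz : z ≠ 0) :
    ∃ M : Matrix (Fin n) (Fin n) F, M * M = z • (1 : Matrix (Fin n) (Fin n) F) ∧
      Mᵀ * Matrix.diagonal a * M = z • Matrix.diagonal a := by
  obtain ⟨k, rfl⟩ := hn
  obtain ⟨e, he⟩ : ∃ e : Fin (k + k) ≃ Fin k ⊕ Fin k, e = finSumFinEquiv.symm := ⟨_, rfl⟩
  obtain ⟨M', hM1, hM2⟩ := planes_sum h2 (fun j => a (e.symm (Sum.inl j)))
    (fun j => a (e.symm (Sum.inr j))) (fun j => ha _) (fun j => ha _) z
  have hd : Matrix.diagonal a = (Matrix.diagonal (Sum.elim (fun j => a (e.symm (Sum.inl j)))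
      (fun j => a (e.symm (Sum.inr j))))).submatrix e e := by
    rw [Matrix.submatrix_diagonal_equiv]
    congr 1
    funext i
    show a i = Sum.elim (fun j => a (e.symm (Sum.inl j))) (fun j => a (e.symm (Sum.inr j))) (e i)
    rcases hi : e i with j | j
    · rw [Sum.elim_inl, ← hi, Equiv.symm_apply_apply]
    · rw [Sum.elim_inr, ← hi, Equiv.symm_apply_apply]
  refine ⟨M'.submatrix e e, ?_, ?_⟩
  · rw [Matrix.submatrix_mul_equiv, hM1]
    ext i j
    simp [Matrix.one_apply]
  · rw [hd, Matrix.transpose_submatrix, Matrix.submatrix_mul_equiv, Matrix.submatrix_mul_equiv,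
      hM2]
    rfl

end Cfsg.Agent.Helper42.THPLANES
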