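import Mathlib
import Cfsg.Agent.Helper84.THDIAGG
import Cfsg.Agent.Helper51.THNSQCONJ
import Cfsg.Agent.Helper80.THNEVEN
import Cfsg.Agent.Helper42.THPLANES

/-!
# CALL S5981 (helper98), piece G2 (core): every `x` with `x²` scalar is conjugate to a similarity
of a symmetric invertible Gram matrix.  The diagonalisation of involutions (piece INVSQ) is a
hypothesis here; `THG2.lean` plugs it in.
-/

set_option autoImplicit false
open Matrix Polynomial

namespace Cfsg.Agent.Helper42.THG2Core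

variable {F : Type*} [Field F] [Fintype F]

theorem good_two_core (h2 : (2 : F) ≠ 0) {n : ℕ} (G : Matrix (Fin n) (Fin n) F) (hGs : Gᵀ = G)
    (hG : G.det ≠ 0) (x : GL (Fin n) F) (z : F)
    (hx : ((x ^ 2 : GL (Fin n) F) : Matrix (Fin n) (Fin n) F) = z • (1 : Matrix (Fin n) (Fin n) F))
    (hINV : ∀ x : Matrix (Fin n) (Fin n) F, x * x = 1 →
      ∃ (h : GL (Fin n) F) (ε : Fin n → F), (∀ i, ε i = 1 ∨ ε i = -1) ∧
        x = (h : Matrix (Fin n) (Fin n) F) * Matrix.diagonal ε *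
          ((h⁻¹ : GL (Fin n) F) : Matrix (Fin n) (Fin n) F)) :
    ∃ (h : GL (Fin n) F) (c : F), c ≠ 0 ∧
      ((h⁻¹ * x * h : GL (Fin n) F) : Matrix (Fin n) (Fin n) F)ᵀ * G *
        ((h⁻¹ * x * h : GL (Fin n) F) : Matrix (Fin n) (Fin n) F) = c • G := by
  by_cases hn : n = 0
  · subst hn
    exact ⟨1, 1, one_ne_zero, Subsingleton.elim _ _⟩
  haveI : Nonempty (Fin n) := ⟨⟨0, Nat.pos_of_ne_zero hn⟩⟩
  obtain ⟨X, hX⟩ : ∃ X : Matrix (Fin n) (Fin n) F, X = (x : Matrix (Fin n) (Fin n) F) := ⟨_, rfl⟩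
  have hXX : X * X = z • (1 : Matrix (Fin n) (Fin n) F) := by
    rw [hX, ← hx, pow_two, Units.val_mul]
  have hXdet : X.det ≠ 0 := by
    rw [hX]
    exact ((Matrix.isUnit_iff_isUnit_det _).mp x.isUnit).ne_zero
  have hz0 : z ≠ 0 := by
    rintro rfl
    rw [zero_smul] at hXX
    have h := congrArg Matrix.det hXX
    rw [Matrix.det_mul, Matrix.det_zero] at h
    rcases mul_eq_zero.mp h with h | h <;> exact hXdet h
  obtain ⟨S, a, ha, hS⟩ := Cfsg.Agent.Helper84.THDIAGG.gram_diag h2 G hGs hG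
  have key : ∃ (k : GL (Fin n) F) (Y₀ : Matrix (Fin n) (Fin n) F),
      X = (k : Matrix (Fin n) (Fin n) F) * Y₀ * ((k⁻¹ : GL (Fin n) F) : Matrix (Fin n) (Fin n) F) ∧
      Y₀ᵀ * Matrix.diagonal a * Y₀ = z • Matrix.diagonal a := by
    by_cases hsq : IsSquare z
    · obtain ⟨w, hw⟩ := hsq
      have hw0 : w ≠ 0 := by
        rintro rfl
        apply hz0
        rw [hw, mul_zero]
      have h1 : (w⁻¹ • X) * (w⁻¹ • X) = 1 := by
        rw [Matrix.smul_mul, Matrix.mul_smul, hXX, smul_smul, smul_smul, hw]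
        have : w⁻¹ * w⁻¹ * (w * w) = 1 := by field_simp
        rw [this, one_smul]
      obtain ⟨k, ε, hε, hk⟩ := hINV _ h1
      refine ⟨k, w • Matrix.diagonal ε, ?_, ?_⟩
      · have e : X = w • (w⁻¹ • X) := by rw [smul_smul, mul_inv_cancel₀ hw0, one_smul]
        rw [e, hk, Matrix.mul_smul, Matrix.smul_mul]
      · rw [Matrix.transpose_smul, Matrix.diagonal_transpose, Matrix.smul_mul, Matrix.smul_mul,
          Matrix.mul_smul, smul_smul, Matrix.diagonal_mul_diagonal, Matrix.diagonal_mul_diagonal,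
          ← hw]
        congr 2
        funext i
        rcases hε i with h | h <;> rw [h] <;> ring
    · have hev := Cfsg.Agent.Helper80.THNEVEN.nsq_even z hsq X hXX
      obtain ⟨M, hM1, hM2⟩ := Cfsg.Agent.Helper42.THPLANES.nsq_planes h2 hev a ha z hz0
      obtain ⟨k, hk⟩ := Cfsg.Agent.Helper51.THNSQCONJ.nsq_conj z hsq X M hXX hM1
      exact ⟨k, M, hk, hM2⟩
  obtain ⟨k, Y₀, hk, hY⟩ := key
  refine ⟨k * S⁻¹, z, hz0, ?_⟩
  obtain ⟨Sm, hSm⟩ : ∃ Sm : Matrix (Fin n) (Fin n) F, Sm = (S : Matrix (Fin n) (Fin n) F) :=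
    ⟨_, rfl⟩
  obtain ⟨Si, hSi⟩ : ∃ Si : Matrix (Fin n) (Fin n) F,
      Si = ((S⁻¹ : GL (Fin n) F) : Matrix (Fin n) (Fin n) F) := ⟨_, rfl⟩
  obtain ⟨km, hkm⟩ : ∃ km : Matrix (Fin n) (Fin n) F, km = (k : Matrix (Fin n) (Fin n) F) :=
    ⟨_, rfl⟩
  obtain ⟨ki, hki⟩ : ∃ ki : Matrix (Fin n) (Fin n) F,
      ki = ((k⁻¹ : GL (Fin n) F) : Matrix (Fin n) (Fin n) F) := ⟨_, rfl⟩
  have hSS : Sm * Si = 1 := by rw [hSm, hSi]; exact Units.mul_inv S
  have hkk : ki * km = 1 := by rw [hkm, hki]; exact Units.inv_mul k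
  rw [← hSm] at hS
  rw [← hkm, ← hki] at hk
  have hmat : ((((k * S⁻¹)⁻¹ * x * (k * S⁻¹) : GL (Fin n) F)) : Matrix (Fin n) (Fin n) F) =
      Sm * Y₀ * Si := by
    have e : (k * S⁻¹)⁻¹ * x * (k * S⁻¹) = S * k⁻¹ * x * k * S⁻¹ := by
      rw [_root_.mul_inv_rev, inv_inv]
      simp only [mul_assoc]
    rw [e]
    simp only [Units.val_mul]
    rw [← hSm, ← hSi, ← hkm, ← hki, ← hX, hk]
    calc Sm * ki * (km * Y₀ * ki) * km * Si = Sm * (ki * km) * Y₀ * (ki * km) * Si := by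
          simp only [Matrix.mul_assoc]
      _ = Sm * Y₀ * Si := by rw [hkk, Matrix.mul_one, Matrix.mul_one]
  rw [hmat]
  have hSt : Siᵀ * Smᵀ = 1 := by rw [← Matrix.transpose_mul, hSS, Matrix.transpose_one]
  calc (Sm * Y₀ * Si)ᵀ * G * (Sm * Y₀ * Si)
      = Siᵀ * (Y₀ᵀ * (Smᵀ * G * Sm) * Y₀) * Si := by
        simp only [Matrix.transpose_mul, Matrix.mul_assoc]
    _ = Siᵀ * (z • (Smᵀ * G * Sm)) * Si := by rw [hS, hY]
    _ = z • ((Siᵀ * Smᵀ) * G * (Sm * Si)) := by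
        rw [Matrix.mul_smul, Matrix.smul_mul]
        simp only [Matrix.mul_assoc]
    _ = z • G := by rw [hSt, hSS, Matrix.one_mul, Matrix.mul_one]

end Cfsg.Agent.Helper42.THG2Core
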