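import Mathlib
import Cfsg.Agent.Helper42.THG2Core
import Cfsg.Agent.Helper99.THINVSQ

/-!
# CALL S5981 (helper98), piece G2: every `x` with `x²` scalar is conjugate to a similarity
of a symmetric invertible Gram matrix.
-/

set_option autoImplicit false
open Matrix Polynomial

namespace Cfsg.Agent.Helper42.THG2

variable {F : Type*} [Field F] [Fintype F]

/-- G2 (level 2: uses DIAGG INVSQ NSQCONJ NEVEN PLANES) -/
theorem good_two (h2 : (2 : F) ≠ 0) {n : ℕ} (G : Matrix (Fin n) (Fin n) F) (hGs : Gᵀ = G)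
    (hG : G.det ≠ 0) (x : GL (Fin n) F) (z : F)
    (hx : ((x ^ 2 : GL (Fin n) F) : Matrix (Fin n) (Fin n) F) = z • (1 : Matrix (Fin n) (Fin n) F)) :
    ∃ (h : GL (Fin n) F) (c : F), c ≠ 0 ∧
      ((h⁻¹ * x * h : GL (Fin n) F) : Matrix (Fin n) (Fin n) F)ᵀ * G *
        ((h⁻¹ * x * h : GL (Fin n) F) : Matrix (Fin n) (Fin n) F) = c • G := by
  exact Cfsg.Agent.Helper42.THG2Core.good_two_core h2 G hGs hG x z hx
    (fun y hy => Cfsg.Agent.Helper99.THINVSQ.invol_diag h2 y hy)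

end Cfsg.Agent.Helper42.THG2
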