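import Mathlib
import Cfsg.Prelude.Def_GeometricClasses
import Cfsg.Agent.Helper98.TFGen
import Cfsg.Agent.Helper61.TFINVCH
import Cfsg.Agent.Helper61.TFODDREC
import Cfsg.Agent.Helper46.TFSPXB

/-!
# CALL S5981 (helper98), piece ODDBAD: a bad element of order `r` when `ord_r(q)` is odd `> 1`
-/

set_option autoImplicit false
open Matrix Polynomial

namespace Cfsg.Agent.Helper42.THODDBAD

variable {F : Type*} [Field F] [Fintype F]

omit [Fintype F] in
theorem th_conj_charpoly {n : ℕ} (g : GL (Fin n) F) (N : Matrix (Fin n) (Fin n) F) :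
    (((g⁻¹ : GL (Fin n) F) : Matrix (Fin n) (Fin n) F) * N *
      (g : Matrix (Fin n) (Fin n) F)).charpoly = N.charpoly := by
  rw [Matrix.mul_assoc, Matrix.charpoly_mul_comm, Matrix.mul_assoc, Units.mul_inv, Matrix.mul_one]

/-- ODDBAD -/
theorem bad_odd (h2 : (2 : F) ≠ 0) {n : ℕ} (r : ℕ) (hr : r.Prime) (hrF : (r : F) ≠ 0) (hr2 : r ≠ 2)
    (hodd : Odd (orderOf ((Fintype.card F : ℕ) : ZMod r)))
    (h1 : 1 < orderOf ((Fintype.card F : ℕ) : ZMod r))
    (hle : orderOf ((Fintype.card F : ℕ) : ZMod r) ≤ n)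
    (H : Subgroup (GL (Fin n) F))
    (hH : ∀ y ∈ H, y ^ r = 1 → ((y⁻¹ : GL (Fin n) F) : Matrix (Fin n) (Fin n) F).charpoly =
      (y : Matrix (Fin n) (Fin n) F).charpoly) :
    ∃ x : GL (Fin n) F, x ∈ Cfsg.Geo.specialLinear (Fin n) F ∧ x ^ r = 1 ∧
      (∀ z : F, (x : Matrix (Fin n) (Fin n) F) ≠ z • (1 : Matrix (Fin n) (Fin n) F)) ∧
      ∀ g : GL (Fin n) F, g⁻¹ * x * g ∉ H := by
  haveI : Fact r.Prime := ⟨hr⟩
  obtain ⟨q, hq⟩ : ∃ q : ℕ, q = Fintype.card F := ⟨_, rfl⟩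
  rw [← hq] at hodd h1 hle
  obtain ⟨i, hi⟩ : ∃ i, i = orderOf ((q : ℕ) : ZMod r) := ⟨_, rfl⟩
  rw [← hi] at hodd h1 hle
  have hq1 : 1 ≤ q := by rw [hq]; exact Fintype.card_pos
  have hi0 : 0 < i := by omega
  have hn0 : 0 < n := by omega
  have hri : r ∣ q ^ i - 1 := by
    have h := pow_orderOf_eq_one ((q : ℕ) : ZMod r)
    rw [← hi] at h
    rw [← ZMod.natCast_eq_zero_iff, Nat.cast_sub (Nat.one_le_pow _ _ hq1), Nat.cast_pow, h,
      Nat.cast_one, sub_self]
  have hrq : ¬ r ∣ q - 1 := by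
    intro hd
    have h := (ZMod.natCast_eq_zero_iff (q - 1) r).mpr hd
    rw [Nat.cast_sub hq1, Nat.cast_one, sub_eq_zero] at h
    rw [h, orderOf_one] at hi
    omega
  obtain ⟨Φ, hm, hirr, hsep, hdvd, hΦ1, hord⟩ :=
    Cfsg.Agent.Helper98.TFGen.exists_irred_factor_dvd (F := F) r hr hrF
  have hki : Φ.natDegree ∣ i := hord i hi0 (by rw [← hq]; exact hri)
  have hkodd : Odd Φ.natDegree := Odd.of_dvd_nat hodd hki
  have hkn : Φ.natDegree ≤ n := le_trans (Nat.le_of_dvd hi0 hki) hle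
  obtain ⟨x0, hx0r, hx0c⟩ := Cfsg.Agent.Helper98.TFGen.exists_mat_charpoly r Φ hm hdvd n hkn
  obtain ⟨m, hm_def⟩ : ∃ m : ℕ, m = n - Φ.natDegree := ⟨_, rfl⟩
  rw [← hm_def] at hx0c
  -- elements of `F` with `d ^ r = 1` are trivial
  have hunit : ∀ d : F, d ^ r = 1 → d = 1 := by
    intro d hd
    have hd0 : d ≠ 0 := by
      rintro rfl
      rw [zero_pow hr.ne_zero] at hd
      exact zero_ne_one hd
    have hd2 : d ^ (q - 1) = 1 := by rw [hq]; exact FiniteField.pow_card_sub_one_eq_one d hd0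
    have h3 : orderOf d ∣ r := orderOf_dvd_of_pow_eq_one hd
    have h4 : orderOf d ∣ q - 1 := orderOf_dvd_of_pow_eq_one hd2
    have h5 : orderOf d = 1 := by
      rcases (Nat.dvd_prime hr).mp h3 with h | h
      · exact h
      · rw [h] at h4
        exact absurd h4 hrq
    exact orderOf_eq_one_iff.mp h5
  have hdet1 : x0.det = 1 := by
    apply hunit
    rw [← Matrix.det_pow, hx0r, Matrix.det_one]
  have hdetu : IsUnit x0.det := by rw [hdet1]; exact isUnit_one
  obtain ⟨x, hx⟩ : ∃ x : GL (Fin n) F, (x : Matrix (Fin n) (Fin n) F) = x0 :=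
    ⟨Matrix.GeneralLinearGroup.mk'' x0 hdetu, rfl⟩
  have hxr : x ^ r = 1 := by
    apply Units.ext
    rw [Units.val_pow_eq_pow_val, hx, hx0r]
    rfl
  have hX1 : (X - 1 : F[X]) ≠ 0 := by
    have := X_sub_C_ne_zero (1 : F)
    rwa [map_one] at this
  refine ⟨x, ?_, hxr, ?_, ?_⟩
  · show x ∈ (Matrix.GeneralLinearGroup.det : GL (Fin n) F →* Fˣ).ker
    rw [MonoidHom.mem_ker]
    apply Units.ext
    rw [Matrix.GeneralLinearGroup.val_det_apply, hx, hdet1]
    rfl
  · intro z hz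
    rw [hx] at hz
    have hzr : z ^ r = 1 := by
      have h := hx0r
      rw [hz, _root_.smul_pow, one_pow] at h
      have h' := congrFun (congrFun h ⟨0, hn0⟩) ⟨0, hn0⟩
      rw [Matrix.smul_apply, Matrix.one_apply_eq, smul_eq_mul, mul_one] at h'
      exact h'
    rw [hunit z hzr, one_smul] at hz
    rw [hz, Matrix.charpoly_one, Fintype.card_fin] at hx0c
    have hdv : Φ ∣ (X - 1 : F[X]) ^ n := ⟨_, hx0c⟩
    have hdv1 : Φ ∣ (X - 1 : F[X]) := hirr.prime.dvd_of_dvd_pow hdv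
    apply hΦ1
    obtain ⟨k, hk⟩ := hdv1
    have h0 : (X - 1 : F[X]).eval 1 = 0 := by simp
    rw [hk, eval_mul] at h0
    rcases mul_eq_zero.mp h0 with h | h
    · exact h
    · exfalso
      -- `k` is a nonzero constant: degrees
      have hdeg := congrArg natDegree hk
      have hk0 : k ≠ 0 := by
        rintro rfl
        rw [mul_zero] at hk
        exact hX1 hk
      rw [natDegree_mul hm.ne_zero hk0] at hdeg
      have hd1 : (X - 1 : F[X]).natDegree = 1 := by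
        have := natDegree_X_sub_C (1 : F)
        rwa [map_one] at this
      have hkpos : 0 < Φ.natDegree := hirr.natDegree_pos
      have hkd : k.natDegree = 0 := by omega
      rw [natDegree_eq_zero] at hkd
      obtain ⟨c, rfl⟩ := hkd
      rw [eval_C] at h
      rw [h, map_zero] at hk0
      exact hk0 rfl
  · intro g hg
    have hyr : (g⁻¹ * x * g) ^ r = 1 := by
      have e : g⁻¹ * x * g = g⁻¹ * x * g⁻¹⁻¹ := by rw [inv_inv]
      rw [e, conj_pow, hxr, mul_one, inv_inv, inv_mul_cancel]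
    have hch := hH _ hg hyr
    have e1 : ((g⁻¹ * x * g : GL (Fin n) F) : Matrix (Fin n) (Fin n) F).charpoly = x0.charpoly := by
      rw [Units.val_mul, Units.val_mul, hx]
      exact th_conj_charpoly g x0
    have e2 : (((g⁻¹ * x * g)⁻¹ : GL (Fin n) F) : Matrix (Fin n) (Fin n) F).charpoly =
        ((x⁻¹ : GL (Fin n) F) : Matrix (Fin n) (Fin n) F).charpoly := by
      have e : (g⁻¹ * x * g)⁻¹ = g⁻¹ * x⁻¹ * g := by
        rw [_root_.mul_inv_rev, _root_.mul_inv_rev, inv_inv, mul_assoc]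
      rw [e, Units.val_mul, Units.val_mul]
      exact th_conj_charpoly g ((x⁻¹ : GL (Fin n) F) : Matrix (Fin n) (Fin n) F)
    have hinv : (x : Matrix (Fin n) (Fin n) F) *
        ((x⁻¹ : GL (Fin n) F) : Matrix (Fin n) (Fin n) F) = 1 := Units.mul_inv x
    rw [hx] at hinv
    obtain ⟨c, hc0, hcc⟩ := Cfsg.Agent.Helper61.TFINVCH.charpoly_inv x0 _ hinv
    rw [e1, e2, hcc, hx0c, reverse_mul_of_domain,
      Cfsg.Agent.Helper46.TFSPXB.rev_X_sub_one_pow] at hch
    have hfin : C (c * (-1) ^ m) * Φ.reverse = Φ := by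
      apply mul_right_cancel₀ (pow_ne_zero m hX1)
      rw [← hch, map_mul]
      ring
    exact Cfsg.Agent.Helper61.TFODDREC.reverse_ne_of_odd h2 r (hr.odd_of_ne_two hr2) Φ hm hirr
      hdvd hΦ1 hkodd _ hfin

end Cfsg.Agent.Helper42.THODDBAD
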