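import Mathlib
import Cfsg.Agent.Helper97.TMDefs

set_option autoImplicit false

/-!
Helper library (helper42), piece FIXM of CALL S2415 (helper97): vectors fixed by the Levi embedding
(minus-type form).
-/

universe u

namespace Cfsg.Agent.Helper42

open Cfsg Matrix Cfsg.Agent.Helper45 Cfsg.Agent.Helper98 Cfsg.Agent.Helper97.TM

variable {k : ℕ} {F : Type u} [Field F] {a b : F}

/-- FIXM (three statements) -/
theorem tm_iotaM_fix_e (A : Matrix.SpecialLinearGroup (Fin k) F) (c : Fin k)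
    (h : (A : Matrix (Fin k) (Fin k) F) *ᵥ Pi.single c 1 = Pi.single c 1) :
    mv ⇑(QM k F a b) (iotaM k F a b A) (eM k F c) = eM k F c := by
  rw [mv_iotaM]
  have e1 : eM k F c ∘ Sum.inl ∘ Sum.inl = Pi.single c (1 : F) := by
    funext j
    simp [Pi.single_apply]
  have e2 : eM k F c ∘ Sum.inl ∘ Sum.inr = (0 : Fin k → F) := by
    funext j
    simp
  have e3 : eM k F c ∘ Sum.inr = (0 : Fin 2 → F) := by
    funext j
    simp
  rw [e1, e2, e3, h, Matrix.mulVec_zero]
  funext idx
  rcases idx with (l | l) | l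
  · simp [Pi.single_apply]
  · simp
  · simp

theorem tm_iotaM_fix_f (A : Matrix.SpecialLinearGroup (Fin k) F) (c : Fin k)
    (h : (A : Matrix (Fin k) (Fin k) F)ᵀ *ᵥ Pi.single c 1 = Pi.single c 1) :
    mv ⇑(QM k F a b) (iotaM k F a b A) (fM k F c) = fM k F c := by
  rw [mv_iotaM]
  have e1 : fM k F c ∘ Sum.inl ∘ Sum.inl = (0 : Fin k → F) := by
    funext j
    simp
  have e2 : fM k F c ∘ Sum.inl ∘ Sum.inr = Pi.single c (1 : F) := by
    funext j
    simp [Pi.single_apply]
  have e3 : fM k F c ∘ Sum.inr = (0 : Fin 2 → F) := by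
    funext j
    simp
  have h3 : ((A⁻¹ : Matrix.SpecialLinearGroup (Fin k) F) : Matrix (Fin k) (Fin k) F)ᵀ *ᵥ
      Pi.single c (1 : F) = Pi.single c 1 := by
    conv_lhs => rw [← h]
    rw [Matrix.mulVec_mulVec, ← Matrix.transpose_mul, ← Matrix.SpecialLinearGroup.coe_mul,
      mul_inv_cancel, Matrix.SpecialLinearGroup.coe_one, Matrix.transpose_one, Matrix.one_mulVec]
  rw [e1, e2, e3, h3, Matrix.mulVec_zero]
  funext idx
  rcases idx with (l | l) | l
  · simp
  · simp [Pi.single_apply]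
  · simp

theorem tm_iotaM_fix_z (A : Matrix.SpecialLinearGroup (Fin k) F) (j : Fin 2) :
    mv ⇑(QM k F a b) (iotaM k F a b A) (zM k F j) = zM k F j := by
  rw [mv_iotaM]
  have e1 : zM k F j ∘ Sum.inl ∘ Sum.inl = (0 : Fin k → F) := by
    funext l
    simp
  have e2 : zM k F j ∘ Sum.inl ∘ Sum.inr = (0 : Fin k → F) := by
    funext l
    simp
  rw [e1, e2, Matrix.mulVec_zero, Matrix.mulVec_zero]
  funext idx
  rcases idx with (l | l) | l
  · simp
  · simp
  · simp

end Cfsg.Agent.Helper42
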