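import Mathlib
import Cfsg.Agent.Helper97.TMDefs
import Cfsg.Agent.S0248
import Cfsg.Agent.Helper39.LawTransfer

/-! CALL S2415 (helper97), piece IOMM (helper42): the Levi image of `SL_k` lies in `Ω` for
`k ≥ 3` (minus-type form). -/

set_option autoImplicit false

universe u

namespace Cfsg.Agent.Helper42

open Cfsg Matrix Cfsg.Agent.Helper45 Cfsg.Agent.Helper98 Cfsg.Agent.Helper97.TM

variable {k : ℕ} {F : Type u} [Field F] {a b : F}

/-- IOMM -/
theorem tm_iotaM_mem_omega (hk : 3 ≤ k) (A : Matrix.SpecialLinearGroup (Fin k) F) :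
    iotaM k F a b A ∈ Omega F ⇑(QM k F a b) :=
  Helper39.perfect_map_mem_commutator (Cfsg.Agent.S0248.result k hk) (iotaM k F a b) A

end Cfsg.Agent.Helper42
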