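import Mathlib
import Cfsg.Agent.Helper97.TMDefs
import Cfsg.Agent.Helper97.TGTV

set_option autoImplicit false

/-!
Helper library (helper42), piece TVM of CALL S2415 (helper97): the Levi image of a transvection is
an Eichler transformation (minus-type form).
-/

universe u

namespace Cfsg.Agent.Helper42

open Cfsg Matrix Cfsg.Agent.Helper45 Cfsg.Agent.Helper98 Cfsg.Agent.Helper97.TM

variable {k : ℕ} {F : Type u} [Field F] {a b : F}

/-- TVM -/
theorem tm_iotaM_transvection (T : Matrix.SpecialLinearGroup (Fin k) F) (i j : Fin k)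
    (hij : i ≠ j) (c : F) (hT : (T : Matrix (Fin k) (Fin k) F) = Matrix.transvection i j c) :
    iotaM k F a b T = eichO (QM k F a b) (eM k F i) (c • fM k F j) (QM_eM i)
      (polar_eM_smul_fM i j hij c) := by
  have hinv : ((T⁻¹ : Matrix.SpecialLinearGroup (Fin k) F) : Matrix (Fin k) (Fin k) F) =
      Matrix.transvection i j (-c) := by
    have h1 : ((T⁻¹ : Matrix.SpecialLinearGroup (Fin k) F) : Matrix (Fin k) (Fin k) F) *
        (T : Matrix (Fin k) (Fin k) F) = 1 := by
      rw [← Matrix.SpecialLinearGroup.coe_mul, inv_mul_cancel, Matrix.SpecialLinearGroup.coe_one]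
    have h2 : Matrix.transvection i j c * Matrix.transvection i j (-c) =
        (1 : Matrix (Fin k) (Fin k) F) := by
      rw [Matrix.transvection_mul_transvection_same i j hij, add_neg_cancel,
        Matrix.transvection_zero]
    calc ((T⁻¹ : Matrix.SpecialLinearGroup (Fin k) F) : Matrix (Fin k) (Fin k) F)
        = ((T⁻¹ : Matrix.SpecialLinearGroup (Fin k) F) : Matrix (Fin k) (Fin k) F) *
            (Matrix.transvection i j c * Matrix.transvection i j (-c)) := by rw [h2, Matrix.mul_one]
      _ = Matrix.transvection i j (-c) := by rw [← Matrix.mul_assoc, ← hT, h1, Matrix.one_mul]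
  apply ext_mv
  intro x
  rw [mv_iotaM, hinv, hT, mv_eichO]
  unfold Helper44.eich
  rw [QM_smul_fM, QuadraticMap.polar_smul_left, polar_fM_left, polar_eM_left]
  funext idx
  rcases idx with (l | l) | l
  · simp only [Sum.elim_inl, Cfsg.Agent.Helper97.tg_tv_mulVec, Function.comp_apply, Pi.add_apply,
      Pi.sub_apply, Pi.smul_apply, eM_ee, fM_ee, smul_eq_mul, zero_mul, sub_zero, mul_zero]
    by_cases hk : l = i
    · simp [hk]
    · simp [hk]
  · simp only [Sum.elim_inl, Sum.elim_inr, Cfsg.Agent.Helper97.tg_tv_transpose_mulVec,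
      Function.comp_apply, Pi.add_apply,
      Pi.sub_apply, Pi.smul_apply, eM_ff, fM_ff, smul_eq_mul, zero_mul, sub_zero, mul_zero,
      add_zero]
    by_cases hk : l = j
    · simp [hk]
      ring
    · simp [hk]
  · simp only [Sum.elim_inr, Function.comp_apply, Pi.add_apply,
      Pi.sub_apply, Pi.smul_apply, eM_zz, fM_zz, smul_eq_mul, zero_mul, sub_zero, mul_zero,
      add_zero]

end Cfsg.Agent.Helper42
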