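import Mathlib
import Cfsg.Agent.Helper42.U3Lemmas

set_option autoImplicit false

/-!
# Isometries of a Hermitian plane over a finite field (helper42)

`plane` : an isometry `T` of a nondegenerate Hermitian plane over `GF(q^2)` satisfies
`T^(q+1) = 1`, or a `p`-power of `T` is a scalar of norm one, or `T` is diagonalisable with
eigenvalues `t₁, t₂`, `t₁ t₂^q = 1`.
-/

namespace Cfsg.Agent.Helper42.U3Plane

open Polynomial UForm UGroup UStruct U3Lemmas

universe u v

variable {F : Type u} [Field F] [Fintype F] (p a : ℕ) [Fact p.Prime] [CharP F p]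

theorem plane (ha : 1 ≤ a) (hF : Fintype.card F = (p ^ a) ^ 2) (σ : F →+* F)
    (hσ : ∀ c, σ c = c ^ (p ^ a)) {P : Type v} [AddCommGroup P] [Module F P]
    [FiniteDimensional F P] (hdim : Module.finrank F P = 2) (H : P → P → F) (hH : IsHerm σ H)
    (hnd : ∀ v, (∀ w, H v w = 0) → v = 0) (T : Module.End F P) (hT : UPres H T) (m : ℕ)
    (hm : 0 < m) (hTm : T ^ m = 1) :
    T ^ (p ^ a + 1) = 1 ∨
    (∃ (b : ℕ) (α : F), T ^ (p ^ b) = α • (1 : Module.End F P) ∧ α ^ (p ^ a + 1) = 1) ∨
    (∃ t₁ t₂ : F, t₁ * t₂ ^ (p ^ a) = 1 ∧ LinearMap.det T = t₁ * t₂ ∧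
       ∀ (j : ℕ) (c : F), t₁ ^ j = c → t₂ ^ j = c → T ^ j = c • (1 : Module.End F P)) := by
  classical
  have hp : p.Prime := Fact.out
  have hq2 := SpecPSU.two_le_q p a ha
  have hinv : IsInvol σ := isInvol_frob (p ^ a) hq2 hF σ hσ
  have hσσ := hinv.invol
  haveI : Nontrivial P := Module.nontrivial_of_finrank_pos (R := F) (by omega)
  obtain ⟨x₀, y₀, hxy⟩ : ∃ x y, H x y ≠ 0 := by
    obtain ⟨v, hv⟩ := exists_ne (0 : P)
    by_contra hcon
    push Not at hcon
    exact hv (hnd v (hcon v))
  have hnorm : ∀ (α : F) (S : Module.End F P), UPres H S → S = α • (1 : Module.End F P) →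
      α ^ (p ^ a + 1) = 1 := by
    intro α S hS hSα
    apply norm_one_of_eigen hH (p ^ a) hσ S hS α x₀ y₀ _ _ hxy
    · rw [hSα, LinearMap.smul_apply, Module.End.one_apply]
    · rw [hSα, LinearMap.smul_apply, Module.End.one_apply]
  by_cases hdec : UOrthDec H T
  · left
    obtain ⟨V₁, V₂, hc, h1, h2, hi1, hi2, horth⟩ := hdec
    have hsum := Submodule.finrank_add_eq_of_isCompl hc
    rw [hdim] at hsum
    have hn1 : Module.finrank F V₁ ≠ 0 := fun h => h1 (Submodule.finrank_eq_zero.mp h)
    have hn2 : Module.finrank F V₂ ≠ 0 := fun h => h2 (Submodule.finrank_eq_zero.mp h)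
    obtain ⟨μ₁, hμ₁, -⟩ := exists_eigen V₁ (by omega) T hi1
    obtain ⟨μ₂, hμ₂, -⟩ := exists_eigen V₂ (by omega) T hi2
    obtain ⟨hnd1, hnd2⟩ := nondeg_restrict hH hnd V₁ V₂ hc horth
    have e1 : μ₁ ^ (p ^ a + 1) = 1 := by
      obtain ⟨v, hv, hv0⟩ := Submodule.exists_mem_ne_zero_of_ne_bot h1
      obtain ⟨w, hw, hvw⟩ : ∃ w ∈ V₁, H v w ≠ 0 := by
        by_contra hcon
        push Not at hcon
        exact hv0 (hnd1 v hv hcon)
      exact norm_one_of_eigen hH (p ^ a) hσ T hT μ₁ v w (hμ₁ v hv) (hμ₁ w hw) hvw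
    have e2 : μ₂ ^ (p ^ a + 1) = 1 := by
      obtain ⟨v, hv, hv0⟩ := Submodule.exists_mem_ne_zero_of_ne_bot h2
      obtain ⟨w, hw, hvw⟩ : ∃ w ∈ V₂, H v w ≠ 0 := by
        by_contra hcon
        push Not at hcon
        exact hv0 (hnd2 v hv hcon)
      exact norm_one_of_eigen hH (p ^ a) hσ T hT μ₂ v w (hμ₂ v hv) (hμ₂ w hw) hvw
    apply LinearMap.ext
    intro x
    obtain ⟨x₁, hx₁, x₂, hx₂, rfl⟩ := exists_decomp V₁ V₂ hc x
    rw [map_add, pow_apply_of_eigen T μ₁ V₁ hμ₁ _ x₁ hx₁, pow_apply_of_eigen T μ₂ V₂ hμ₂ _ x₂ hx₂,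
      e1, e2, one_smul, one_smul]
    rfl
  · right
    obtain ⟨b, hb⟩ : ∃ b, b = m.factorization p := ⟨_, rfl⟩
    obtain ⟨a', ha'⟩ : ∃ a', a' = ordCompl[p] m := ⟨_, rfl⟩
    have hm0 : m ≠ 0 := hm.ne'
    have hmab : p ^ b * a' = m := by
      rw [hb, ha']
      exact Nat.ordProj_mul_ordCompl_eq_self m p
    have hpa' : ¬ p ∣ a' := by
      rw [ha']
      exact Nat.not_dvd_ordCompl hp hm0
    have ha'pos : 0 < a' := by
      rw [ha']
      exact Nat.ordCompl_pos p hm0
    obtain ⟨s, hs⟩ : ∃ s, s = T ^ (p ^ b) := ⟨_, rfl⟩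
    have hsa : s ^ a' = 1 := by rw [hs, ← pow_mul, hmab, hTm]
    have hss : s.IsSemisimple := by
      have hcast : ((a' : ℕ) : F) ≠ 0 := by
        rw [Ne, CharP.cast_eq_zero_iff F p]
        exact hpa'
      have hsep : (X ^ a' - C (1 : F) : F[X]).Separable :=
        separable_X_pow_sub_C 1 hcast one_ne_zero
      apply Module.End.isSemisimple_of_squarefree_aeval_eq_zero hsep.squarefree
      rw [map_sub, map_pow, aeval_X, aeval_C, hsa, map_one, sub_self]
    have hsT : Commute s T := by rw [hs]; exact (Commute.refl T).pow_left _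
    have hsH : UPres H s := by rw [hs]; exact hT.pow _
    obtain ⟨f, hf, hfM, hcase⟩ := ustruct hσσ hH hnd T hdec s hsT hsH a' ha'pos hsa hss
    have hscalar : ∀ α : F, s = α • (1 : Module.End F P) →
        (∃ (b : ℕ) (α : F), T ^ (p ^ b) = α • (1 : Module.End F P) ∧ α ^ (p ^ a + 1) = 1) := by
      intro α hα
      exact ⟨b, α, by rw [← hs, hα], hnorm α s hsH hα⟩
    rcases hcase with ⟨h0, h2⟩ | ⟨W, W', hcompl, hsW, hsW', -, -, -, hWW'⟩
    · left
      have hodd : Odd f.natDegree := galois_odd p a hF σ hσ f hf a' ha'pos hfM h2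
      have hdvd : f.natDegree ∣ 2 := by
        have := (SpStruct.kmod s f hf h0).1
        rwa [hdim] at this
      have hdeg : f.natDegree = 1 := by
        have hle := Nat.le_of_dvd (by norm_num) hdvd
        rw [Nat.odd_iff] at hodd
        omega
      obtain ⟨α, hα⟩ := scalar_of_deg_one s f hdeg h0
      exact hscalar α hα
    · have hsum := Submodule.finrank_add_eq_of_isCompl hcompl
      rw [hdim] at hsum
      have hdW : Module.finrank F W = 1 := by omega
      have hdW' : Module.finrank F W' = 1 := by omega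
      obtain ⟨k₁, hk₁, -⟩ := exists_eigen W hdW s hsW
      obtain ⟨k₂, hk₂, -⟩ := exists_eigen W' hdW' s hsW'
      by_cases hk : k₁ = k₂
      · left
        apply hscalar k₁
        apply LinearMap.ext
        intro v
        obtain ⟨w, hw, w', hw', rfl⟩ := exists_decomp W W' hcompl v
        rw [map_add, hk₁ w hw, hk₂ w' hw', ← hk, LinearMap.smul_apply, Module.End.one_apply,
          smul_add]
      · right
        have hcomm : ∀ v, s (T v) = T (s v) := fun v => by
          have := congrArg (fun g : Module.End F P => g v) hsT.eq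
          simpa [Module.End.mul_apply] using this
        have hTW : ∀ w ∈ W, T w ∈ W := by
          intro w hw
          obtain ⟨x, hx, x', hx', hxx⟩ := exists_decomp W W' hcompl (T w)
          have h3 : s (T w) = k₁ • T w := by rw [hcomm, hk₁ w hw, map_smul]
          rw [hxx, map_add, hk₁ x hx, hk₂ x' hx', smul_add] at h3
          have h4 : (k₂ - k₁) • x' = 0 := by
            rw [sub_smul]
            exact sub_eq_zero.mpr (add_left_cancel h3)
          rcases smul_eq_zero.mp h4 with h | h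
          · exact absurd (sub_eq_zero.mp h).symm hk
          · rw [hxx, h, add_zero]
            exact hx
        have hTW' : ∀ w ∈ W', T w ∈ W' := by
          intro w hw
          obtain ⟨x, hx, x', hx', hxx⟩ := exists_decomp W W' hcompl (T w)
          have h3 : s (T w) = k₂ • T w := by rw [hcomm, hk₂ w hw, map_smul]
          rw [hxx, map_add, hk₁ x hx, hk₂ x' hx', smul_add] at h3
          have h4 : (k₁ - k₂) • x = 0 := by
            rw [sub_smul]
            exact sub_eq_zero.mpr (add_right_cancel h3)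
          rcases smul_eq_zero.mp h4 with h | h
          · exact absurd (sub_eq_zero.mp h) hk
          · rw [hxx, h, zero_add]
            exact hx'
        obtain ⟨t₁, ht₁, hdet₁⟩ := exists_eigen W hdW T hTW
        obtain ⟨t₂, ht₂, hdet₂⟩ := exists_eigen W' hdW' T hTW'
        have hWne : W ≠ ⊥ := by
          intro h
          rw [h, finrank_bot] at hdW
          omega
        have hW'ne : W' ≠ ⊥ := by
          intro h
          rw [h, finrank_bot] at hdW'
          omega
        obtain ⟨w, hw, w', hw', hww'⟩ : ∃ w ∈ W, ∃ w' ∈ W', H w w' ≠ 0 := by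
          by_contra hcon
          push Not at hcon
          exact hdec ⟨W, W', hcompl, hWne, hW'ne, hTW, hTW', hcon⟩
        refine ⟨t₁, t₂, ?_, ?_, ?_⟩
        · have h3 := hT w w'
          rw [ht₁ w hw, ht₂ w' hw', hH.smul_left, hH.smul_right, hσ, ← mul_assoc] at h3
          exact mul_right_cancel₀ hww' (by rw [h3, one_mul])
        · rw [det_eq_of_isCompl T W W' hcompl hTW hTW', hdet₁, hdet₂]
        · intro j c h1 h2
          apply LinearMap.ext
          intro v
          obtain ⟨x, hx, x', hx', rfl⟩ := exists_decomp W W' hcompl v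
          rw [map_add, pow_apply_of_eigen T t₁ W ht₁ j x hx, pow_apply_of_eigen T t₂ W' ht₂ j x' hx',
            h1, h2, LinearMap.smul_apply, Module.End.one_apply, smul_add]

end Cfsg.Agent.Helper42.U3Plane
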