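import Mathlib
import Cfsg.Agent.Helper42.U3Plane

set_option autoImplicit false

/-!
# Upper bound for the spectrum of `PSU_3(q)`, `q` odd (helper42)

`upper` : the order of every element of `PSU_3(q)` divides one of `q + 1`, `p (q + 1) / d`,
`(q^2 - 1) / d`, `(q^2 - q + 1) / d`, where `d = gcd(3, q + 1)`.
-/

namespace Cfsg.Agent.Helper42.U3Upper

open Polynomial UForm UGroup UStruct UModels UTorus U3Lemmas ProjOrd

universe u v

variable {F : Type u} [Field F] [Fintype F] (p a : ℕ) [Fact p.Prime] [CharP F p]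

omit [Fact p.Prime] [CharP F p] in
/-- The torus of order `q^2 - q + 1`: consequences of `k^(q^3) = k⁻¹` and `N(k) = 1`. -/
theorem torus3_facts (hq2 : 2 ≤ p ^ a) (hF : Fintype.card F = (p ^ a) ^ 2) (K : Type v) [Field K]
    [Finite K] [Algebra F K] (hdim : Module.finrank F K = 3) (k : K) (hk0 : k ≠ 0)
    (hkn : k ^ ((p ^ a) ^ 3) = k⁻¹) (hnorm : Algebra.norm F k = 1) :
    k ^ ((p ^ a) ^ 2 - p ^ a + 1) = 1 ∧
      ∃ c : F, algebraMap F K c = k ^ (((p ^ a) ^ 2 - p ^ a + 1) / Nat.gcd 3 (p ^ a + 1)) := by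
  obtain ⟨Q, hQ⟩ : ∃ Q, Q = p ^ a := ⟨_, rfl⟩
  rw [← hQ] at hF hkn hq2 ⊢
  have h1 := FiniteField.algebraMap_norm_eq_prod_pow F K k
  rw [hnorm, map_one, hdim, Nat.card_eq_fintype_card, hF, Finset.prod_range_succ,
    Finset.prod_range_succ, Finset.prod_range_succ, Finset.prod_range_zero, one_mul, pow_zero,
    pow_one, pow_one] at h1
  have h2 : k ^ ((Q ^ 2) ^ 2) = (k⁻¹) ^ Q := by
    calc k ^ ((Q ^ 2) ^ 2) = k ^ (Q ^ 3 * Q) := by
          congr 1
          ring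
      _ = (k ^ (Q ^ 3)) ^ Q := pow_mul _ _ _
      _ = (k⁻¹) ^ Q := by rw [hkn]
  rw [h2] at h1
  have h3 : k ^ (Q ^ 2 + 1) = k ^ Q := by
    have : k ^ (Q ^ 2 + 1) = (k * k ^ (Q ^ 2) * (k⁻¹) ^ Q) * k ^ Q := by
      rw [mul_assoc, mul_assoc, ← mul_pow, inv_mul_cancel₀ hk0, one_pow, mul_one, ← pow_succ']
    rw [this, ← h1, one_mul]
  have hB := B_add Q (by omega)
  have h4 : k ^ (Q ^ 2 - Q + 1) = 1 := by
    have : k ^ (Q ^ 2 - Q + 1) * k ^ Q = 1 * k ^ Q := by rw [← pow_add, hB, h3, one_mul]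
    exact mul_right_cancel₀ (pow_ne_zero _ hk0) this
  refine ⟨h4, ?_⟩
  have hd := gcd_dvd_B Q hq2
  have hd2 := gcd_dvd_sq_sub_one Q (by omega)
  apply mem_range_of_pow_card
  rw [hF]
  have h5 : (k ^ ((Q ^ 2 - Q + 1) / Nat.gcd 3 (Q + 1))) ^ (Q ^ 2 - 1) = 1 := by
    obtain ⟨e, he⟩ := hd2
    rw [he, pow_mul, ← pow_mul k, Nat.div_mul_cancel hd, h4, one_pow]
  have h7 : ∀ y : K, y ^ (Q ^ 2 - 1) = 1 → y ^ (Q ^ 2) = y := by
    intro y hy
    have h6 : Q ^ 2 - 1 + 1 = Q ^ 2 := Nat.sub_add_cancel (Nat.one_le_pow 2 Q (by omega))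
    calc y ^ (Q ^ 2) = y ^ (Q ^ 2 - 1 + 1) := by rw [h6]
      _ = y := by rw [pow_succ, hy, one_mul]
  exact h7 _ h5

/-- The orthogonally decomposable case. -/
theorem dec_case (ha : 1 ≤ a) (hp2 : p ≠ 2) (hF : Fintype.card F = (p ^ a) ^ 2) (σ : F →+* F)
    (hσ : ∀ c, σ c = c ^ (p ^ a)) {V : Type v} [AddCommGroup V] [Module F V]
    [FiniteDimensional F V] (hV : Module.finrank F V = 3) (H : V → V → F) (hH : IsHerm σ H)
    (hnd : ∀ v, (∀ w, H v w = 0) → v = 0) (T : Module.End F V) (hT : UPres H T)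
    (hdet : LinearMap.det T = 1) (m : ℕ) (hm : 0 < m) (hTm : T ^ m = 1) (hdec : UOrthDec H T) :
    (∃ c : F, T ^ (p ^ a + 1) = c • (1 : Module.End F V)) ∨
    (∃ c : F, T ^ (p * ((p ^ a + 1) / Nat.gcd 3 (p ^ a + 1))) = c • (1 : Module.End F V)) ∨
    (∃ c : F, T ^ (((p ^ a) ^ 2 - 1) / Nat.gcd 3 (p ^ a + 1)) = c • (1 : Module.End F V)) := by
  classical
  have hp : p.Prime := Fact.out
  have hq2 := SpecPSU.two_le_q p a ha
  have hinv : IsInvol σ := isInvol_frob (p ^ a) hq2 hF σ hσ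
  have hσσ := hinv.invol
  haveI : Nontrivial V := Module.nontrivial_of_finrank_pos (R := F) (by omega)
  have hQ1 : ∀ c : F, c ≠ 0 → c ^ ((p ^ a) ^ 2 - 1) = 1 := fun c hc => by
    rw [← hF]
    exact FiniteField.pow_card_sub_one_eq_one c hc
  obtain ⟨L, P, hc, hdL, hdP, hiL, hiP, horth⟩ : ∃ L P : Submodule F V, IsCompl L P ∧
      Module.finrank F L = 1 ∧ Module.finrank F P = 2 ∧ (∀ v ∈ L, T v ∈ L) ∧ (∀ v ∈ P, T v ∈ P) ∧
      (∀ x ∈ L, ∀ y ∈ P, H x y = 0) := by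
    obtain ⟨V₁, V₂, hc, h1, h2, hi1, hi2, horth⟩ := hdec
    have hsum := Submodule.finrank_add_eq_of_isCompl hc
    rw [hV] at hsum
    have hn1 : Module.finrank F V₁ ≠ 0 := fun h => h1 (Submodule.finrank_eq_zero.mp h)
    have hn2 : Module.finrank F V₂ ≠ 0 := fun h => h2 (Submodule.finrank_eq_zero.mp h)
    by_cases h : Module.finrank F V₁ = 1
    · exact ⟨V₁, V₂, hc, h, by omega, hi1, hi2, horth⟩
    · refine ⟨V₂, V₁, hc.symm, by omega, by omega, hi2, hi1, ?_⟩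
      intro x hx y hy
      rw [hH.conj, horth y hy x hx, map_zero]
  obtain ⟨hndL, hndP⟩ := nondeg_restrict hH hnd L P hc horth
  obtain ⟨μ, hμ, hdetL⟩ := exists_eigen L hdL T hiL
  have hLne : L ≠ ⊥ := by
    intro h
    rw [h, finrank_bot] at hdL
    omega
  have hμn : μ ^ (p ^ a + 1) = 1 := by
    obtain ⟨v, hv, hv0⟩ := Submodule.exists_mem_ne_zero_of_ne_bot hLne
    obtain ⟨w, hw, hvw⟩ : ∃ w ∈ L, H v w ≠ 0 := by
      by_contra hcon
      push Not at hcon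
      exact hv0 (hndL v hv hcon)
    exact norm_one_of_eigen hH (p ^ a) hσ T hT μ v w (hμ v hv) (hμ w hw) hvw
  have hμ0 : μ ≠ 0 := by
    rintro rfl
    rw [zero_pow (by omega)] at hμn
    exact zero_ne_one hμn
  obtain ⟨T₂, hT₂def⟩ : ∃ T₂ : Module.End F P, T₂ = T.restrict hiP := ⟨_, rfl⟩
  obtain ⟨H₂, hH₂def⟩ : ∃ H₂ : P → P → F, H₂ = fun x y : P => H x y := ⟨_, rfl⟩
  have hH₂ : IsHerm σ H₂ := by
    rw [hH₂def]
    exact ⟨fun x y z => hH.add_left _ _ _, fun c x y => hH.smul_left _ _ _,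
      fun x y => hH.conj _ _⟩
  have hnd₂ : ∀ v : P, (∀ w : P, H₂ v w = 0) → v = 0 := by
    intro v hv
    apply Subtype.ext
    rw [hH₂def] at hv
    exact hndP v v.2 (fun y hy => hv ⟨y, hy⟩)
  have hT₂ : UPres H₂ T₂ := by
    rw [hH₂def, hT₂def]
    exact fun x y => hT x y
  have hpowP : ∀ (k : ℕ) (x : P), (T ^ k) (x : V) = ((T₂ ^ k) x : V) := fun k x => by
    rw [hT₂def]
    exact (restrict_pow_apply T P hiP k x).symm
  have hT₂m : T₂ ^ m = 1 := by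
    apply LinearMap.ext
    intro x
    apply Subtype.ext
    rw [← hpowP, hTm]
    rfl
  have hdet2 : μ * LinearMap.det T₂ = 1 := by
    rw [hT₂def, ← hdetL, ← det_eq_of_isCompl T L P hc hiL hiP, hdet]
  have hpowL := pow_apply_of_eigen T μ L hμ
  have hglue : ∀ (j : ℕ) (c : F), μ ^ j = c → T₂ ^ j = c • (1 : Module.End F P) →
      T ^ j = c • (1 : Module.End F V) := by
    intro j c h1 h2
    apply LinearMap.ext
    intro v
    obtain ⟨l, hl, x, hx, rfl⟩ := exists_decomp L P hc v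
    rw [map_add, hpowL j l hl, hpowP j ⟨x, hx⟩, h2, h1]
    simp
  obtain ⟨Q, hQ⟩ : ∃ Q, Q = p ^ a := ⟨_, rfl⟩
  rw [← hQ] at hq2 hμn hQ1 ⊢
  have hF' : Fintype.card F = Q ^ 2 := by rw [hQ]; exact hF
  obtain ⟨d, hd⟩ : ∃ d, d = Nat.gcd 3 (Q + 1) := ⟨_, rfl⟩
  have hd3 : d ∣ 3 := by rw [hd]; exact Nat.gcd_dvd_left _ _
  have hdq : d ∣ Q + 1 := by rw [hd]; exact Nat.gcd_dvd_right _ _
  have hdq2 : d ∣ Q ^ 2 - 1 := by rw [hd]; exact gcd_dvd_sq_sub_one Q (by omega)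
  rw [← hd]
  have hpl := U3Plane.plane p a ha hF σ hσ hdP H₂ hH₂ hnd₂ T₂ hT₂ m hm hT₂m
  rw [← hQ] at hpl
  rcases hpl with h | ⟨b, α, hb, hα⟩ | ⟨t₁, t₂, ht, hdetT₂, hpow⟩
  · left
    exact ⟨1, hglue _ 1 hμn (by rw [h, one_smul])⟩
  · right; left
    obtain ⟨mm, hmm⟩ : ∃ mm, mm = (Q + 1) / d := ⟨_, rfl⟩
    rw [← hmm]
    have h3mm : 3 * mm = (3 / d) * (Q + 1) := by rw [hmm]; exact mul_div_eq' d (Q + 1) 3 hdq hd3
    have hα3 : α ^ (3 * mm) = 1 := by rw [h3mm, mul_comm, pow_mul, hα, one_pow]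
    have hdetα : LinearMap.det T₂ ^ (p ^ b) = α ^ 2 := by
      have h3 := congrArg LinearMap.det hb
      rw [map_pow, LinearMap.det_smul, hdP, map_one, mul_one] at h3
      exact h3
    have hμα : μ ^ (p ^ b) * α ^ 2 = 1 := by
      rw [← hdetα, ← mul_pow, hdet2, one_pow]
    have hαμ : α ^ mm = μ ^ (mm * p ^ b) := by
      have h4 : μ ^ (mm * p ^ b) * α ^ (2 * mm) = 1 := by
        rw [mul_comm mm, pow_mul, pow_mul, ← mul_pow, hμα, one_pow]
      calc α ^ mm = α ^ mm * (μ ^ (mm * p ^ b) * α ^ (2 * mm)) := by rw [h4, mul_one]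
        _ = μ ^ (mm * p ^ b) * α ^ (3 * mm) := by
          rw [show 3 * mm = mm + 2 * mm by ring, pow_add]
          ring
        _ = μ ^ (mm * p ^ b) := by rw [hα3, mul_one]
    have hT1 : T ^ (mm * p ^ b) = μ ^ (mm * p ^ b) • (1 : Module.End F V) := by
      apply hglue _ _ rfl
      have h6 : T₂ ^ (mm * p ^ b) = α ^ mm • (1 : Module.End F P) := by
        rw [mul_comm, pow_mul, hb, _root_.smul_pow, one_pow]
      rw [h6, hαμ]
    have hu : ((μ⁻¹) ^ mm • T ^ mm) ^ (p ^ b) = 1 := by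
      rw [_root_.smul_pow, ← pow_mul, ← pow_mul, hT1, smul_smul, ← mul_pow, inv_mul_cancel₀ hμ0,
        one_pow, one_smul]
    have h3p : 3 ≤ p := by
      have := hp.two_le
      omega
    have hu' := SpStruct.unipotent_pow p _ b hu 1 (by rw [hV, pow_one]; exact h3p)
    rw [pow_one, _root_.smul_pow, ← pow_mul, ← pow_mul] at hu'
    refine ⟨μ ^ (mm * p), ?_⟩
    have h5 : μ ^ (mm * p) • ((μ⁻¹) ^ (mm * p) • T ^ (mm * p)) = μ ^ (mm * p) • (1 : Module.End F V) := by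
      rw [hu']
    rw [smul_smul, ← mul_pow, mul_inv_cancel₀ hμ0, one_pow, one_smul] at h5
    rw [mul_comm p mm]
    exact h5
  · right; right
    obtain ⟨j, hj⟩ : ∃ j, j = (Q ^ 2 - 1) / d := ⟨_, rfl⟩
    rw [← hj]
    have ht₁0 : t₁ ≠ 0 := by
      rintro rfl
      rw [zero_mul] at ht
      exact zero_ne_one ht
    have ht₂0 : t₂ ≠ 0 := by
      rintro rfl
      rw [zero_pow (by omega), mul_zero] at ht
      exact zero_ne_one ht
    have h3j : 3 * j = (3 / d) * (Q ^ 2 - 1) := by rw [hj]; exact mul_div_eq' d _ 3 hdq2 hd3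
    have hqj : (Q + 1) * j = ((Q + 1) / d) * (Q ^ 2 - 1) := by
      rw [hj]; exact mul_div_eq' d _ (Q + 1) hdq2 hdq
    have ht₂q : t₂ ^ Q = t₁⁻¹ := eq_inv_of_mul_eq_one_right ht
    have ht₂ : t₂ = (t₁⁻¹) ^ Q := by
      have h3 : t₂ ^ (Q ^ 2) = t₂ := by rw [← hF', FiniteField.pow_card]
      rw [← ht₂q, ← pow_mul, ← pow_two, h3]
    obtain ⟨c, hc⟩ : ∃ c, c = t₁ ^ j := ⟨_, rfl⟩
    have hc2 : t₂ ^ j = c := by
      have h4 : t₁ ^ (Q * j) * t₁ ^ j = 1 := by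
        rw [← pow_add, show Q * j + j = (Q + 1) * j by ring, hqj, mul_comm, pow_mul, hQ1 t₁ ht₁0,
          one_pow]
      rw [ht₂, ← pow_mul, inv_pow, hc]
      exact inv_eq_of_mul_eq_one_left (by rw [mul_comm]; exact h4)
    have hc3 : c * (c * c) = 1 := by
      rw [hc, ← pow_add, ← pow_add, show j + (j + j) = 3 * j by ring, h3j, mul_comm, pow_mul,
        hQ1 t₁ ht₁0, one_pow]
    have hμc : μ ^ j = c := by
      have h5 : μ = (t₁ * t₂)⁻¹ := by
        rw [← hdetT₂]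
        exact eq_inv_of_mul_eq_one_left hdet2
      rw [h5, inv_pow, mul_pow, ← hc, hc2]
      exact inv_eq_of_mul_eq_one_left hc3
    exact ⟨c, hglue j c hμc (hpow j c hc.symm hc2)⟩

/-- The orthogonally indecomposable case. -/
theorem indec_case (ha : 1 ≤ a) (hp2 : p ≠ 2) (hF : Fintype.card F = (p ^ a) ^ 2) (σ : F →+* F)
    (hσ : ∀ c, σ c = c ^ (p ^ a)) (g : Cfsg.SU 3 F (p ^ a))
    (hg : ¬ UOrthDec (hermStd σ 3) (toEnd g.1)) :
    orderOf (QuotientGroup.mk g : Cfsg.PSU 3 F (p ^ a)) ∣ p ∨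
      orderOf (QuotientGroup.mk g : Cfsg.PSU 3 F (p ^ a)) ∣
        ((p ^ a) ^ 2 - p ^ a + 1) / Nat.gcd 3 (p ^ a + 1) := by
  classical
  have hp : p.Prime := Fact.out
  have hq2 := SpecPSU.two_le_q p a ha
  have hinv : IsInvol σ := isInvol_frob (p ^ a) hq2 hF σ hσ
  have hσσ := hinv.invol
  haveI : Nonempty (Fin 3) := ⟨0⟩
  obtain ⟨N, hN⟩ : ∃ N, N = orderOf (QuotientGroup.mk g : Cfsg.PSU 3 F (p ^ a)) := ⟨_, rfl⟩
  obtain ⟨b, hb⟩ : ∃ b, b = N.factorization p := ⟨_, rfl⟩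
  obtain ⟨T, hT⟩ : ∃ T, T = toEnd g.1 := ⟨_, rfl⟩
  obtain ⟨s, hs⟩ : ∃ s, s = T ^ (p ^ b) := ⟨_, rfl⟩
  obtain ⟨M, f, hM, hsM, hf, hfM, hcase⟩ := SpecPSU.semisimple_data p a ha hF (le_refl 3) σ hσ g hg
    b (by rw [hb, hN]) s (by rw [hs, hT])
  rw [← hN]
  have hN0 : N ≠ 0 := by rw [hN]; exact (orderOf_pos _).ne'
  obtain ⟨a', ha'⟩ : ∃ a', a' = ordCompl[p] N := ⟨_, rfl⟩
  have hNab : p ^ b * a' = N := by
    rw [hb, ha']
    exact Nat.ordProj_mul_ordCompl_eq_self N p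
  have ha'pos : 0 < a' := by
    rw [ha']
    exact Nat.ordCompl_pos p hN0
  have key : ∀ k : ℕ, (∃ c : F, T ^ k = c • (1 : Module.End F (Fin 3 → F))) → N ∣ k := by
    intro k hk
    rw [hN]
    apply orderOf_dvd_of_pow_eq_one
    rw [UGroup.mk_pow_eq_one_iff (p ^ a) hq2 hF (le_refl 3), ← hT]
    exact hk
  obtain ⟨c₀, hc₀⟩ : ∃ c₀ : F, T ^ N = c₀ • (1 : Module.End F (Fin 3 → F)) := by
    rw [hT, hN]
    exact (UGroup.mk_pow_eq_one_iff (p ^ a) hq2 hF (le_refl 3) g _).mp (pow_orderOf_eq_one _)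
  have hdetT : LinearMap.det T = 1 := by rw [hT, det_toEnd]
  have hc₀0 : c₀ ≠ 0 := by
    rintro rfl
    have h1 : LinearMap.det (T ^ N) = 1 := by rw [map_pow, hdetT, one_pow]
    rw [hc₀, zero_smul, LinearMap.det_zero' (Pi.basisFun F (Fin 3))] at h1
    exact zero_ne_one h1
  have hQ1 : ∀ c : F, c ≠ 0 → c ^ ((p ^ a) ^ 2 - 1) = 1 := fun c hc => by
    rw [← hF]
    exact FiniteField.pow_card_sub_one_eq_one c hc
  have hcop : Nat.Coprime p ((p ^ a) ^ 2 - 1) := by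
    rw [Nat.Prime.coprime_iff_not_dvd hp]
    intro h
    have h1 : p ∣ (p ^ a) ^ 2 := dvd_pow (dvd_pow_self p (by omega)) two_ne_zero
    have h2 : 1 ≤ (p ^ a) ^ 2 := Nat.one_le_pow _ _ (by omega)
    have h3 : p ∣ 1 := by
      have := Nat.dvd_sub h1 h
      rwa [Nat.sub_sub_self h2] at this
    exact hp.one_lt.ne' (Nat.dvd_one.mp h3)
  rcases hcase with ⟨h0, h2⟩ | ⟨W, W', hcompl, -, -, -, -, -, hWW'⟩
  · have hdvd : f.natDegree ∣ 3 := by
      have := (SpStruct.kmod s f hf h0).1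
      rwa [Module.finrank_fin_fun] at this
    rcases (Nat.dvd_prime Nat.prime_three).mp hdvd with hdeg | hdeg
    · left
      obtain ⟨α, hα⟩ := scalar_of_deg_one s f hdeg h0
      have hα0 : α ≠ 0 := by
        rintro rfl
        rw [zero_smul] at hα
        rw [hα, zero_pow hM.ne'] at hsM
        exact zero_ne_one hsM
      have hu : (T ^ ((p ^ a) ^ 2 - 1)) ^ (p ^ b) = 1 := by
        rw [← pow_mul, mul_comm, pow_mul, ← hs, hα, _root_.smul_pow, one_pow, hQ1 α hα0, one_smul]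
      have h3p : 3 ≤ p := by
        have := hp.two_le
        omega
      have hu' := SpStruct.unipotent_pow p _ b hu 1
        (by rw [Module.finrank_fin_fun, pow_one]; exact h3p)
      rw [pow_one, ← pow_mul] at hu'
      have h3 : N ∣ ((p ^ a) ^ 2 - 1) * p := key _ ⟨1, by rw [hu', one_smul]⟩
      have h4 : N ∣ p ^ b := key _ ⟨α, by rw [← hs, hα]⟩
      have hcopN : Nat.Coprime N ((p ^ a) ^ 2 - 1) :=
        Nat.Coprime.coprime_dvd_left h4 (hcop.pow_left b)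
      exact hcopN.dvd_of_dvd_mul_left h3
    · right
      have hu : (T ^ (a' * ((p ^ a) ^ 2 - 1))) ^ (p ^ b) = 1 := by
        have e : a' * ((p ^ a) ^ 2 - 1) * p ^ b = N * ((p ^ a) ^ 2 - 1) := by
          rw [← hNab]
          ring
        rw [← pow_mul, e, pow_mul, hc₀, _root_.smul_pow, one_pow, hQ1 c₀ hc₀0, one_smul]
      have hnil := SpStruct.nilpotent_sub_one p _ b hu
      have hcomm : Commute (T ^ (a' * ((p ^ a) ^ 2 - 1)) - 1) s := by
        rw [hs]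
        exact ((Commute.refl T).pow_pow _ _).sub_left (Commute.one_left _)
      have h5 := (SpStruct.kmod s f hf h0).2 _ hcomm hnil 1 (by rw [Module.finrank_fin_fun, hdeg])
      rw [pow_one] at h5
      have h6 : T ^ (a' * ((p ^ a) ^ 2 - 1)) = 1 := sub_eq_zero.mp h5
      have h7 : N ∣ a' * ((p ^ a) ^ 2 - 1) := key _ ⟨1, by rw [h6, one_smul]⟩
      have hb0 : b = 0 := by
        rw [← hNab, mul_comm] at h7
        have h8 : p ^ b ∣ (p ^ a) ^ 2 - 1 := Nat.dvd_of_mul_dvd_mul_left ha'pos h7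
        by_contra hb0
        exact (Nat.Prime.coprime_iff_not_dvd hp).mp hcop ((dvd_pow_self p hb0).trans h8)
      have hsT : s = T := by rw [hs, hb0, pow_zero, pow_one]
      rw [hsT] at h0 hsM
      obtain ⟨k, hk⟩ := exists_root p 3 f hf hdvd
      have hdimK := FiniteField.finrank_extension F p 3
      have hKcard : ∀ x : FiniteField.Extension F p 3, x ^ ((p ^ a) ^ (2 * 3)) = x :=
        card_pow_eq p a hF _ 3 hdimK
      obtain ⟨hkM, hk0, hkinv, hk'⟩ := root_facts σ f M hM hfM k hk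
      obtain ⟨j₀, hj₀odd, hj₀⟩ := galois_core p a hF σ hσ 3 (by norm_num) hKcard k f hf hk (hk' h2)
      have hkn : k ^ ((p ^ a) ^ 3) = k⁻¹ :=
        pow_q_odd_inv (p ^ a) k 3 j₀ ⟨1, by norm_num⟩ hj₀odd hj₀ (hKcard k)
      obtain ⟨Ψ, hΨ⟩ := intertwine T (LinearMap.mul F (FiniteField.Extension F p 3) k) f hf h0
        (by rw [UTorus.aeval_mul, hk]; exact map_zero _) (by rw [Module.finrank_fin_fun, hdimK])
      have hS : T = (Ψ.symm : FiniteField.Extension F p 3 →ₗ[F] (Fin 3 → F)) ∘ₗ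
          LinearMap.mul F (FiniteField.Extension F p 3) k ∘ₗ
          (Ψ.symm.symm : (Fin 3 → F) →ₗ[F] FiniteField.Extension F p 3) := by
        apply LinearMap.ext
        intro x
        simp only [LinearMap.coe_comp, LinearEquiv.coe_coe, Function.comp_apply,
          LinearEquiv.symm_symm]
        rw [← hΨ, Ψ.symm_apply_apply]
      have hnorm : Algebra.norm F k = 1 := by
        rw [hS, LinearMap.det_conj] at hdetT
        rw [Algebra.norm_apply]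
        exact hdetT
      obtain ⟨-, c, hc⟩ := torus3_facts p a hq2 hF _ hdimK k hk0 hkn hnorm
      apply key
      refine ⟨c, ?_⟩
      apply (conj_pow_eq_smul_iff Ψ (LinearMap.mul F _ k) T (fun x => (hΨ x).symm) _ c).mp
      rw [mul_pow_eq, mul_eq_smul_iff, hc]
  · exfalso
    have hsum := Submodule.finrank_add_eq_of_isCompl hcompl
    rw [Module.finrank_fin_fun] at hsum
    omega

/-- **Upper bound for the spectrum of `PSU_3(q)`, `q` odd.** -/
theorem upper (ha : 1 ≤ a) (hp2 : p ≠ 2) (hF : Fintype.card F = (p ^ a) ^ 2)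
    (x : Cfsg.PSU 3 F (p ^ a)) :
    orderOf x ∣ p ^ a + 1 ∨ orderOf x ∣ p * ((p ^ a + 1) / Nat.gcd 3 (p ^ a + 1)) ∨
    orderOf x ∣ ((p ^ a) ^ 2 - 1) / Nat.gcd 3 (p ^ a + 1) ∨
    orderOf x ∣ ((p ^ a) ^ 2 - p ^ a + 1) / Nat.gcd 3 (p ^ a + 1) := by
  classical
  have hq2 := SpecPSU.two_le_q p a ha
  obtain ⟨σ, hσdef⟩ : ∃ σ : F →+* F, σ = iterateFrobenius F p a := ⟨_, rfl⟩
  have hσ : ∀ c, σ c = c ^ (p ^ a) := by
    intro c
    rw [hσdef, iterateFrobenius_def]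
  have hinv : IsInvol σ := isInvol_frob (p ^ a) hq2 hF σ hσ
  obtain ⟨g, rfl⟩ := QuotientGroup.mk_surjective x
  have key : ∀ k : ℕ, (∃ c : F, toEnd g.1 ^ k = c • (1 : Module.End F (Fin 3 → F))) →
      orderOf (QuotientGroup.mk g : Cfsg.PSU 3 F (p ^ a)) ∣ k := by
    intro k hk
    apply orderOf_dvd_of_pow_eq_one
    rw [UGroup.mk_pow_eq_one_iff (p ^ a) hq2 hF (le_refl 3)]
    exact hk
  by_cases hdec : UOrthDec (hermStd σ 3) (toEnd g.1)
  · have hm : toEnd g.1 ^ orderOf g = 1 := by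
      rw [← toEnd_coe_pow, pow_orderOf_eq_one]
      exact toEnd_one
    rcases dec_case p a ha hp2 hF σ hσ (Module.finrank_fin_fun F) (hermStd σ 3)
      (isHerm_hermStd σ hinv.invol 3) (hermStd_nondeg σ 3) (toEnd g.1)
      (upres_toEnd σ (p ^ a) hσ g) (det_toEnd g.1) (orderOf g) (orderOf_pos g) hm hdec
      with h | h | h
    · exact Or.inl (key _ h)
    · exact Or.inr (Or.inl (key _ h))
    · exact Or.inr (Or.inr (Or.inl (key _ h)))
  · rcases indec_case p a ha hp2 hF σ hσ g hdec with h | h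
    · exact Or.inr (Or.inl (h.trans (dvd_mul_right _ _)))
    · exact Or.inr (Or.inr (Or.inr h))

end Cfsg.Agent.Helper42.U3Upper
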