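import Mathlib
import Cfsg.Agent.Helper42.U3Upper

set_option autoImplicit false

/-!
# Lower bound for the spectrum of `PSU_3(q)` (helper42)

Elements of `PSU_3(q)` whose orders are multiples of `q + 1`, `p (q + 1) / d`, `(q^2 - 1) / d`
and `(q^2 - q + 1) / d`, `d = gcd(3, q + 1)`.
-/

namespace Cfsg.Agent.Helper42.U3Lower

open Polynomial UForm UGroup UStruct UModels UTorus U3Lemmas ProjOrd

universe u v

variable {F : Type u} [Field F] [Fintype F] (p a : ℕ) [Fact p.Prime] [CharP F p]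

omit [Fact p.Prime] [CharP F p] in
/-- A generator of the group of elements of norm one. -/
theorem exists_lam_gen (hq2 : 2 ≤ p ^ a) (hF : Fintype.card F = (p ^ a) ^ 2) :
    ∃ l : F, l ^ (p ^ a + 1) = 1 ∧ ∀ k : ℕ, l ^ k = 1 → p ^ a + 1 ∣ k := by
  obtain ⟨ζ, hζ, -⟩ := exists_gen (p ^ a) hF
  have hq := sq_sub_one (p ^ a) (by omega)
  refine ⟨(ζ : F) ^ (p ^ a - 1), ?_, ?_⟩
  · rw [← pow_mul, mul_comm, ← hq, ← hζ, ← Units.val_pow_eq_pow_val, pow_orderOf_eq_one]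
    rfl
  · intro k hk
    rw [← pow_mul, ← Units.val_pow_eq_pow_val] at hk
    have h1 : ζ ^ ((p ^ a - 1) * k) = 1 := Units.ext hk
    have h2 := orderOf_dvd_of_pow_eq_one h1
    rw [hζ, hq, mul_comm] at h2
    exact Nat.dvd_of_mul_dvd_mul_left (by omega) h2

/-- An element whose order is a multiple of `q + 1`. -/
theorem exists_order1 (ha : 1 ≤ a) (hF : Fintype.card F = (p ^ a) ^ 2) :
    ∃ x : Cfsg.PSU 3 F (p ^ a), ∀ k : ℕ, x ^ k = 1 → p ^ a + 1 ∣ k := by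
  classical
  have hq2 := SpecPSU.two_le_q p a ha
  obtain ⟨σ, hσdef⟩ : ∃ σ : F →+* F, σ = iterateFrobenius F p a := ⟨_, rfl⟩
  have hσ : ∀ c, σ c = c ^ (p ^ a) := by
    intro c
    rw [hσdef, iterateFrobenius_def]
  have hinv : IsInvol σ := isInvol_frob (p ^ a) hq2 hF σ hσ
  have hσσ := hinv.invol
  obtain ⟨l, hl1, hl2⟩ := exists_lam_gen p a hq2 hF
  have hl0 : l ≠ 0 := by
    rintro rfl
    rw [zero_pow (by omega)] at hl1
    exact zero_ne_one hl1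
  have hln : l * σ l = 1 := by rw [hσ, ← pow_succ', hl1]
  have hln' : l⁻¹ * σ l⁻¹ = 1 := by rw [map_inv₀, ← mul_inv, hln, inv_one]
  have hH1 := isHerm_oneH σ hσσ
  have hH := isHerm_sumH (isHerm_sumH hH1 hH1) hH1
  have hnd := sumH_nondeg (isHerm_sumH hH1 hH1) hH1
    (sumH_nondeg hH1 hH1 (oneH_nondeg σ) (oneH_nondeg σ)) (oneH_nondeg σ)
  obtain ⟨T, hTdef⟩ : ∃ T : Module.End F ((F × F) × F),
      T = ((l • (1 : Module.End F F)).prodMap (l⁻¹ • (1 : Module.End F F))).prodMap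
        (1 : Module.End F F) := ⟨_, rfl⟩
  have hTpres : UPres (sumH (sumH (oneH σ) (oneH σ)) (oneH σ)) T := by
    rw [hTdef]
    exact upres_prodMap (upres_prodMap (UPres.one.smul hH1 l hln) (UPres.one.smul hH1 l⁻¹ hln'))
      UPres.one
  have hTdet : LinearMap.det T = 1 := by
    rw [hTdef, LinearMap.det_prodMap, LinearMap.det_prodMap, LinearMap.det_smul,
      LinearMap.det_smul, Module.finrank_self, map_one, pow_one, pow_one, mul_one, mul_one, mul_one,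
      mul_inv_cancel₀ hl0]
  have hTpow : ∀ i : ℕ, T ^ i = ((l ^ i • (1 : Module.End F F)).prodMap
      ((l⁻¹) ^ i • (1 : Module.End F F))).prodMap (1 : Module.End F F) := by
    intro i
    rw [hTdef, SpModels.prodMap_pow', SpModels.prodMap_pow', _root_.smul_pow, _root_.smul_pow,
      one_pow]
  obtain ⟨g, Φ, hΦ, -⟩ := exists_of_model hinv (p ^ a) hσ 3 ((F × F) × F) _ hH hnd
    (by rw [Module.finrank_prod, Module.finrank_prod, Module.finrank_self]) T hTpres hTdet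
  refine ⟨QuotientGroup.mk g, fun i hi => ?_⟩
  rw [UGroup.mk_pow_eq_one_iff (p ^ a) hq2 hF (le_refl 3)] at hi
  obtain ⟨ε, hε⟩ := hi
  have h3 := (conj_pow_eq_smul_iff Φ (toEnd g.1) T hΦ i ε).mp hε
  rw [hTpow] at h3
  have h4 : (1 : F) = ε := by
    have := congrArg (fun f : Module.End F ((F × F) × F) => (f ((0, 0), 1)).2) h3
    simpa using this
  have h5 : l ^ i = ε := by
    have := congrArg (fun f : Module.End F ((F × F) × F) => (f ((1, 0), 0)).1.1) h3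
    simpa using this
  exact hl2 i (by rw [h5, ← h4])

/-- An element whose order is a multiple of `p` and of `(q + 1) / gcd(3, q + 1)`. -/
theorem exists_order2 (ha : 1 ≤ a) (hF : Fintype.card F = (p ^ a) ^ 2) :
    ∃ x : Cfsg.PSU 3 F (p ^ a), ∀ k : ℕ, x ^ k = 1 → p ∣ k ∧ p ^ a + 1 ∣ 3 * k := by
  classical
  have hq2 := SpecPSU.two_le_q p a ha
  obtain ⟨σ, hσdef⟩ : ∃ σ : F →+* F, σ = iterateFrobenius F p a := ⟨_, rfl⟩
  have hσ : ∀ c, σ c = c ^ (p ^ a) := by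
    intro c
    rw [hσdef, iterateFrobenius_def]
  have hinv : IsInvol σ := isInvol_frob (p ^ a) hq2 hF σ hσ
  have hσσ := hinv.invol
  obtain ⟨l, hl1, hl2⟩ := exists_lam_gen p a hq2 hF
  have hl0 : l ≠ 0 := by
    rintro rfl
    rw [zero_pow (by omega)] at hl1
    exact zero_ne_one hl1
  have hln : l * σ l = 1 := by rw [hσ, ← pow_succ', hl1]
  have hln' : l⁻¹ * σ l⁻¹ = 1 := by rw [map_inv₀, ← mul_inv, hln, inv_one]
  have hln2 : (l⁻¹) ^ 2 * σ ((l⁻¹) ^ 2) = 1 := by rw [map_pow, ← mul_pow, hln', one_pow]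
  obtain ⟨a₀, ha₀⟩ := SpecPSU.exists_not_fixed p a hq2 hF σ hσ
  obtain ⟨U, hUB, ⟨e, hUe⟩, hUne⟩ := exists_unipotent_u σ hσσ a₀ ha₀ 1 p
  obtain ⟨hU1, hU2⟩ := unipotent_facts_u p U e hUe
  have hdetU : LinearMap.det U = 1 := by
    apply eq_one_of_pow_char_pow p _ e
    rw [← map_pow, hUe, map_one]
  have hH := isHerm_sumH (isHerm_revH 1 σ hσσ) (isHerm_oneH σ hσσ)
  have hnd := sumH_nondeg (isHerm_revH 1 σ hσσ) (isHerm_oneH σ hσσ) (revH_nondeg 1 σ)
    (oneH_nondeg σ)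
  obtain ⟨T, hTdef⟩ : ∃ T : Module.End F ((Fin (1 + 1) → F) × F),
      T = (l • U).prodMap ((l⁻¹) ^ 2 • (1 : Module.End F F)) := ⟨_, rfl⟩
  have hTpres : UPres (sumH (revH 1 σ) (oneH σ)) T := by
    rw [hTdef]
    exact upres_prodMap (hUB.smul (isHerm_revH 1 σ hσσ) _ hln)
      ((UPres.one).smul (isHerm_oneH σ hσσ) _ hln2)
  have hTdet : LinearMap.det T = 1 := by
    rw [hTdef, LinearMap.det_prodMap, LinearMap.det_smul, LinearMap.det_smul, hdetU,
      Module.finrank_fin_fun, Module.finrank_self, map_one, mul_one, mul_one, pow_one, ← mul_pow,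
      mul_inv_cancel₀ hl0, one_pow]
  have hTpow : ∀ i : ℕ, T ^ i = (l ^ i • U ^ i).prodMap
      (((l⁻¹) ^ 2) ^ i • (1 : Module.End F F)) := by
    intro i
    rw [hTdef, SpModels.prodMap_pow', _root_.smul_pow, _root_.smul_pow, one_pow]
  obtain ⟨g, Φ, hΦ, -⟩ := exists_of_model hinv (p ^ a) hσ 3 ((Fin (1 + 1) → F) × F) _ hH hnd
    (by rw [Module.finrank_prod, Module.finrank_fin_fun, Module.finrank_self]) T hTpres hTdet
  refine ⟨QuotientGroup.mk g, fun i hi => ?_⟩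
  rw [UGroup.mk_pow_eq_one_iff (p ^ a) hq2 hF (le_refl 3)] at hi
  obtain ⟨ε, hε⟩ := hi
  have h3 := (conj_pow_eq_smul_iff Φ (toEnd g.1) T hΦ i ε).mp hε
  rw [hTpow] at h3
  have h4 : ((l⁻¹) ^ 2) ^ i = ε := by
    have := congrArg (fun f : Module.End F ((Fin (1 + 1) → F) × F) => (f (0, 1)).2) h3
    simpa using this
  have h5 : ∀ v : Fin (1 + 1) → F, l ^ i • (U ^ i) v = ε • v := by
    intro v
    have := congrArg (fun f : Module.End F ((Fin (1 + 1) → F) × F) => (f (v, 0)).1) h3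
    simpa using this
  have hli : l ^ i ≠ 0 := pow_ne_zero _ hl0
  have h6 : U ^ i = ((l ^ i)⁻¹ * ε) • (1 : Module.End F (Fin (1 + 1) → F)) := by
    apply LinearMap.ext
    intro v
    rw [LinearMap.smul_apply, Module.End.one_apply, mul_smul, ← h5 v, smul_smul,
      inv_mul_cancel₀ hli, one_smul]
  have hUi : U ^ i = 1 := hU1 i _ h6
  have h7 : l ^ i = ε := by
    have h8 := h5 (Pi.single 0 1)
    rw [hUi, Module.End.one_apply] at h8
    have h9 := congrFun h8 0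
    simpa using h9
  constructor
  · have h8 := hU2 0 (hUne 0 (by norm_num)) i hUi
    simpa using h8
  · apply hl2
    have h10 : l ^ (3 * i) = l ^ i * (l ^ 2) ^ i := by
      rw [← pow_mul, ← pow_add]
      congr 1
      ring
    rw [h10, h7, ← h4, ← mul_pow, ← mul_pow, inv_mul_cancel₀ hl0, one_pow, one_pow]

/-- An element whose order is a multiple of `(q^2 - 1) / gcd(3, q + 1)`. -/
theorem exists_order3 (ha : 1 ≤ a) (hF : Fintype.card F = (p ^ a) ^ 2) :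
    ∃ x : Cfsg.PSU 3 F (p ^ a), ∀ k : ℕ, x ^ k = 1 →
      (p ^ a) ^ 2 - 1 ∣ 3 * k ∧ (p ^ a) ^ 2 - 1 ∣ (p ^ a + 1) * k := by
  classical
  have hq2 := SpecPSU.two_le_q p a ha
  obtain ⟨σ, hσdef⟩ : ∃ σ : F →+* F, σ = iterateFrobenius F p a := ⟨_, rfl⟩
  have hσ : ∀ c, σ c = c ^ (p ^ a) := by
    intro c
    rw [hσdef, iterateFrobenius_def]
  have hinv : IsInvol σ := isInvol_frob (p ^ a) hq2 hF σ hσ
  have hσσ := hinv.invol
  have hQ1 : ∀ c : F, c ≠ 0 → c ^ ((p ^ a) ^ 2 - 1) = 1 := fun c hc => by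
    rw [← hF]
    exact FiniteField.pow_card_sub_one_eq_one c hc
  obtain ⟨ζ, hζ, -⟩ := exists_gen (p ^ a) hF
  obtain ⟨κ, hκ⟩ : ∃ κ : F, κ = (ζ : F) := ⟨_, rfl⟩
  have hκ0 : κ ≠ 0 := by rw [hκ]; exact ζ.ne_zero
  have hκord : ∀ i : ℕ, κ ^ i = 1 → (p ^ a) ^ 2 - 1 ∣ i := by
    intro i hi
    rw [← hζ]
    apply orderOf_dvd_of_pow_eq_one
    apply Units.ext
    rw [Units.val_pow_eq_pow_val, ← hκ, hi]
    rfl
  have hκq2 : κ ^ ((p ^ a) ^ 2) = κ := by rw [← hF, FiniteField.pow_card]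
  obtain ⟨κ', hκ'⟩ : ∃ κ' : F, κ' = (κ⁻¹) ^ (p ^ a) := ⟨_, rfl⟩
  obtain ⟨ν, hν⟩ : ∃ ν : F, ν = κ ^ (p ^ a - 1) := ⟨_, rfl⟩
  have e1 : κ * σ κ' = 1 := by
    rw [hσ, hκ', ← pow_mul, ← pow_two, inv_pow, hκq2, mul_inv_cancel₀ hκ0]
  have e2 : κ' * σ κ = 1 := by
    rw [hσ, hκ', ← mul_pow, inv_mul_cancel₀ hκ0, one_pow]
  have hνn : ν * σ ν = 1 := by
    rw [hσ, ← pow_succ', hν, ← pow_mul, mul_comm, ← sq_sub_one (p ^ a) (by omega)]
    exact hQ1 κ hκ0
  have htr : ∀ z : F, Algebra.trace F F (σ z) = σ (Algebra.trace F F z) := by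
    intro z
    rw [Algebra.trace_self_apply, Algebra.trace_self_apply]
  have hHh := isHerm_hypH F F σ σ σ htr htr hσσ hσσ
  have hndh := hypH_nondeg F F σ σ hσσ hσσ
  have hH := isHerm_sumH hHh (isHerm_oneH σ hσσ)
  have hnd := sumH_nondeg hHh (isHerm_oneH σ hσσ) hndh (oneH_nondeg σ)
  have hmul : ∀ c : F, LinearMap.mul F F c = c • (1 : Module.End F F) := by
    intro c
    apply LinearMap.ext
    intro x
    simp
  obtain ⟨T, hTdef⟩ : ∃ T : Module.End F ((F × F) × F),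
      T = ((κ • (1 : Module.End F F)).prodMap (κ' • (1 : Module.End F F))).prodMap
        (ν • (1 : Module.End F F)) := ⟨_, rfl⟩
  have hTpres : UPres (sumH (hypH F F σ σ) (oneH σ)) T := by
    rw [hTdef]
    refine upres_prodMap ?_ ((UPres.one).smul (isHerm_oneH σ hσσ) _ hνn)
    rw [← hmul, ← hmul]
    exact upres_hyp F F σ σ κ κ' e1 e2
  have hTdet : LinearMap.det T = 1 := by
    rw [hTdef, LinearMap.det_prodMap, LinearMap.det_prodMap, LinearMap.det_smul,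
      LinearMap.det_smul, LinearMap.det_smul, Module.finrank_self, map_one, pow_one, pow_one,
      pow_one, mul_one, mul_one, mul_one]
    have h1 : κ * κ ^ (p ^ a - 1) = κ ^ (p ^ a) := by
      rw [← pow_succ', Nat.sub_add_cancel (by omega)]
    calc κ * κ' * ν = (κ * κ ^ (p ^ a - 1)) * (κ⁻¹) ^ (p ^ a) := by
          rw [hκ', hν]
          ring
      _ = 1 := by rw [h1, ← mul_pow, mul_inv_cancel₀ hκ0, one_pow]
  have hTpow : ∀ i : ℕ, T ^ i = ((κ ^ i • (1 : Module.End F F)).prodMap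
      (κ' ^ i • (1 : Module.End F F))).prodMap (ν ^ i • (1 : Module.End F F)) := by
    intro i
    rw [hTdef, SpModels.prodMap_pow', SpModels.prodMap_pow', _root_.smul_pow, _root_.smul_pow,
      _root_.smul_pow, one_pow]
  obtain ⟨g, Φ, hΦ, -⟩ := exists_of_model hinv (p ^ a) hσ 3 ((F × F) × F) _ hH hnd
    (by rw [Module.finrank_prod, Module.finrank_prod, Module.finrank_self]) T hTpres hTdet
  refine ⟨QuotientGroup.mk g, fun i hi => ?_⟩
  rw [UGroup.mk_pow_eq_one_iff (p ^ a) hq2 hF (le_refl 3)] at hi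
  obtain ⟨ε, hε⟩ := hi
  have h3 := (conj_pow_eq_smul_iff Φ (toEnd g.1) T hΦ i ε).mp hε
  rw [hTpow] at h3
  have hκi : κ ^ i = ε := by
    have := congrArg (fun f : Module.End F ((F × F) × F) => (f ((1, 0), 0)).1.1) h3
    simpa using this
  have hκ'i : κ' ^ i = ε := by
    have := congrArg (fun f : Module.End F ((F × F) × F) => (f ((0, 1), 0)).1.2) h3
    simpa using this
  have hνi : ν ^ i = ε := by
    have := congrArg (fun f : Module.End F ((F × F) × F) => (f ((0, 0), 1)).2) h3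
    simpa using this
  have hA : κ ^ ((p ^ a + 1) * i) = 1 := by
    have h1 : κ ^ ((p ^ a + 1) * i) = (κ ^ (p ^ a)) ^ i * κ ^ i := by
      rw [← pow_mul, ← pow_add]
      congr 1
      ring
    rw [h1, hκi, ← hκ'i, hκ', ← mul_pow, ← mul_pow, mul_inv_cancel₀ hκ0, one_pow, one_pow]
  have hB : κ ^ (3 * i) = 1 := by
    have h1 : κ ^ ((p ^ a + 1) * i) = (κ ^ (p ^ a - 1)) ^ i * κ ^ (2 * i) := by
      rw [← pow_mul, ← pow_add]
      congr 1
      have : p ^ a + 1 = p ^ a - 1 + 2 := by omega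
      rw [this]
      ring
    rw [← hν, hνi, ← hκi, ← pow_add] at h1
    rw [show 3 * i = i + 2 * i by ring, ← h1, hA]
  exact ⟨hκord _ hB, hκord _ hA⟩

/-- The torus of order `q^2 - q + 1`. -/
theorem exists_order4_core (ha : 1 ≤ a) (hF : Fintype.card F = (p ^ a) ^ 2) (K : Type v) [Field K]
    [Finite K] [Algebra F K] (hdim : Module.finrank F K = 3) (θ : Kˣ)
    (hθ : orderOf θ = ((p ^ a) ^ 2) ^ 3 - 1) :
    ∃ x : Cfsg.PSU 3 F (p ^ a), ∀ k : ℕ, x ^ k = 1 →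
      (p ^ a) ^ 2 - p ^ a + 1 ∣ Nat.gcd 3 (p ^ a + 1) * k := by
  classical
  have hp : p.Prime := Fact.out
  have hq2 := SpecPSU.two_le_q p a ha
  obtain ⟨σ, hσdef⟩ : ∃ σ : F →+* F, σ = iterateFrobenius F p a := ⟨_, rfl⟩
  have hσ : ∀ c, σ c = c ^ (p ^ a) := by
    intro c
    rw [hσdef, iterateFrobenius_def]
  have hinv : IsInvol σ := isInvol_frob (p ^ a) hq2 hF σ hσ
  have hσσ := hinv.invol
  haveI : CharP K p := charP_of_injective_algebraMap (algebraMap F K).injective p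
  have hKcard : ∀ x : K, x ^ ((p ^ a) ^ (2 * 3)) = x := card_pow_eq p a hF K 3 hdim
  obtain ⟨τ, hτdef⟩ : ∃ τ : K →+* K, τ = iterateFrobenius K p (a * 3) := ⟨_, rfl⟩
  have hτ : ∀ z, τ z = z ^ ((p ^ a) ^ 3) := by
    intro z
    rw [hτdef, iterateFrobenius_def, pow_mul]
  have hττ : ∀ z, τ (τ z) = z := by
    intro z
    rw [hτ, hτ, ← pow_mul, ← pow_add, ← two_mul, hKcard]
  have hτtr : ∀ z, Algebra.trace F K (τ z) = σ (Algebra.trace F K z) := by
    intro z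
    rw [hτdef, iterateFrobenius_def, trace_pow_char_pow F K p (a * 3) z, pow_mul,
      pow_q_odd_F p a hF _ 3 ⟨1, by norm_num⟩, hσ]
  have hH := isHerm_trH F K σ τ hτtr hττ
  have hnd := trH_nondeg F K τ hττ
  have h6 := q6_sub_one (p ^ a) (by omega)
  have hpos : 0 < ((p ^ a) ^ 3 - 1) * (p ^ a + 1) := by
    have : 2 ^ 3 ≤ (p ^ a) ^ 3 := Nat.pow_le_pow_left hq2 3
    exact Nat.mul_pos (by omega) (by omega)
  obtain ⟨x, hx⟩ : ∃ x : K, x = (θ : K) ^ (((p ^ a) ^ 3 - 1) * (p ^ a + 1)) := ⟨_, rfl⟩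
  have hxB : x ^ ((p ^ a) ^ 2 - p ^ a + 1) = 1 := by
    rw [hx, ← pow_mul, ← h6, ← hθ, ← Units.val_pow_eq_pow_val, pow_orderOf_eq_one]
    rfl
  have hxord : ∀ i : ℕ, x ^ i = 1 → (p ^ a) ^ 2 - p ^ a + 1 ∣ i := by
    intro i hi
    rw [hx, ← pow_mul, ← Units.val_pow_eq_pow_val] at hi
    have h1 : θ ^ (((p ^ a) ^ 3 - 1) * (p ^ a + 1) * i) = 1 := Units.ext hi
    have h2 := orderOf_dvd_of_pow_eq_one h1
    rw [hθ, h6] at h2
    exact Nat.dvd_of_mul_dvd_mul_left hpos h2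
  have hxq3 : x ^ ((p ^ a) ^ 3 + 1) = 1 := by
    rw [← q_add_one_mul_B (p ^ a) (by omega), mul_comm, pow_mul, hxB, one_pow]
  have hxn : x * τ x = 1 := by rw [hτ, ← pow_succ', hxq3]
  have hnorm : Algebra.norm F x = 1 := by
    apply (algebraMap F K).injective
    rw [FiniteField.algebraMap_norm_eq_prod_pow F K x, hdim, Nat.card_eq_fintype_card, hF,
      Finset.prod_range_succ, Finset.prod_range_succ, Finset.prod_range_succ,
      Finset.prod_range_zero, one_mul, pow_zero, pow_one, pow_one, map_one, ← pow_succ', ← pow_add,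
      show (p ^ a) ^ 2 + 1 + ((p ^ a) ^ 2) ^ 2 = 1 + (p ^ a) ^ 2 + ((p ^ a) ^ 2) ^ 2 by ring,
      ← B_mul (p ^ a) (by omega), pow_mul, hxB, one_pow]
  obtain ⟨g, Φ, hΦ, -⟩ := exists_of_model hinv (p ^ a) hσ 3 K (trH F K τ) hH hnd hdim
    (LinearMap.mul F K x) (upres_mul F K τ _ hxn)
    (by have h := hnorm; rw [Algebra.norm_apply] at h; exact h)
  refine ⟨QuotientGroup.mk g, fun i hi => ?_⟩
  rw [UGroup.mk_pow_eq_one_iff (p ^ a) hq2 hF (le_refl 3)] at hi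
  obtain ⟨ε, hε⟩ := hi
  have h3 := (conj_pow_eq_smul_iff Φ (toEnd g.1) (LinearMap.mul F K x) hΦ i ε).mp hε
  rw [mul_pow_eq, mul_eq_smul_iff] at h3
  obtain ⟨y, hy⟩ : ∃ y, y = x ^ i := ⟨_, rfl⟩
  have hyF : y ^ ((p ^ a) ^ 2) = y := by rw [hy, h3, ← map_pow, ← hF, FiniteField.pow_card]
  have hy3 : y ^ ((p ^ a) ^ 3 + 1) = 1 := by rw [hy, ← pow_mul, mul_comm, pow_mul, hxq3, one_pow]
  have hyB : y ^ ((p ^ a) ^ 2 - p ^ a + 1) = 1 := by
    rw [hy, ← pow_mul, mul_comm, pow_mul, hxB, one_pow]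
  have hyq1 : y ^ (p ^ a + 1) = 1 := by
    have h4 : y ^ ((p ^ a) ^ 3) = y ^ (p ^ a) := by
      rw [show (p ^ a) ^ 3 = (p ^ a) ^ 2 * p ^ a by ring, pow_mul, hyF]
    rw [pow_succ, ← h4, ← pow_succ, hy3]
  have hy3' : y ^ 3 = 1 := by
    have h5 := hyB
    rw [B_eq (p ^ a) hq2, pow_add, pow_mul, hyq1, one_pow, one_mul] at h5
    exact h5
  have hyd : y ^ (Nat.gcd 3 (p ^ a + 1)) = 1 := pow_gcd_eq_one.mpr ⟨hy3', hyq1⟩
  apply hxord
  rw [mul_comm, pow_mul, ← hy, hyd]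

/-- An element whose order is a multiple of `(q^2 - q + 1) / gcd(3, q + 1)`. -/
theorem exists_order4 (ha : 1 ≤ a) (hF : Fintype.card F = (p ^ a) ^ 2) :
    ∃ x : Cfsg.PSU 3 F (p ^ a), ∀ k : ℕ, x ^ k = 1 →
      (p ^ a) ^ 2 - p ^ a + 1 ∣ Nat.gcd 3 (p ^ a + 1) * k := by
  obtain ⟨θ, hθ⟩ := SpModels.exists_generator F p 3
  rw [hF] at hθ
  exact exists_order4_core p a ha hF (FiniteField.Extension F p 3)
    (FiniteField.finrank_extension F p 3) θ hθ

end Cfsg.Agent.Helper42.U3Lower
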