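import Mathlib
import Cfsg.Prelude.Def_FusionSystem
import Cfsg.Prelude.Def_Local
import Cfsg.Agent.Helper32.PSolvable

set_option autoImplicit false

/-!
Helper library (helper42), piece `D` of the call for S5156 (helper85): if `E` has index prime
to `p` in `F` and all `Aut_E(P)` are `p`-solvable, then all `Aut_F(P)` are `p`-solvable
(given the extension property `hX` of `p`-solvability).
-/

universe u

namespace Cfsg.Agent.Helper42

open Cfsg Cfsg.FusionSystem

/-- a group of order prime to `p` is `p`-solvable -/
theorem isPSolvable_of_coprime_card {p : ℕ} {G : Type*} [Group G] (h : (Nat.card G).Coprime p) :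
    IsPSolvable p G := by
  rw [Cfsg.Agent.Helper32.isPSolvable_iff_chain]
  refine ⟨1, fun k => if k = 0 then ⊥ else ⊤, ?_, ?_, ?_, ?_, ?_⟩
  · simp
  · simp
  · intro k hk
    have hk0 : k = 0 := by omega
    subst hk0
    simp
  · intro k
    by_cases hk : k = 0
    · simp only [hk, if_true]; infer_instance
    · simp only [hk, if_false]; infer_instance
  · intro k hk
    have hk0 : k = 0 := by omega
    subst hk0
    right
    simp only [if_true, zero_add, one_ne_zero, if_false]
    rw [Subgroup.relIndex_top_right, Subgroup.index_bot]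
    exact h

/-- the subgroup generated by the elements of `p`-power order is normal -/
theorem ppow_closure_normal {A : Type*} [Group A] (p : ℕ) :
    (Subgroup.closure {α : A | ∃ k : ℕ, orderOf α = p ^ k}).Normal := by
  constructor
  intro n hn g
  induction hn using Subgroup.closure_induction with
  | mem x hx =>
    apply Subgroup.subset_closure
    obtain ⟨k, hk⟩ := hx
    refine ⟨k, ?_⟩
    have h1 : orderOf (g * x * g⁻¹) = orderOf x := by
      have := orderOf_injective (MulAut.conj g).toMonoidHom (MulAut.conj g).injective x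
      simpa using this
    rw [h1, hk]
  | one => simp
  | mul x y _ _ hx hy =>
    have h1 : g * (x * y) * g⁻¹ = (g * x * g⁻¹) * (g * y * g⁻¹) := by simp [mul_assoc]
    rw [h1]; exact Subgroup.mul_mem _ hx hy
  | inv x _ hx =>
    have h1 : g * x⁻¹ * g⁻¹ = (g * x * g⁻¹)⁻¹ := by simp [mul_assoc]
    rw [h1]; exact Subgroup.inv_mem _ hx

/-- the subgroup generated by the elements of `p`-power order has index prime to `p` -/
theorem ppow_closure_index_coprime {A : Type*} [Group A] [Finite A] (p : ℕ) [Fact p.Prime] :
    ((Subgroup.closure {α : A | ∃ k : ℕ, orderOf α = p ^ k}).index).Coprime p := by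
  have hp : p.Prime := Fact.out
  obtain ⟨Q⟩ : Nonempty (Sylow p A) := inferInstance
  have hQle : (Q : Subgroup A) ≤ Subgroup.closure {α : A | ∃ k : ℕ, orderOf α = p ^ k} := by
    intro x hx
    apply Subgroup.subset_closure
    obtain ⟨k, hk⟩ := (IsPGroup.iff_orderOf.mp Q.isPGroup') ⟨x, hx⟩
    refine ⟨k, ?_⟩
    rw [← hk, Subgroup.orderOf_mk]
  have hdvd := Subgroup.index_dvd_of_le hQle
  have hnd : ¬ p ∣ (Q : Subgroup A).index := Sylow.not_dvd_index Q
  rw [Nat.coprime_comm, Nat.Prime.coprime_iff_not_dvd hp]
  exact fun h => hnd (h.trans hdvd)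

/-- abstract form of piece D -/
theorem psolv_of_ppow_closure_le {M : Type u} [Group M] (p : ℕ) [Fact p.Prime]
    (hX : ∀ (G : Type u) [Group G] [Finite G] (N : Subgroup G) [N.Normal],
      IsPSolvable p ↥N → IsPSolvable p (G ⧸ N) → IsPSolvable p G)
    (A B : Subgroup M) [Finite A]
    (hle : (Subgroup.closure {α : A | ∃ k : ℕ, orderOf α = p ^ k}).map A.subtype ≤ B)
    (hB : IsPSolvable p ↥B) : IsPSolvable p ↥A := by
  have hp : p.Prime := Fact.out
  haveI hNn : (Subgroup.closure {α : A | ∃ k : ℕ, orderOf α = p ^ k}).Normal :=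
    ppow_closure_normal p
  apply hX A (Subgroup.closure {α : A | ∃ k : ℕ, orderOf α = p ^ k})
  · have e1 := (Subgroup.closure {α : A | ∃ k : ℕ, orderOf α = p ^ k}).equivMapOfInjective
      A.subtype A.subtype_injective
    have h1 := Cfsg.Agent.Helper32.isPSolvable_subgroup hp hB
      (((Subgroup.closure {α : A | ∃ k : ℕ, orderOf α = p ^ k}).map A.subtype).subgroupOf B)
    have e2 := Subgroup.subgroupOfEquivOfLe hle
    exact Cfsg.Agent.Helper32.isPSolvable_of_equiv (e2.trans e1.symm) h1
  · apply isPSolvable_of_coprime_card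
    rw [← Subgroup.index_eq_card]
    exact ppow_closure_index_coprime p

theorem s5156_aut_pprime {Ω : Type u} [Group Ω] {S : Subgroup Ω} [Finite S] (p : ℕ) [Fact p.Prime]
    (hX : ∀ (G : Type u) [Group G] [Finite G] (N : Subgroup G) [N.Normal],
      IsPSolvable p ↥N → IsPSolvable p (G ⧸ N) → IsPSolvable p G)
    (F E : FusionSystem S) (hidx : E.HasPrimeToPIndexIn F p)
    (hA : ∀ P : Subgroup Ω, P ≤ S → IsPSolvable p ↥(E.autGroup P)) :
    ∀ P : Subgroup Ω, P ≤ S → IsPSolvable p ↥(F.autGroup P) := by
  intro P hP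
  haveI : Finite P := Finite.of_injective (Subgroup.inclusion hP) (Subgroup.inclusion_injective hP)
  haveI : Finite (MulAut P) := inferInstance
  haveI : Finite (F.autGroup P) := inferInstance
  exact psolv_of_ppow_closure_le p hX (F.autGroup P) (E.autGroup P) (hidx.2 P hP) (hA P hP)

end Cfsg.Agent.Helper42
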