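import Mathlib
import Cfsg.Prelude.Def_FusionSystem
import Cfsg.Prelude.Def_Transfer
import Cfsg.Agent.Helper84.FusionAut

set_option autoImplicit false

/-!
Helper library (helper42), pieces `P0a` and `P0b` of the call for S5156 (helper85): in a
fusion system realized by `ι : S →* H`, an automorphism in `Aut_E(P)` of order prime to `p` is
induced by an element of `O^p(H)`, and one of `p`-power order by a `p`-element of `H`
(the power trick).
-/

namespace Cfsg.Agent.Helper42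

open Cfsg Cfsg.FusionSystem

variable {Ω : Type*} [Group Ω] {S : Subgroup Ω}

/-- an automorphism in `Aut_E(P)` of a realized system is induced by an element `g₀`, and its
powers by the powers of `g₀`. -/
theorem s5156_real_pow (E : FusionSystem S) {H : Type*} [Group H]
    (ι : S →* H) (hreal : E.IsRealizedBy ι) {P : Subgroup Ω} (hP : P ≤ S) (a : MulAut P)
    (ha : a ∈ E.autGroup P) :
    ∃ g₀ : H, ∀ j : ℕ, ∀ x : P,
      ι ⟨((a ^ j) x : P), hP ((a ^ j) x).2⟩ = g₀ ^ j * ι ⟨x, hP x.2⟩ * (g₀ ^ j)⁻¹ := by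
  have h1 := (Cfsg.Agent.Helper84.mem_autGroup_iff E hP a).mp ha
  obtain ⟨g₀, hg₀⟩ := (hreal.2 P hP (P.subtype.comp a.toMonoidHom) (fun x => hP (a x).2)).mp h1
  have hg₀' : ∀ x : P, ι ⟨(a x : P), hP (a x).2⟩ = g₀ * ι ⟨x, hP x.2⟩ * g₀⁻¹ := hg₀
  refine ⟨g₀, ?_⟩
  intro j
  induction j with
  | zero => intro x; simp
  | succ j ih =>
    intro x
    have e : (a ^ (j + 1)) x = a ((a ^ j) x) := by rw [pow_succ', MulAut.mul_apply]
    have e2 : (⟨(((a ^ (j + 1)) x : P) : Ω), hP ((a ^ (j + 1)) x).2⟩ : S) =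
        ⟨((a ((a ^ j) x) : P) : Ω), hP (a ((a ^ j) x)).2⟩ := Subtype.ext (by rw [e])
    rw [e2, hg₀', ih, pow_succ' g₀, mul_inv_rev]
    simp only [mul_assoc]

theorem s5156_real_coprime {p : ℕ} [Fact p.Prime] (E : FusionSystem S) {H : Type*} [Group H] [Finite H]
    (ι : S →* H) (hreal : E.IsRealizedBy ι) {P : Subgroup Ω} (hP : P ≤ S) (a : MulAut P)
    (ha : a ∈ E.autGroup P) (hco : (orderOf a).Coprime p) :
    ∃ g ∈ pResidual p H, ∀ x : P, ι ⟨(a x : P), hP (a x).2⟩ = g * ι ⟨x, hP x.2⟩ * g⁻¹ := by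
  have hpp : p.Prime := Fact.out
  obtain ⟨g, hpow⟩ := s5156_real_pow E ι hreal hP a ha
  have ha0 : 0 < orderOf a := by
    rcases Nat.eq_zero_or_pos (orderOf a) with h0 | h0
    · rw [h0, Nat.coprime_zero_left] at hco
      exact absurd hco hpp.one_lt.ne'
    · exact h0
  have hN0 : orderOf g ≠ 0 := (orderOf_pos g).ne'
  obtain ⟨k, m, hm, hN⟩ := Nat.exists_eq_pow_mul_and_not_dvd hN0 p hpp.one_lt.ne'
  have hmc : m.Coprime p := ((Nat.Prime.coprime_iff_not_dvd hpp).mpr hm).symm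
  have he : (p ^ k) ^ Nat.totient (orderOf a) ≡ 1 [MOD orderOf a] :=
    Nat.ModEq.pow_totient (Nat.Coprime.pow_left k hco.symm)
  have hae : a ^ ((p ^ k) ^ Nat.totient (orderOf a)) = a := by
    have h1 := (pow_eq_pow_iff_modEq (x := a)).2 he
    rwa [pow_one] at h1
  refine ⟨g ^ ((p ^ k) ^ Nat.totient (orderOf a)), Subgroup.subset_closure ?_, fun x => ?_⟩
  · have hdvd : orderOf (g ^ ((p ^ k) ^ Nat.totient (orderOf a))) ∣ m := by
      apply orderOf_dvd_of_pow_eq_one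
      rw [← pow_mul]
      apply (orderOf_dvd_iff_pow_eq_one).1
      rw [hN]
      apply Nat.mul_dvd_mul_right
      exact dvd_pow_self _ (Nat.totient_pos.2 ha0).ne'
    exact Nat.Coprime.coprime_dvd_left hdvd hmc
  · have h1 := hpow ((p ^ k) ^ Nat.totient (orderOf a)) x
    simp only [hae] at h1
    exact h1

theorem s5156_real_ppow {p : ℕ} [Fact p.Prime] (E : FusionSystem S) {H : Type*} [Group H] [Finite H]
    (ι : S →* H) (hreal : E.IsRealizedBy ι) {P : Subgroup Ω} (hP : P ≤ S) (a : MulAut P)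
    (ha : a ∈ E.autGroup P) (hpow : ∃ k : ℕ, orderOf a = p ^ k) :
    ∃ g : H, (∃ k : ℕ, orderOf g = p ^ k) ∧
      ∀ x : P, ι ⟨(a x : P), hP (a x).2⟩ = g * ι ⟨x, hP x.2⟩ * g⁻¹ := by
  have hpp : p.Prime := Fact.out
  obtain ⟨k', hk'⟩ := hpow
  obtain ⟨g, hgpow⟩ := s5156_real_pow E ι hreal hP a ha
  have ha0 : 0 < orderOf a := by rw [hk']; exact pow_pos hpp.pos k'
  have hN0 : orderOf g ≠ 0 := (orderOf_pos g).ne'
  obtain ⟨k, m, hm, hN⟩ := Nat.exists_eq_pow_mul_and_not_dvd hN0 p hpp.one_lt.ne'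
  have hmc : m.Coprime p := ((Nat.Prime.coprime_iff_not_dvd hpp).mpr hm).symm
  have he : m ^ Nat.totient (orderOf a) ≡ 1 [MOD orderOf a] :=
    Nat.ModEq.pow_totient (by rw [hk']; exact Nat.Coprime.pow_right k' hmc)
  have hae : a ^ (m ^ Nat.totient (orderOf a)) = a := by
    have h1 := (pow_eq_pow_iff_modEq (x := a)).2 he
    rwa [pow_one] at h1
  refine ⟨g ^ (m ^ Nat.totient (orderOf a)), ?_, fun x => ?_⟩
  · have hdvd : orderOf (g ^ (m ^ Nat.totient (orderOf a))) ∣ p ^ k := by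
      apply orderOf_dvd_of_pow_eq_one
      rw [← pow_mul]
      apply (orderOf_dvd_iff_pow_eq_one).1
      rw [hN, mul_comm (m ^ _)]
      apply Nat.mul_dvd_mul_left
      exact dvd_pow_self _ (Nat.totient_pos.2 ha0).ne'
    obtain ⟨i, -, hi⟩ := (Nat.dvd_prime_pow hpp).mp hdvd
    exact ⟨i, hi⟩
  · have h1 := hgpow (m ^ Nat.totient (orderOf a)) x
    simp only [hae] at h1
    exact h1

end Cfsg.Agent.Helper42
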