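import Cfsg.Agent.Helper97.ODecomp
import Cfsg.Agent.Helper43.QuadFin2
import Cfsg.Agent.Helper98.OPar

set_option autoImplicit false

/-!
Helper library (helper42), piece `L10` of the call for S5850 (helper88): a frame of `n`
pairwise orthogonal isometric lines over a non-prime finite field of odd characteristic gives
a subfield structure (over a subfield of prime index) carrying a scalar multiple of the
quadratic form, and the isometries permuting the frame lie in the subfield group.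
(Adapted from `Helper97.Gen.IsOQ.decomp_subfield`.)
-/

open Cfsg Cfsg.Geo Matrix

namespace Cfsg.Agent.Helper42

variable {F : Type*} [Field F] [Fintype F]

/-- a finite field of non-prime order has a proper subfield -/
theorem exists_proper_subfield (hq : ¬ (Fintype.card F).Prime) : ∃ S : Subfield F, S ≠ ⊤ := by
  classical
  obtain ⟨p, hchar⟩ := CharP.exists F
  haveI := hchar
  obtain ⟨k, hp, hpk⟩ := FiniteField.card F p
  haveI : Fact p.Prime := ⟨hp⟩
  refine ⟨RingHom.eqLocusField (frobenius F p) (RingHom.id F), ?_⟩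
  intro htop
  apply hq
  have hall : ∀ x : F, x ^ p = x := by
    intro x
    have hx : x ∈ RingHom.eqLocusField (frobenius F p) (RingHom.id F) := by
      rw [htop]
      trivial
    exact hx
  obtain ⟨ζ, hζ⟩ := IsCyclic.exists_generator (α := Fˣ)
  have hord : orderOf ζ = Fintype.card F - 1 := by
    rw [orderOf_eq_card_of_forall_mem_zpowers hζ, Nat.card_units, Nat.card_eq_fintype_card]
  have hζp : ζ ^ (p - 1) = 1 := by
    have h3 : (ζ : F) ^ p = (ζ : F) := hall ζ
    have h4 : (ζ : F) ^ (p - 1) * (ζ : F) = 1 * (ζ : F) := by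
      rw [← pow_succ, Nat.sub_add_cancel hp.one_lt.le, h3, one_mul]
    have h5 : (ζ : F) ^ (p - 1) = 1 := mul_right_cancel₀ (Units.ne_zero ζ) h4
    apply Units.ext
    rw [Units.val_pow_eq_pow_val, h5, Units.val_one]
  have hdvd := orderOf_dvd_of_pow_eq_one hζp
  rw [hord] at hdvd
  have hle : Fintype.card F - 1 ≤ p - 1 := Nat.le_of_dvd (by have := hp.two_le; omega) hdvd
  have hge : p ≤ Fintype.card F := by
    rw [hpk]
    exact Nat.le_self_pow k.pos.ne' p
  have hcard2 : 2 ≤ Fintype.card F := Fintype.one_lt_card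
  have heq : Fintype.card F = p := by omega
  rw [heq]
  exact hp

theorem o10_frame_subfield (h2 : (2 : F) ≠ 0) {n : ℕ} (Q : (Fin n → F) → F)
    (hQ : IsNondegenerateQuadraticForm Q) (D : Fin n → Submodule F (Fin n → F))
    (hD : IsOrthogonalMDecomposition Q 1 D) (hq : ¬ (Fintype.card F).Prime) :
    ∃ (F₁ : Subfield F) (r : ℕ) (P : GL (Fin n) F) (ζ : F), r.Prime ∧
      Fintype.card F = Nat.card F₁ ^ r ∧ ζ ≠ 0 ∧
      IsQuadFormRationalStructure (fun v : Fin n → F => ζ * Q v) F₁ P ∧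
      decompositionStabilizer D ⊓ isometryGroup F Q ≤ subfieldSubgroup F₁ P := by
  classical
  obtain ⟨S, hS⟩ := exists_proper_subfield (F := F) hq
  obtain ⟨F₁, r, -, hr, hcard⟩ := Cfsg.Agent.Helper97.Gen.exists_prime_index_subfield S hS
  have hb := hQ.polar_bilinear
  have hself : ∀ v : Fin n → F, QuadraticMap.polar Q v v = 2 * Q v := by
    intro v
    unfold QuadraticMap.polar
    rw [← two_smul F v, hQ.smul]
    ring
  have hQzero : Q 0 = 0 := by
    have h3 := hQ.smul 0 0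
    rw [zero_smul] at h3
    rw [h3]
    ring
  have hDd := hD.decomp.decomp
  have hn2 := hDd.two_le
  obtain ⟨i₀, -⟩ : ∃ i : Fin n, i = ⟨0, by omega⟩ := ⟨_, rfl⟩
  obtain ⟨d₀', hd₀'0, hd₀'⟩ := finrank_eq_one_iff'.mp (hDd.finrank_eq i₀)
  have hiso := hD.isometric i₀
  choose e he using hiso
  obtain ⟨d, hd⟩ : ∃ d : Fin n → Fin n → F, ∀ j, d j = ((e j d₀' : D j) : Fin n → F) :=
    ⟨_, fun _ => rfl⟩
  have hdD : ∀ j, d j ∈ D j := fun j => by rw [hd]; exact (e j d₀').2
  obtain ⟨c, hc⟩ : ∃ c : F, c = Q (d₀' : Fin n → F) := ⟨_, rfl⟩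
  have hQd : ∀ j, Q (d j) = c := fun j => by rw [hd, he j d₀', hc]
  have hc0 : c ≠ 0 := by
    have hne : (d₀' : Fin n → F) ≠ 0 := fun h0 => hd₀'0 (Subtype.ext h0)
    obtain ⟨⟨x, hx, hxd⟩, -⟩ := hD.decomp.nondegenerate i₀ d₀' d₀'.2 hne
    obtain ⟨a, ha⟩ := hd₀' ⟨x, hx⟩
    have e1 : x = a • (d₀' : Fin n → F) := (congrArg Subtype.val ha).symm
    rw [e1, hb.smul_left, hself, ← hc] at hxd
    intro h0
    apply hxd
    rw [h0, mul_zero, mul_zero]
  have hd0 : ∀ j, d j ≠ 0 := by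
    intro j h0
    have h3 := hQd j
    rw [h0, hQzero] at h3
    exact hc0 h3.symm
  have hdgen : ∀ j, ∀ w ∈ D j, ∃ a : F, w = a • d j := by
    intro j w hw
    obtain ⟨v, hv0, hv⟩ := finrank_eq_one_iff'.mp (hDd.finrank_eq j)
    obtain ⟨a₀, ha₀⟩ := hv ⟨d j, hdD j⟩
    obtain ⟨a, ha⟩ := hv ⟨w, hw⟩
    have e1 : d j = a₀ • (v : Fin n → F) := (congrArg Subtype.val ha₀).symm
    have e2 : w = a • (v : Fin n → F) := (congrArg Subtype.val ha).symm
    have ha₀0 : a₀ ≠ 0 := by
      rintro rfl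
      rw [zero_smul] at e1
      exact hd0 j e1
    refine ⟨a / a₀, ?_⟩
    rw [e1, e2, smul_smul, div_mul_cancel₀ a ha₀0]
  have hort : ∀ i j, i ≠ j → QuadraticMap.polar Q (d i) (d j) = 0 :=
    fun i j hij => hD.decomp.orthogonal i j hij _ (hdD i) _ (hdD j)
  have hli : LinearIndependent F d := hDd.indep.linearIndependent D hdD hd0
  have hnonempty : Nonempty (Fin n) := ⟨i₀⟩
  have hfr : Fintype.card (Fin n) = Module.finrank F (Fin n → F) := by
    rw [Module.finrank_fintype_fun_eq_card]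
  obtain ⟨b, hb'⟩ : ∃ b : Module.Basis (Fin n) F (Fin n → F), ∀ i, b i = d i :=
    ⟨basisOfLinearIndependentOfCardEqFinrank hli hfr,
      fun i => by rw [coe_basisOfLinearIndependentOfCardEqFinrank]⟩
  obtain ⟨P₀, hP₀⟩ : ∃ P₀ : GL (Fin n) F,
      ∀ k, (P₀ : Matrix (Fin n) (Fin n) F) *ᵥ Pi.single k 1 = d k := by
    refine ⟨Cfsg.Agent.Helper97.Gen.glOfLin
      (b.equivFun.symm : (Fin n → F) →ₗ[F] (Fin n → F))
      (b.equivFun : (Fin n → F) →ₗ[F] (Fin n → F))
      (fun x => b.equivFun.symm_apply_apply x) (fun x => b.equivFun.apply_symm_apply x),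
      fun k => ?_⟩
    rw [Cfsg.Agent.Helper97.Gen.glOfLin_mulVec, ← hb']
    show b.equivFun.symm (Pi.single k 1) = b k
    rw [LinearEquiv.symm_apply_eq]
    funext j
    rw [Module.Basis.equivFun_self, Pi.single_apply]
    by_cases hjk : j = k
    · rw [if_pos hjk, if_pos hjk.symm]
    · rw [if_neg hjk, if_neg (fun h => hjk h.symm)]
  have hP₀inv : ∀ k, ((P₀⁻¹ : GL (Fin n) F) : Matrix (Fin n) (Fin n) F) *ᵥ d k = Pi.single k 1 := by
    intro k
    rw [← hP₀ k, Cfsg.Agent.Helper97.Gen.mulVec_inv_cancel]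
  have hPu : ∀ u : Fin n → F, (P₀ : Matrix (Fin n) (Fin n) F) *ᵥ u = ∑ k, u k • d k := by
    intro u
    have h3 := LinearMap.pi_apply_eq_sum_univ (Matrix.toLin' (P₀ : Matrix (Fin n) (Fin n) F)) u
    rw [Matrix.toLin'_apply] at h3
    rw [h3]
    apply Finset.sum_congr rfl
    intro k _
    have h4 : (fun j : Fin n => if k = j then (1 : F) else 0) = Pi.single k 1 := by
      funext j
      rw [Pi.single_apply]
      by_cases hjk : j = k
      · rw [if_pos hjk, if_pos hjk.symm]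
      · rw [if_neg hjk, if_neg (fun h => hjk h.symm)]
    rw [h4, Matrix.toLin'_apply, hP₀]
  refine ⟨F₁, r, P₀, c⁻¹, hr, hcard, inv_ne_zero hc0, ?_, ?_⟩
  · intro u hu
    show c⁻¹ * Q ((P₀ : Matrix (Fin n) (Fin n) F) *ᵥ u) ∈ F₁
    rw [hPu]
    have h3 := Cfsg.Agent.Helper43.map_sum_of_ortho (Cfsg.Agent.Helper98.op_qf Q hQ) Finset.univ d
      hort u
    have h4 : Q (∑ k, u k • d k) = ∑ k, u k * u k * c := by
      rw [← Cfsg.Agent.Helper98.op_qf_coe Q hQ, h3]
      apply Finset.sum_congr rfl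
      intro k _
      rw [Cfsg.Agent.Helper98.op_qf_coe Q hQ, hQd]
    rw [h4, Finset.mul_sum]
    apply Subfield.sum_mem
    intro k _
    have h5 : c⁻¹ * (u k * u k * c) = u k * u k := by
      field_simp
    rw [h5]
    exact F₁.mul_mem (hu k) (hu k)
  · rintro g ⟨hgD, hgO⟩
    apply Cfsg.Agent.Helper97.Gen.mem_subfieldSubgroup_of_entries
    intro i j
    obtain ⟨π, hπ⟩ := (Cfsg.Agent.Helper97.Gen.mem_decompositionStabilizer_iff D g).mp hgD
    have hmem : (g : Matrix (Fin n) (Fin n) F) *ᵥ d j ∈ D (π j) := by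
      rw [← hπ j]
      exact ⟨d j, hdD _, by rw [Matrix.toLin'_apply]⟩
    obtain ⟨a, ha⟩ := hdgen _ _ hmem
    have ha2 : a = 1 ∨ a = -1 := by
      have h1 := (Cfsg.Agent.Helper97.Gen.mem_isometryGroup_iff Q g).mp hgO (d j)
      rw [ha, hQ.smul, hQd, hQd] at h1
      have h3 : (a - 1) * (a + 1) * c = 0 := by linear_combination h1
      rcases mul_eq_zero.mp h3 with h4 | h4
      · rcases mul_eq_zero.mp h4 with h5 | h5
        · left; exact sub_eq_zero.mp h5
        · right; exact eq_neg_of_add_eq_zero_left h5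
      · exact absurd h4 hc0
    have e1 : ((P₀⁻¹ * g * P₀ : GL (Fin n) F) : Matrix (Fin n) (Fin n) F) i j
        = (((P₀⁻¹ : GL (Fin n) F) : Matrix (Fin n) (Fin n) F) *ᵥ ((g : Matrix (Fin n) (Fin n) F)
          *ᵥ ((P₀ : Matrix (Fin n) (Fin n) F) *ᵥ Pi.single j 1))) i := by
      rw [Matrix.mulVec_mulVec, Matrix.mulVec_mulVec, ← Units.val_mul, ← Units.val_mul,
        Matrix.mulVec_single_one]
      rfl
    rw [e1, hP₀, ha, Matrix.mulVec_smul, hP₀inv, Pi.smul_apply, Pi.single_apply, smul_eq_mul]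
    have ha' : a ∈ F₁ := by
      rcases ha2 with rfl | rfl
      · exact F₁.one_mem
      · exact F₁.neg_mem F₁.one_mem
    split_ifs
    · rw [mul_one]; exact ha'
    · rw [mul_zero]; exact F₁.zero_mem

end Cfsg.Agent.Helper42
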