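import Mathlib
import Cfsg.Prelude.Def_GeometricClasses
import Cfsg.Prelude.Def_Classical
import Cfsg.Agent.Helper43.OrthStd
import Cfsg.Agent.Helper98.OPar

set_option autoImplicit false

/-!
Helper library (helper42), piece `NI` of the call for S5850 (helper88): two non-isometric
non-degenerate subspaces of the same odd dimension of a quadratic space over a finite field
in which `-1` is a non-square admit a linear map negating the form.  Proof: both are
`d • (standard odd form)` in suitable bases (`Helper43.exists_basis_odd`), and the map is a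
scalar in these coordinates.
-/

open Cfsg Cfsg.Geo Matrix

namespace Cfsg.Agent.Helper42

variable {F : Type*} [Field F] [Fintype F]

omit [Fintype F] in
theorem quadFormOdd_smul (m : ℕ) (r : F) (c : Unit ⊕ (Fin m ⊕ Fin m) → F) :
    Cfsg.quadFormOdd m F (r • c) = r * r * Cfsg.quadFormOdd m F c := by
  unfold Cfsg.quadFormOdd
  simp only [Pi.smul_apply, smul_eq_mul]
  rw [mul_add, Finset.mul_sum]
  congr 1
  · ring
  · apply Finset.sum_congr rfl
    intro i _
    ring

theorem o10_noniso_neg (h2 : (2 : F) ≠ 0) {n : ℕ} (Q : (Fin n → F) → F)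
    (hQ : IsNondegenerateQuadraticForm Q) (W W' : Submodule F (Fin n → F))
    (hnd : IsNondegenerateOn (QuadraticMap.polar Q) W)
    (hnd' : IsNondegenerateOn (QuadraticMap.polar Q) W')
    (hdim : Module.finrank F W = Module.finrank F W') (hodd : Odd (Module.finrank F W))
    (hniso : ¬ AreIsometricFor Q W W') (hm1 : ¬ IsSquare (-1 : F)) :
    ∃ e : W →ₗ[F] W', ∀ w : W, Q ((e w : W') : Fin n → F) = - Q (w : Fin n → F) := by
  classical
  obtain ⟨m, hm⟩ := hodd
  let Qf : QuadraticForm F (Fin n → F) := Cfsg.Agent.Helper98.op_qf Q hQ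
  let QW : QuadraticForm F W := Qf.comp W.subtype
  let QW' : QuadraticForm F W' := Qf.comp W'.subtype
  have hPN : Cfsg.Agent.Helper43.PolarNondeg QW := by
    intro v hv
    by_contra hne
    have hne' : (v : Fin n → F) ≠ 0 := fun h => hne (Subtype.ext h)
    obtain ⟨-, x, hx, hxv⟩ := hnd v v.2 hne'
    exact hxv (hv ⟨x, hx⟩)
  have hPN' : Cfsg.Agent.Helper43.PolarNondeg QW' := by
    intro v hv
    by_contra hne
    have hne' : (v : Fin n → F) ≠ 0 := fun h => hne (Subtype.ext h)
    obtain ⟨-, x, hx, hxv⟩ := hnd' v v.2 hne'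
    exact hxv (hv ⟨x, hx⟩)
  obtain ⟨b, δ, hδ, hb⟩ := Cfsg.Agent.Helper43.OrthStd.exists_basis_odd (V := W) (m := m) hm QW hPN
  obtain ⟨b', δ', hδ', hb'⟩ := Cfsg.Agent.Helper43.OrthStd.exists_basis_odd (V := W') (m := m)
    (by rw [← hdim]; exact hm) QW' hPN'
  have hδ'' : δ / δ' ≠ 0 := div_ne_zero hδ hδ'
  by_cases hsq : IsSquare (δ / δ')
  · exfalso
    obtain ⟨s, hs⟩ := hsq
    have hs0 : s ≠ 0 := by
      rintro rfl
      rw [mul_zero] at hs
      exact hδ'' hs
    apply hniso
    refine ⟨b.equivFun.trans ((LinearEquiv.smulOfNeZero F _ s hs0).trans b'.equivFun.symm), ?_⟩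
    intro w
    show QW' ((b.equivFun.trans ((LinearEquiv.smulOfNeZero F _ s hs0).trans b'.equivFun.symm)) w) =
      QW w
    rw [hb', hb]
    have h3 : b'.equivFun ((b.equivFun.trans
        ((LinearEquiv.smulOfNeZero F _ s hs0).trans b'.equivFun.symm)) w) = s • b.equivFun w := by
      rw [LinearEquiv.trans_apply, LinearEquiv.trans_apply, LinearEquiv.apply_symm_apply,
        LinearEquiv.smulOfNeZero_apply]
    rw [h3, quadFormOdd_smul, ← hs]
    field_simp
  · have hsq2 : IsSquare (-(δ / δ')) := by
      have h1 := quadraticChar_neg_one_iff_not_isSquare.mpr hm1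
      have h2' := quadraticChar_neg_one_iff_not_isSquare.mpr hsq
      have hne : (-1 : F) * (δ / δ') ≠ 0 := mul_ne_zero (neg_ne_zero.mpr one_ne_zero) hδ''
      have h3 : IsSquare ((-1 : F) * (δ / δ')) := by
        rw [← quadraticChar_one_iff_isSquare hne, map_mul, h1, h2']
        norm_num
      rwa [neg_one_mul] at h3
    obtain ⟨r, hr⟩ := hsq2
    refine ⟨b'.equivFun.symm.toLinearMap.comp
      ((r • LinearMap.id).comp b.equivFun.toLinearMap), ?_⟩
    intro w
    show QW' ((b'.equivFun.symm.toLinearMap.comp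
      ((r • LinearMap.id).comp b.equivFun.toLinearMap)) w) = - QW w
    rw [hb', hb]
    have h3 : b'.equivFun ((b'.equivFun.symm.toLinearMap.comp
        ((r • LinearMap.id).comp b.equivFun.toLinearMap)) w) = r • b.equivFun w := by
      show b'.equivFun (b'.equivFun.symm (r • b.equivFun w)) = r • b.equivFun w
      exact LinearEquiv.apply_symm_apply _ _
    rw [h3, quadFormOdd_smul, ← hr]
    field_simp

end Cfsg.Agent.Helper42
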