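import Mathlib
import Cfsg.Agent.Helper30.UGDefs
import Cfsg.Agent.Helper43.HermOrtho

set_option autoImplicit false

/-! Piece ES of CALL S2708 (helper42): existence of a symmetric unitary matrix with a given
symmetric descent matrix. -/

namespace Cfsg.Agent.Helper42.UGES

open Matrix Cfsg.Agent.Helper44.PSLn Cfsg.Agent.Helper44.PSUn Cfsg.Agent.Helper43.GraphAut
open Cfsg.Agent.Helper30.UG

universe u v

variable {F : Type u} [Field F] [Fintype F] {q n : ℕ}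

section Dict

variable {F₀ : Type v} [Field F₀] (hF : Fintype.card F = q ^ 2) (ι : F₀ →+* F)
  (hι : ∀ x, ulang_tau hF x = x ↔ x ∈ Set.range ι)

include hι

/-- ES -/
theorem ug_exists_sym (B : GL (Fin n) F₀) (hB : (B : Mn n F₀)ᵀ = (B : Mn n F₀)) :
    ∃ (g : ↥(Cfsg.GU n F q)) (k : GL (Fin n) F), UDat hF ι g k B ∧
      ((g : GL (Fin n) F) : Mn n F)ᵀ = ((g : GL (Fin n) F) : Mn n F) := by
  obtain ⟨Y, hYdef⟩ : ∃ Y : Mn n F, Y = (B : Mn n F₀).map ι := ⟨_, rfl⟩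
  have hYt : Y.map (ulang_tau hF) = Y := by rw [hYdef]; exact ug_iota_fixed hF ι hι _
  have hYs : Yᵀ = Y := by rw [hYdef, ← ug_iota_transpose, hB]
  have hYh : Cfsg.Agent.Helper43.HermAdj.hadj q Y = Y := by
    rw [Cfsg.Agent.Helper43.HermAdj.hadj_eq_map
      (φ := ((ulang_tau hF : RingAut F) : F →+* F)) (fun a => ulang_tau_apply hF a)]
    show (Y.map (ulang_tau hF))ᵀ = Y
    rw [hYt, hYs]
  have hYu : IsUnit Y := by
    rw [Matrix.isUnit_iff_isUnit_det, hYdef, ug_iota_det]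
    have : IsUnit (B : Mn n F₀).det := (Matrix.isUnit_iff_isUnit_det _).mp (Units.isUnit B)
    exact this.map ι
  obtain ⟨P, hP⟩ := Cfsg.Agent.Helper43.HermOrtho.exists_hadj_mul hF Y hYh hYu
  rw [Cfsg.Agent.Helper43.HermAdj.hadj_eq_map
    (φ := ((ulang_tau hF : RingAut F) : F →+* F)) (fun a => ulang_tau_apply hF a)] at hP
  obtain ⟨Pt, hPt⟩ : ∃ Pt : Mn n F, Pt = P.map (ulang_tau hF) := ⟨_, rfl⟩
  have E1 : (Ptᵀ * Y) * P = 1 := by rw [hPt]; exact hP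
  have E2 : P * (Ptᵀ * Y) = 1 := mul_eq_one_comm.mp E1
  have hPtt : Pt.map (ulang_tau hF) = P := by rw [hPt]; exact ug_map_map hF P
  have E3 : (Pᵀ * Y) * Pt = 1 := by
    have h : ((Ptᵀ * Y) * P).map (ulang_tau hF) = (1 : Mn n F).map (ulang_tau hF) := by
      rw [E1]
    rw [ug_map_mul, ug_map_mul, ug_map_transpose, hPtt, hYt, ug_map_one, ← hPt] at h
    exact h
  have E4 : Pt * (Pᵀ * Y) = 1 := mul_eq_one_comm.mp E3
  have hkt : (Pᵀ * Y).map (ulang_tau hF) = Ptᵀ * Y := by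
    rw [ug_map_mul, ug_map_transpose, hYt, ← hPt]
  have hgGU : (⟨Pᵀ * Y, Pt, E3, E4⟩ * ⟨P, Ptᵀ * Y, E2, E1⟩ : GL (Fin n) F) ∈ Cfsg.GU n F q := by
    rw [ug_mem_GU hF]
    show ((Pᵀ * Y) * P)ᵀ * ((Pᵀ * Y) * P).map (ulang_tau hF) = 1
    rw [ug_map_mul, hkt, ← hPt, Matrix.transpose_mul, Matrix.transpose_mul,
      Matrix.transpose_transpose, hYs]
    calc Pᵀ * (Y * P) * (Ptᵀ * Y * Pt) = Pᵀ * Y * (P * (Ptᵀ * Y)) * Pt := by
          simp only [Matrix.mul_assoc]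
      _ = 1 := by rw [E2, Matrix.mul_one, E3]
  refine ⟨⟨_, hgGU⟩, ⟨Pᵀ * Y, Pt, E3, E4⟩, ?_, ?_⟩
  · unfold UDat
    refine ⟨1, 1, one_ne_zero, one_ne_zero, ?_, ?_⟩
    · show (1 : F) • ((Pᵀ * Y) * P) * (Pᵀ * Y).map (ulang_tau hF) = Pᵀ * Y
      rw [one_smul, hkt, Matrix.mul_assoc, E2, Matrix.mul_one]
    · show (Pᵀ * Y)ᵀ * (Pᵀ * Y).map (ulang_tau hF) = (1 : F) • (B : Mn n F₀).map ι
      rw [one_smul, hkt, Matrix.transpose_mul, Matrix.transpose_transpose, hYs, Matrix.mul_assoc,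
        E2, Matrix.mul_one, hYdef]
  · show ((Pᵀ * Y) * P)ᵀ = (Pᵀ * Y) * P
    rw [Matrix.transpose_mul, Matrix.transpose_mul, Matrix.transpose_transpose, hYs,
      Matrix.mul_assoc]

end Dict

end Cfsg.Agent.Helper42.UGES
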