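import Cfsg.Agent.Helper42.QuadF2

/-!
Witt index over `ZMod 2` (helper library of helper42; used for S2562).
-/

set_option autoImplicit false

namespace Cfsg.Agent.Helper42

open Cfsg

theorem finrank_space (m : ℕ) : Module.finrank (ZMod 2) (Fin m ⊕ Fin m → ZMod 2) = 2 * m := by
  rw [Module.finrank_fintype_fun_eq_card]
  simp [two_mul]

theorem le_orthogonal_of_singular {m : ℕ} {q : (Fin m ⊕ Fin m → ZMod 2) → ZMod 2} (hq : IsPol m q)
    (U : Submodule (ZMod 2) (Fin m ⊕ Fin m → ZMod 2)) (hU : ∀ u ∈ U, q u = 0) :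
    U ≤ (polB m).orthogonal U := by
  intro v hv
  rw [LinearMap.BilinForm.mem_orthogonal_iff]
  intro w hw
  show polB m w v = 0
  rw [polB_apply]
  have h := hq w v
  rw [hU _ (U.add_mem hw hv), hU w hw, hU v hv] at h
  simpa using h.symm

theorem finrank_le_of_singular {m : ℕ} {q : (Fin m ⊕ Fin m → ZMod 2) → ZMod 2} (hq : IsPol m q)
    (U : Submodule (ZMod 2) (Fin m ⊕ Fin m → ZMod 2)) (hU : ∀ u ∈ U, q u = 0) :
    Module.finrank (ZMod 2) U ≤ m := by
  have h1 := Submodule.finrank_mono (le_orthogonal_of_singular hq U hU)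
  rw [LinearMap.BilinForm.finrank_orthogonal (polB_nondegenerate m), finrank_space] at h1
  omega

theorem perp_of_finrank_eq {m : ℕ} {q : (Fin m ⊕ Fin m → ZMod 2) → ZMod 2} (hq : IsPol m q)
    (U : Submodule (ZMod 2) (Fin m ⊕ Fin m → ZMod 2)) (hU : ∀ u ∈ U, q u = 0)
    (hdim : Module.finrank (ZMod 2) U = m) :
    ∀ v, (∀ u ∈ U, pol m v u = 0) → v ∈ U := by
  have h1 : U = (polB m).orthogonal U := by
    apply Submodule.eq_of_le_of_finrank_eq (le_orthogonal_of_singular hq U hU)
    rw [LinearMap.BilinForm.finrank_orthogonal (polB_nondegenerate m), finrank_space, hdim]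
    omega
  intro v hv
  rw [h1, LinearMap.BilinForm.mem_orthogonal_iff]
  intro w hw
  show polB m w v = 0
  rw [polB_apply, pol_comm]
  exact hv w hw

/-- no totally singular subspace of dimension `n + 1` for the form `qa (a0 n)` -/
theorem finrank_le_of_singular_qa_a0 (n : ℕ)
    (U : Submodule (ZMod 2) (Fin (n + 1) ⊕ Fin (n + 1) → ZMod 2))
    (hU : ∀ u ∈ U, qa (n + 1) (a0 n) u = 0) :
    Module.finrank (ZMod 2) U ≤ n := by
  have h1 := finrank_le_of_singular (qa_isPol (n + 1) (a0 n)) U hU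
  by_contra hcon
  have hdim : Module.finrank (ZMod 2) U = n + 1 := by omega
  have h2 := signSum_of_lagrangian (qa_isPol (n + 1) (a0 n)) U hU
    (perp_of_finrank_eq (qa_isPol (n + 1) (a0 n)) U hU hdim)
  rw [signSum_qa, quadFormPlus_a0, chi_one, signSum_plus] at h2
  have h3 : (0 : ℤ) ≤ (Nat.card U : ℤ) := Int.natCast_nonneg _
  have h4 : (0 : ℤ) < 2 ^ (n + 1) := by positivity
  linarith

/-- totally singular subspaces of the minus-type form have dimension at most `n` -/
theorem finrank_le_of_singular_minus (n : ℕ)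
    (U : Submodule (ZMod 2) ((Fin n ⊕ Fin n) ⊕ Fin 2 → ZMod 2))
    (hU : ∀ u ∈ U, quadFormMinus n (ZMod 2) 1 1 u = 0) :
    Module.finrank (ZMod 2) U ≤ n := by
  rw [← LinearEquiv.finrank_map_eq (reidx n).symm U]
  apply finrank_le_of_singular_qa_a0
  rintro _ ⟨u, hu, rfl⟩
  rw [← quadFormMinus_reidx]
  simpa using hU u hu

/-- `x ↦ ((x, 0), 0)` -/
def inlMapMinus (n : ℕ) : (Fin n → ZMod 2) →ₗ[ZMod 2] ((Fin n ⊕ Fin n) ⊕ Fin 2 → ZMod 2) where
  toFun x := Sum.elim (Sum.elim x 0) 0
  map_add' x y := by funext j; rcases j with (i | i) | i <;> simp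
  map_smul' c x := by funext j; rcases j with (i | i) | i <;> simp

theorem inlMapMinus_injective (n : ℕ) : Function.Injective (inlMapMinus n) := by
  intro x y h
  funext i
  exact congrFun h (Sum.inl (Sum.inl i))

theorem quadFormMinus_inlMapMinus (n : ℕ) (x : Fin n → ZMod 2) :
    quadFormMinus n (ZMod 2) 1 1 (inlMapMinus n x) = 0 := by
  simp [quadFormMinus, inlMapMinus]

theorem finrank_range_inlMapMinus (n : ℕ) :
    Module.finrank (ZMod 2) (LinearMap.range (inlMapMinus n)) = n := by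
  rw [LinearMap.finrank_range_of_inj (inlMapMinus_injective n)]
  simp

end Cfsg.Agent.Helper42
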